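/-
Automorphisms of twisted groups: every automorphism is, up to an inner one, standard: it preserves the fixed points of
`U` and of `V`.  Standard automorphisms preserve the fixed points of `B` and `H`.
-/
import Cfsg.Agent.Lib.Tw.Chain
import Cfsg.Agent.Lib.ChevAut.Std
import Cfsg.Agent.Lib.BN.RankOne

set_option autoImplicit false

namespace Cfsg.Agent.Lib.ReeAut

open Cfsg.Lie Cfsg.Agent.Lib.Chev

section Generic

variable {G : Type*} [Group G]

/-- A subgroup mapped into itself by an automorphism of a finite group is preserved. -/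
lemma aut_mem_iff [Finite G] (β : MulAut G) {K : Subgroup G} (hK : ∀ x ∈ K, β x ∈ K) (x : G) : β x ∈ K ↔ x ∈ K := by
  refine ⟨fun hx => ?_, hK x⟩
  have hle : K.map β.toMonoidHom ≤ K := by
    rintro _ ⟨y, hy, rfl⟩
    exact hK y hy
  have hcard : Nat.card (K.map β.toMonoidHom) = Nat.card K :=
    Subgroup.card_map_of_injective β.injective
  have heq : K.map β.toMonoidHom = K := Subgroup.eq_of_le_of_card_ge hle hcard.ge
  rw [← heq] at hx
  obtain ⟨y, hy, e⟩ := hx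
  rwa [← β.injective e]

lemma mem_conj_smul {p : ℕ} [Fact p.Prime] (Q : Sylow p G) (g x : G) :
    x ∈ ((g • Q : Sylow p G) : Subgroup G) ↔ g⁻¹ * x * g ∈ (Q : Subgroup G) := by
  rw [Sylow.coe_subgroup_smul, Subgroup.mem_pointwise_smul_iff_inv_smul_mem, MulAut.smul_def, MulAut.conj_inv_apply]

lemma mem_aut_smul {p : ℕ} [Fact p.Prime] [Finite G] (Q : Sylow p G) (α : MulAut G) (x : G) :
    x ∈ ((α • Q : Sylow p G) : Subgroup G) ↔ α⁻¹ x ∈ (Q : Subgroup G) := by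
  rw [Sylow.pointwise_smul_def, Subgroup.mem_pointwise_smul_iff_inv_smul_mem, MulAut.smul_def]

end Generic

section

variable {F : Type*} [Field F] {D : ChevalleyDatum} {T : Tbl} {hG : T.Good2 D}

/-- `U` in the fixed points. -/
abbrev fU (S : Tw hG F) : Subgroup ↥S.fix := (D.posUnipotent F).subgroupOf S.fix
/-- `V` in the fixed points. -/
abbrev fV (S : Tw hG F) : Subgroup ↥S.fix := (D.negUnipotent F).subgroupOf S.fix
/-- `B` in the fixed points. -/
abbrev fB (S : Tw hG F) : Subgroup ↥S.fix := (D.borelSubgroup F).subgroupOf S.fix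
/-- `H` in the fixed points. -/
abbrev fH (S : Tw hG F) : Subgroup ↥S.fix := (D.diagonalSubgroup F).subgroupOf S.fix
/-- The positive orbit group in the fixed points. -/
abbrev fX (S : Tw hG F) (J : Set ℕ) : Subgroup ↥S.fix := (XJ D F J).subgroupOf S.fix
/-- The negative orbit group in the fixed points. -/
abbrev fY (S : Tw hG F) (J : Set ℕ) : Subgroup ↥S.fix := (YJ D F J).subgroupOf S.fix

lemma neg_of_all (m : ↥(D.monomialSubgroup F))
    (h : ∀ r : Fin D.nroots, D.nroots / 2 ≤ (r : ℕ) → (hG.permN m r : ℕ) < D.nroots / 2)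
    (s : Fin D.nroots) (hs : (s : ℕ) < D.nroots / 2) : D.nroots / 2 ≤ (hG.permN m⁻¹ s : ℕ) := by
  by_contra hc
  have hr := not_le.1 hc
  set r := hG.permN m⁻¹ s with hrd
  have h1 := h ⟨D.neg r, hG.neg_lt r.2⟩ ((hG.neg_pos_iff r.2).2 hr)
  rw [hG.permN_neg m r] at h1
  have h2 : hG.permN m r = s := by
    rw [hrd, ← Equiv.Perm.mul_apply, ← map_mul, mul_inv_cancel, map_one]
    rfl
  rw [h2] at h1
  exact absurd ((hG.neg_pos_iff s.2).2 hs) (not_le.2 h1)

lemma neg_of_all' (m : ↥(D.monomialSubgroup F))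
    (h : ∀ r : Fin D.nroots, D.nroots / 2 ≤ (r : ℕ) → (hG.permN m r : ℕ) < D.nroots / 2)
    (s : Fin D.nroots) (hs : D.nroots / 2 ≤ (s : ℕ)) : (hG.permN m⁻¹ s : ℕ) < D.nroots / 2 := by
  by_contra hc
  have hr := not_lt.1 hc
  have h1 := h _ hr
  have h2 : hG.permN m (hG.permN m⁻¹ s) = s := by
    rw [← Equiv.Perm.mul_apply, ← map_mul, mul_inv_cancel, map_one]
    rfl
  rw [h2] at h1
  exact absurd hs (not_le.2 h1)

lemma conj_U_le (m : ↥(D.monomialSubgroup F))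
    (h : ∀ r : Fin D.nroots, D.nroots / 2 ≤ (r : ℕ) → (hG.permN m r : ℕ) < D.nroots / 2)
    {g : GL D.Idx F} (hg : g ∈ D.posUnipotent F) : (m : GL D.Idx F) * g * (m : GL D.Idx F)⁻¹ ∈ D.negUnipotent F :=
  hG.conj_rootsGen m (P := D.IsPosRoot) (Q := D.IsNegRoot) (fun _ hr => hr.1)
    (fun r hr => (hG.isNeg_iff (hG.permN m r).2).2 (h r ((hG.isPos_iff r.2).1 hr))) hg

lemma conj_V_le (m : ↥(D.monomialSubgroup F))
    (h : ∀ r : Fin D.nroots, D.nroots / 2 ≤ (r : ℕ) → (hG.permN m r : ℕ) < D.nroots / 2)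
    {g : GL D.Idx F} (hg : g ∈ D.negUnipotent F) : (m : GL D.Idx F)⁻¹ * g * (m : GL D.Idx F) ∈ D.posUnipotent F := by
  have := hG.conj_rootsGen m⁻¹ (P := D.IsNegRoot) (Q := D.IsPosRoot) (fun _ hr => hr.1)
    (fun r hr => (hG.isPos_iff (hG.permN m⁻¹ r).2).2 (neg_of_all m h r ((hG.isNeg_iff r.2).1 hr))) hg
  have e : ((m⁻¹ : ↥(D.monomialSubgroup F)) : GL D.Idx F) = (m : GL D.Idx F)⁻¹ := rfl
  rwa [e, inv_inv] at this

lemma conj_U_le' (m : ↥(D.monomialSubgroup F))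
    (h : ∀ r : Fin D.nroots, D.nroots / 2 ≤ (r : ℕ) → (hG.permN m r : ℕ) < D.nroots / 2)
    {g : GL D.Idx F} (hg : g ∈ D.posUnipotent F) : (m : GL D.Idx F)⁻¹ * g * (m : GL D.Idx F) ∈ D.negUnipotent F := by
  have := hG.conj_rootsGen m⁻¹ (P := D.IsPosRoot) (Q := D.IsNegRoot) (fun _ hr => hr.1)
    (fun r hr => (hG.isNeg_iff (hG.permN m⁻¹ r).2).2 (neg_of_all' m h r ((hG.isPos_iff r.2).1 hr))) hg
  have e : ((m⁻¹ : ↥(D.monomialSubgroup F)) : GL D.Idx F) = (m : GL D.Idx F)⁻¹ := rfl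
  rwa [e, inv_inv] at this

lemma conj_V_le' (m : ↥(D.monomialSubgroup F))
    (h : ∀ r : Fin D.nroots, D.nroots / 2 ≤ (r : ℕ) → (hG.permN m r : ℕ) < D.nroots / 2)
    {g : GL D.Idx F} (hg : g ∈ D.negUnipotent F) : (m : GL D.Idx F) * g * (m : GL D.Idx F)⁻¹ ∈ D.posUnipotent F := by
  refine hG.conj_rootsGen m (P := D.IsNegRoot) (Q := D.IsPosRoot) (fun _ hr => hr.1) (fun r hr => ?_) hg
  refine (hG.isPos_iff (hG.permN m r).2).2 ?_
  by_contra hc
  have hr := (hG.isNeg_iff r.2).1 hr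
  have h1 := h ⟨D.neg r, hG.neg_lt r.2⟩ ((hG.neg_pos_iff r.2).2 hr)
  rw [hG.permN_neg m r] at h1
  exact absurd ((hG.neg_pos_iff (hG.permN m r).2).2 (not_le.1 hc)) (not_le.2 h1)

lemma fB_inf_fV (hG : T.Good2 D) {S : Tw hG F} {x : ↥S.fix} (h1 : x ∈ fB S) (h2 : x ∈ fV S) : x = 1 := by
  have h3 : (x : GL D.Idx F) ∈ D.borelSubgroup F ⊓ D.negUnipotent F :=
    ⟨Subgroup.mem_subgroupOf.1 h1, Subgroup.mem_subgroupOf.1 h2⟩
  rw [hG.borel_inf_V, Subgroup.mem_bot] at h3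
  exact Subtype.ext h3

lemma fU_le_fB (S : Tw hG F) : fU S ≤ fB S := fun _ hx =>
  Subgroup.mem_subgroupOf.2 (Tbl.Good2.le_borel_U (Subgroup.mem_subgroupOf.1 hx))

lemma fH_le_fB (S : Tw hG F) : fH S ≤ fB S := fun _ hx =>
  Subgroup.mem_subgroupOf.2 (Tbl.Good2.le_borel_H (Subgroup.mem_subgroupOf.1 hx))

lemma fU_inf_fV (hG : T.Good2 D) {S : Tw hG F} {x : ↥S.fix} (h1 : x ∈ fU S) (h2 : x ∈ fV S) : x = 1 :=
  fB_inf_fV hG (fU_le_fB S h1) h2

section TwNPart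

open TwN

variable {S : Tw hG F} {O : TwOrb T D S.τ} (A : TwN S O)
include A

/-- An element of `N¹` either sends all positive roots to negative ones, or it conjugates a non-trivial element of
`U¹` into `U`. -/
lemma pos_or_neg (m : ↥(D.monomialSubgroup F)) (hm : (m : GL D.Idx F) ∈ S.fix) :
    (∀ r : Fin D.nroots, D.nroots / 2 ≤ (r : ℕ) → (hG.permN m r : ℕ) < D.nroots / 2) ∨
      ∃ x ∈ D.posUnipotent F, x ∈ S.fix ∧ x ≠ 1 ∧ (m : GL D.Idx F) * x * (m : GL D.Idx F)⁻¹ ∈ D.posUnipotent F := by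
  by_cases hall : ∀ k (hk : k < D.rank), (hG.permN m ⟨D.simple k, hG.simple_lt hk⟩ : ℕ) < D.nroots / 2
  · left
    intro r hr
    exact hG.sign_neg m (J := Set.univ) (fun k hk _ => hall k hk) hr ⟨r.2, fun _ _ hi => (hi trivial).elim⟩
  · right
    push_neg at hall
    obtain ⟨k, hk, hpos⟩ := hall
    have hj := O.inJ_lt k hk
    obtain ⟨x, hx, hxf, hx1⟩ := A.nontriv _ hj
    refine ⟨x, X_le_U _ hx, hxf, hx1, ?_⟩
    rcases sign_dich m hm.2 hj with hd | hd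
    · exact hG.conj_rootsGen m (P := fun r => D.IsPosRoot r ∧ D.InRootSub (O.J (O.inJ k)) r) (Q := D.IsPosRoot)
        (fun _ hr => hr.1.1) (fun r hr => (hG.isPos_iff (hG.permN m r).2).2
          (hd r ((hG.isPos_iff r.2).1 hr.1) hr.2)) hx
    · exact absurd hpos (not_le.2 (hd ⟨D.simple k, hG.simple_lt hk⟩
        ((hG.isPos_iff (hG.simple_lt hk)).1 (hG.simple_pos hk)) (O.simple_In A.good3 hk)))

/-- A conjugate of `U¹` meeting `U¹` trivially is a `U¹`-conjugate of `V¹`. -/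
theorem exists_conj_V_fix {y : ↥S.fix} (h : ∀ x ∈ fU S, y * x * y⁻¹ ∈ fU S → x = 1) :
    ∃ u ∈ fU S, ∀ z : ↥S.fix, y⁻¹ * z * y ∈ fU S ↔ u⁻¹ * z * u ∈ fV S := by
  obtain ⟨a, ha, haf, m, hmf, c, hc, hcf, e⟩ := S.fix_canon y.2
  have hcU : c ∈ D.posUnipotent F := Tbl.Good2.rootsGen_pos_le (fun r hr => (hG.isPos_iff hr.1).2 hr.2.1) hc
  have hneg : ∀ r : Fin D.nroots, D.nroots / 2 ≤ (r : ℕ) → (hG.permN m r : ℕ) < D.nroots / 2 := by
    rcases pos_or_neg A m hmf with h1 | ⟨x, hxU, hxf, hx1, hxm⟩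
    · exact h1
    · exfalso
      have hcx : c⁻¹ * x * c ∈ D.posUnipotent F :=
        Subgroup.mul_mem _ (Subgroup.mul_mem _ (Subgroup.inv_mem _ hcU) hxU) hcU
      have hcf' : c⁻¹ * x * c ∈ S.fix :=
        Subgroup.mul_mem _ (Subgroup.mul_mem _ (Subgroup.inv_mem _ hcf) hxf) hcf
      have e2 : ((y : GL D.Idx F)) * (c⁻¹ * x * c) * (y : GL D.Idx F)⁻¹ = a * ((m : GL D.Idx F) * x * (m : GL D.Idx F)⁻¹) * a⁻¹ := by
        rw [e]
        group
      have h3 := h ⟨_, hcf'⟩ (Subgroup.mem_subgroupOf.2 hcx) (Subgroup.mem_subgroupOf.2 (by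
        show ((y : GL D.Idx F)) * (c⁻¹ * x * c) * (y : GL D.Idx F)⁻¹ ∈ _
        rw [e2]
        exact Subgroup.mul_mem _ (Subgroup.mul_mem _ ha hxm) (Subgroup.inv_mem _ ha)))
      have h4 : c⁻¹ * x * c = 1 := congrArg Subtype.val h3
      apply hx1
      have e3 : x = c * (c⁻¹ * x * c) * c⁻¹ := by group
      rw [e3, h4]
      group
  refine ⟨⟨a, haf⟩, Subgroup.mem_subgroupOf.2 ha, fun z => ?_⟩
  rw [Subgroup.mem_subgroupOf, Subgroup.mem_subgroupOf]
  show (y : GL D.Idx F)⁻¹ * z * y ∈ _ ↔ a⁻¹ * z * a ∈ _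
  have e2 : (y : GL D.Idx F)⁻¹ * z * y = c⁻¹ * ((m : GL D.Idx F)⁻¹ * (a⁻¹ * z * a) * m) * c := by
    rw [e]
    group
  rw [e2]
  constructor
  · intro hz
    have h1 : (m : GL D.Idx F)⁻¹ * (a⁻¹ * z * a) * m ∈ D.posUnipotent F := by
      have e3 : (m : GL D.Idx F)⁻¹ * (a⁻¹ * z * a) * m = c * (c⁻¹ * ((m : GL D.Idx F)⁻¹ * (a⁻¹ * z * a) * m) * c) * c⁻¹ := by group
      rw [e3]
      exact Subgroup.mul_mem _ (Subgroup.mul_mem _ hcU hz) (Subgroup.inv_mem _ hcU)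
    have h2 := conj_U_le m hneg h1
    have e3 : (m : GL D.Idx F) * ((m : GL D.Idx F)⁻¹ * (a⁻¹ * z * a) * m) * (m : GL D.Idx F)⁻¹ = a⁻¹ * z * a := by group
    rwa [e3] at h2
  · intro hz
    exact Subgroup.mul_mem _ (Subgroup.mul_mem _ (Subgroup.inv_mem _ hcU) (conj_V_le m hneg hz)) hcU

/-- The normaliser of `U¹`. -/
theorem mem_fB_iff {x : ↥S.fix} : x ∈ fB S ↔ ∀ y ∈ fU S, x * y * x⁻¹ ∈ fU S := by
  constructor
  · intro hx y hy
    exact Subgroup.mem_subgroupOf.2 (hG.B_conj_U (Subgroup.mem_subgroupOf.1 hx) (Subgroup.mem_subgroupOf.1 hy))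
  · intro h
    obtain ⟨a, ha, haf, m, hmf, c, hc, hcf, e⟩ := S.fix_canon x.2
    have hcU : c ∈ D.posUnipotent F := Tbl.Good2.rootsGen_pos_le (fun r hr => (hG.isPos_iff hr.1).2 hr.2.1) hc
    have hm : (m : GL D.Idx F) ∈ D.diagonalSubgroup F := by
      refine hG.mem_H_of_pos (fun r hr => pos_all m (fun k hk => ?_) hr)
      by_contra hk'
      have hneg := not_le.1 hk'
      have hj := O.inJ_lt k hk
      obtain ⟨t, ht, htf, ht1⟩ := A.nontriv _ hj
      rcases sign_dich m hmf.2 hj with hd | hd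
      · exact absurd (hd ⟨D.simple k, hG.simple_lt hk⟩ ((hG.isPos_iff (hG.simple_lt hk)).1 (hG.simple_pos hk))
          (O.simple_In A.good3 hk)) (not_le.2 hneg)
      · have h1 : (m : GL D.Idx F) * t * (m : GL D.Idx F)⁻¹ ∈ D.negUnipotent F :=
          hG.conj_rootsGen m (P := fun r => D.IsPosRoot r ∧ D.InRootSub (O.J (O.inJ k)) r) (Q := D.IsNegRoot)
            (fun _ hr => hr.1.1) (fun r hr => (hG.isNeg_iff (hG.permN m r).2).2
              (hd r ((hG.isPos_iff r.2).1 hr.1) hr.2)) ht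
        have htU := X_le_U _ ht
        have hcx : c⁻¹ * t * c ∈ D.posUnipotent F :=
          Subgroup.mul_mem _ (Subgroup.mul_mem _ (Subgroup.inv_mem _ hcU) htU) hcU
        have hcf' : c⁻¹ * t * c ∈ S.fix :=
          Subgroup.mul_mem _ (Subgroup.mul_mem _ (Subgroup.inv_mem _ hcf) htf) hcf
        have h2 := Subgroup.mem_subgroupOf.1 (h ⟨_, hcf'⟩ (Subgroup.mem_subgroupOf.2 hcx))
        have h3 : (m : GL D.Idx F) * t * (m : GL D.Idx F)⁻¹ = a⁻¹ * (((x : GL D.Idx F)) * (c⁻¹ * t * c) * (x : GL D.Idx F)⁻¹) * a := by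
          rw [e]
          group
        have h4 : (m : GL D.Idx F) * t * (m : GL D.Idx F)⁻¹ ∈ D.posUnipotent F ⊓ D.negUnipotent F := by
          refine ⟨?_, h1⟩
          rw [h3]
          exact Subgroup.mul_mem _ (Subgroup.mul_mem _ (Subgroup.inv_mem _ ha) h2) ha
        rw [hG.U_inf_V, Subgroup.mem_bot] at h4
        apply ht1
        have e3 : t = (m : GL D.Idx F)⁻¹ * ((m : GL D.Idx F) * t * (m : GL D.Idx F)⁻¹) * m := by group
        rw [e3, h4]
        group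
    refine Subgroup.mem_subgroupOf.2 ?_
    rw [e]
    exact Subgroup.mul_mem _ (Subgroup.mul_mem _ (Tbl.Good2.le_borel_U ha) (Tbl.Good2.le_borel_H hm)) (Tbl.Good2.le_borel_U hcU)

end TwNPart

/-- Standard automorphisms of the fixed points. -/
structure IsStdF {S : Tw hG F} (β : MulAut ↥S.fix) : Prop where
  U : ∀ x, β x ∈ fU S ↔ x ∈ fU S
  V : ∀ x, β x ∈ fV S ↔ x ∈ fV S

section TwNPart2

open TwN

variable {S : Tw hG F} {O : TwOrb T D S.τ} (A : TwN S O)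
include A

/-- `V¹` is conjugate to `U¹`, and every automorphism is standard up to an inner automorphism. -/
theorem exists_std [Finite ↥S.fix] {p : ℕ} [Fact p.Prime] (PU : Sylow p ↥S.fix) (hPU : (PU : Subgroup ↥S.fix) = fU S)
    (m0 : ↥(D.monomialSubgroup F)) (hm0f : (m0 : GL D.Idx F) ∈ S.fix)
    (hm0 : ∀ r : Fin D.nroots, D.nroots / 2 ≤ (r : ℕ) → (hG.permN m0 r : ℕ) < D.nroots / 2) (α : MulAut ↥S.fix) :
    ∃ g : ↥S.fix, IsStdF (MulAut.conj g * α) := by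
  -- first step: `U¹`
  obtain ⟨g, hg⟩ := MulAction.exists_smul_eq (↥S.fix) (α • PU) PU
  set β := MulAut.conj g * α with hβ
  have hU : ∀ x ∈ fU S, β x ∈ fU S := by
    intro x hx
    have e1 : α x ∈ ((α • PU : Sylow p ↥S.fix) : Subgroup ↥S.fix) := by
      rw [Sylow.pointwise_smul_def]
      exact Subgroup.smul_mem_pointwise_smul x α _ (hPU ▸ hx)
    have e2 : (MulAut.conj g) (α x) ∈ ((g • α • PU : Sylow p ↥S.fix) : Subgroup ↥S.fix) := by
      rw [Sylow.coe_subgroup_smul]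
      exact Subgroup.smul_mem_pointwise_smul _ (MulAut.conj g) _ e1
    rw [hg, hPU] at e2
    exact e2
  have hU' := aut_mem_iff β hU
  -- `V¹` as a Sylow subgroup
  let n0 : ↥S.fix := ⟨m0, hm0f⟩
  have hV : ∀ x : ↥S.fix, x ∈ fV S ↔ n0⁻¹ * x * n0 ∈ fU S := by
    intro x
    rw [Subgroup.mem_subgroupOf, Subgroup.mem_subgroupOf]
    show (x : GL D.Idx F) ∈ _ ↔ (m0 : GL D.Idx F)⁻¹ * x * m0 ∈ _
    constructor
    · intro h
      exact conj_V_le m0 hm0 h
    · intro h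
      have := conj_U_le m0 hm0 h
      have e : (m0 : GL D.Idx F) * ((m0 : GL D.Idx F)⁻¹ * x * m0) * (m0 : GL D.Idx F)⁻¹ = x := by group
      rwa [e] at this
  obtain ⟨y, hy⟩ := MulAction.exists_smul_eq (↥S.fix) PU (β • (n0 • PU))
  have hyz : ∀ z : ↥S.fix, y⁻¹ * z * y ∈ fU S ↔ β⁻¹ z ∈ fV S := by
    intro z
    have e1 := mem_conj_smul PU y z
    rw [hy, mem_aut_smul, mem_conj_smul, hPU] at e1
    rw [hV, e1]
  have hint : ∀ x ∈ fU S, y * x * y⁻¹ ∈ fU S → x = 1 := by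
    intro x hx hyx
    have h1 : y⁻¹ * (y * x * y⁻¹) * y ∈ fU S := by
      have e : y⁻¹ * (y * x * y⁻¹) * y = x := by group
      rwa [e]
    have h2 := (hyz _).1 h1
    have h3 : β⁻¹ (y * x * y⁻¹) ∈ fU S := by
      rw [← hU', MulAut.apply_inv_self]
      exact hyx
    have h4 := fU_inf_fV hG h3 h2
    have h5 : y * x * y⁻¹ = 1 := by
      have := congrArg β h4
      rwa [MulAut.apply_inv_self, map_one] at this
    have e : x = y⁻¹ * (y * x * y⁻¹) * y := by group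
    rw [e, h5]
    group
  obtain ⟨u, hu, huz⟩ := exists_conj_V_fix A hint
  refine ⟨u⁻¹ * g, ?_, ?_⟩
  · intro x
    have e : (MulAut.conj (u⁻¹ * g) * α) x = u⁻¹ * β x * u := by
      rw [hβ, MulAut.mul_apply, MulAut.mul_apply, MulAut.conj_apply, MulAut.conj_apply]
      group
    rw [e, ← hU' x]
    constructor
    · intro h
      have e2 : β x = u * (u⁻¹ * β x * u) * u⁻¹ := by group
      rw [e2]
      exact Subgroup.mul_mem _ (Subgroup.mul_mem _ hu h) (Subgroup.inv_mem _ hu)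
    · intro h
      exact Subgroup.mul_mem _ (Subgroup.mul_mem _ (Subgroup.inv_mem _ hu) h) hu
  · intro x
    have e : (MulAut.conj (u⁻¹ * g) * α) x = u⁻¹ * β x * u := by
      rw [hβ, MulAut.mul_apply, MulAut.mul_apply, MulAut.conj_apply, MulAut.conj_apply]
      group
    rw [e, ← huz, hyz, MulAut.inv_apply_self]

end TwNPart2

namespace IsStdF

variable {S : Tw hG F} {O : TwOrb T D S.τ} (A : TwN S O) {β : MulAut ↥S.fix} (h : IsStdF β)
include A h

/-- Standard automorphisms preserve `B¹`. -/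
theorem fB_iff (x : ↥S.fix) : β x ∈ fB S ↔ x ∈ fB S := by
  rw [mem_fB_iff A, mem_fB_iff A]
  constructor
  · intro hx y hy
    have h1 := hx (β y) ((h.U y).2 hy)
    rw [← map_inv, ← map_mul, ← map_mul] at h1
    exact (h.U _).1 h1
  · intro hx y hy
    have e : y = β (β⁻¹ y) := (MulAut.apply_inv_self _ _ y).symm
    rw [e, ← map_inv, ← map_mul, ← map_mul, h.U]
    exact hx _ ((h.U _).1 (by rw [← e]; exact hy))

end IsStdF

end

end Cfsg.Agent.Lib.ReeAut
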