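/-
Automorphisms of twisted groups: standard automorphisms preserve `H¹` and permute the minimal parabolic subgroups and
the orbit groups.
-/
import Cfsg.Agent.Lib.ReeAut.TwA
import Cfsg.Agent.Lib.Tw.HChar
import Cfsg.Agent.Lib.Tw.Par2

set_option autoImplicit false

namespace Cfsg.Agent.Lib.ReeAut

open Cfsg.Lie Cfsg.Agent.Lib.Chev

section Generic

variable {G : Type*} [Group G]

/-- Minimal overgroups. -/
def IsMinOverG (B M : Subgroup G) : Prop :=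
  B < M ∧ ∀ K : Subgroup G, B ≤ K → K ≤ M → K = B ∨ K = M

lemma IsMinOverG.map {B M : Subgroup G} (hM : IsMinOverG B M) (θ : MulAut G)
    (hθ : B.map θ.toMonoidHom = B) : IsMinOverG B (M.map θ.toMonoidHom) := by
  have hinj : Function.Injective θ.toMonoidHom := θ.injective
  constructor
  · refine lt_of_le_of_ne ?_ ?_
    · rw [← hθ]
      exact Subgroup.map_mono hM.1.le
    · intro e
      rw [← hθ] at e
      exact hM.1.ne (Subgroup.map_injective hinj e)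
  · intro K h1 h2
    have hsurj : Function.Surjective θ.toMonoidHom := θ.surjective
    have e : (K.comap θ.toMonoidHom).map θ.toMonoidHom = K := Subgroup.map_comap_eq_self_of_surjective hsurj K
    have h3 : B ≤ K.comap θ.toMonoidHom := by
      rw [← Subgroup.map_le_iff_le_comap, hθ]
      exact h1
    have h4 : K.comap θ.toMonoidHom ≤ M := by
      rw [← Subgroup.map_le_map_iff_of_injective hinj, e]
      exact h2
    rcases hM.2 _ h3 h4 with h5 | h5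
    · left
      rw [← e, h5, hθ]
    · right
      rw [← e, h5]

lemma map_eq_of_iff {K : Subgroup G} {θ : MulAut G} (h : ∀ x, θ x ∈ K ↔ x ∈ K) : K.map θ.toMonoidHom = K := by
  ext x
  constructor
  · rintro ⟨a, ha, rfl⟩
    exact (h a).2 ha
  · intro hx
    refine ⟨θ⁻¹ x, ?_, MulAut.apply_inv_self _ _ x⟩
    rw [SetLike.mem_coe, ← h, MulAut.apply_inv_self]
    exact hx

lemma iff_of_map_eq {K L : Subgroup G} {θ : MulAut G} (h : K.map θ.toMonoidHom = L) (x : G) : θ x ∈ L ↔ x ∈ K := by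
  subst h
  constructor
  · rintro ⟨a, ha, e⟩
    rwa [← θ.injective e]
  · intro hx
    exact ⟨x, hx, rfl⟩

end Generic

section

variable {F : Type*} [Field F] {D : ChevalleyDatum} {T : Tbl} {hG : T.Good2 D}

omit hG in
lemma H_comm (hG : T.Good2 D) {k w : GL D.Idx F} (hk : k ∈ D.diagonalSubgroup F) (hw : w ∈ D.diagonalSubgroup F) : k * w = w * k := by
  have h := hG.eq_one_of_chi (F := F) (⟨k, hk⟩ * ⟨w, hw⟩ * (⟨k, hk⟩ : ↥(D.diagonalSubgroup F))⁻¹ * (⟨w, hw⟩ : ↥(D.diagonalSubgroup F))⁻¹) (fun i hi => by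
    rw [map_mul, map_mul, map_mul, map_inv, map_inv, mul_comm (hG.chi _ ⟨k, hk⟩), mul_inv_cancel_right, mul_inv_cancel])
  have h2 : k * w * k⁻¹ * w⁻¹ = 1 := congrArg Subtype.val h
  calc k * w = (k * w * k⁻¹ * w⁻¹) * (w * k) := by group
    _ = w * k := by rw [h2, one_mul]

section TwNPart

open TwN

variable {S : Tw hG F} {O : TwOrb T D S.τ} (A : TwN S O)
include A

/-- `H¹` is the intersection of the normalisers of `U¹` and `V¹`. -/
theorem mem_fH_iff (m0 : ↥(D.monomialSubgroup F)) (hm0f : (m0 : GL D.Idx F) ∈ S.fix)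
    (hm0 : ∀ r : Fin D.nroots, D.nroots / 2 ≤ (r : ℕ) → (hG.permN m0 r : ℕ) < D.nroots / 2) {x : ↥S.fix} :
    x ∈ fH S ↔ x ∈ fB S ∧ ∀ y ∈ fV S, x * y * x⁻¹ ∈ fV S := by
  constructor
  · intro hx
    refine ⟨fH_le_fB S hx, fun y hy => Subgroup.mem_subgroupOf.2 ?_⟩
    exact (Subgroup.mem_normalizer_iff.1 (hG.H_le_normalizer_V (Subgroup.mem_subgroupOf.1 hx)) _).1 (Subgroup.mem_subgroupOf.1 hy)
  · rintro ⟨h1, h2⟩
    obtain ⟨u, hu, k, hk, e⟩ := hG.mem_borel (Subgroup.mem_subgroupOf.1 h1)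
    have hxf : u * k ∈ S.fix := e ▸ x.2
    obtain ⟨huf, hkf⟩ := borel_fix hu hk hxf
    let u' : ↥S.fix := ⟨u, huf⟩
    let k' : ↥S.fix := ⟨k, hkf⟩
    let n0 : ↥S.fix := ⟨m0, hm0f⟩
    have ex : x = u' * k' := Subtype.ext e
    have hk'V : ∀ y ∈ fV S, k'⁻¹ * y * k' ∈ fV S := fun y hy => Subgroup.mem_subgroupOf.2 (by
      have := (Subgroup.mem_normalizer_iff.1 (hG.H_le_normalizer_V (Subgroup.inv_mem _ hk)) _).1 (Subgroup.mem_subgroupOf.1 hy)
      simpa using this)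
    have hk'V2 : ∀ y ∈ fV S, k' * y * k'⁻¹ ∈ fV S := fun y hy => Subgroup.mem_subgroupOf.2 (by
      have := (Subgroup.mem_normalizer_iff.1 (hG.H_le_normalizer_V hk) _).1 (Subgroup.mem_subgroupOf.1 hy)
      simpa using this)
    have hu'V : ∀ y ∈ fV S, u' * y * u'⁻¹ ∈ fV S := by
      intro y hy
      have e1 : u' * y * u'⁻¹ = x * (k'⁻¹ * y * k') * x⁻¹ := by
        rw [ex]
        group
      rw [e1]
      exact h2 _ (hk'V y hy)
    -- `v = m₀⁻¹ u m₀` lies in `V¹` and normalises `U¹`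
    have hv1 : n0⁻¹ * u' * n0 ∈ fV S := Subgroup.mem_subgroupOf.2 (conj_U_le' m0 hm0 hu)
    have hv2 : n0⁻¹ * u' * n0 ∈ fB S := by
      rw [mem_fB_iff A]
      intro y hy
      have h3 : n0 * y * n0⁻¹ ∈ fV S := Subgroup.mem_subgroupOf.2 (conj_U_le m0 hm0 (Subgroup.mem_subgroupOf.1 hy))
      have h4 := hu'V _ h3
      have h5 : n0⁻¹ * (u' * (n0 * y * n0⁻¹) * u'⁻¹) * n0 ∈ fU S := Subgroup.mem_subgroupOf.2 (conj_V_le m0 hm0 (Subgroup.mem_subgroupOf.1 h4))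
      have e1 : n0⁻¹ * u' * n0 * y * (n0⁻¹ * u' * n0)⁻¹ = n0⁻¹ * (u' * (n0 * y * n0⁻¹) * u'⁻¹) * n0 := by group
      rw [e1]
      exact h5
    have h6 := fB_inf_fV hG hv2 hv1
    have h7 : u' = 1 := by
      have e1 : u' = n0 * (n0⁻¹ * u' * n0) * n0⁻¹ := by group
      rw [e1, h6]
      group
    rw [ex, h7, one_mul]
    exact Subgroup.mem_subgroupOf.2 hk

/-- The parabolic subgroup of an orbit. -/
noncomputable def gPF (j : ℕ) (hj : j < O.m) : Subgroup ↥S.fix := A.bn.parabolic {A.sF j hj}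

omit A in
lemma sF_mem_S (A : TwN S O) {j : ℕ} (hj : j < O.m) : A.sF j hj ∈ A.bn.S := ⟨j, hj, rfl⟩

omit A in
lemma fB_le_gPF (A : TwN S O) {j : ℕ} (hj : j < O.m) : fB S ≤ gPF A j hj :=
  BN.B_le_parabolic (P := A.bn) _

omit A in
lemma sF_mem_gPF (A : TwN S O) {j : ℕ} (hj : j < O.m) : A.sF j hj ∈ gPF A j hj :=
  BN.subset_parabolic (P := A.bn) _ rfl

omit A in
lemma sF_not_mem (A : TwN S O) {j : ℕ} (hj : j < O.m) : A.sF j hj ∉ fB S :=
  BN.S_not_mem_B (P := A.bn) (sF_mem_S A hj)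

omit A in
lemma bn_parabolic_empty (A : TwN S O) : A.bn.parabolic ∅ = fB S := by
  unfold Cfsg.BNPair.parabolic
  rw [Subgroup.closure_empty, sup_bot_eq]
  rfl

theorem isMinOver_gPF {j : ℕ} (hj : j < O.m) : IsMinOverG (fB S) (gPF A j hj) := by
  refine ⟨lt_of_le_of_ne (fB_le_gPF A hj) fun e => sF_not_mem A hj ?_, ?_⟩
  · rw [e]
    exact sF_mem_gPF A hj
  · intro K h1 h2
    by_cases hs : A.sF j hj ∈ K
    · right
      exact le_antisymm h2 (sup_le h1 ((Subgroup.closure_le _).2 (by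
        rintro x rfl
        exact hs)))
    · left
      have h3 := BN.eq_parabolic (P := A.bn) h1
      have h4 : A.bn.S ∩ (K : Set ↥S.fix) = ∅ := by
        ext x
        simp only [Set.mem_inter_iff, Set.mem_empty_iff_false, iff_false, not_and]
        intro hx hxK
        have h5 := BN.mem_of_mem_parabolic (P := A.bn) (J := {A.sF j hj})
          (by simpa using sF_mem_S A hj) hx (h2 hxK)
        rw [Set.mem_singleton_iff] at h5
        exact hs (h5 ▸ hxK)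
      rw [h4, bn_parabolic_empty] at h3
      exact h3

theorem exists_eq_gPF {M : Subgroup ↥S.fix} (hM : IsMinOverG (fB S) M) : ∃ j, ∃ hj : j < O.m, M = gPF A j hj := by
  have h3 := BN.eq_parabolic (P := A.bn) hM.1.le
  have hne : (A.bn.S ∩ (M : Set ↥S.fix)).Nonempty := by
    by_contra hcon
    rw [Set.not_nonempty_iff_eq_empty] at hcon
    rw [hcon, bn_parabolic_empty] at h3
    exact hM.1.ne h3.symm
  obtain ⟨s, ⟨j, hj, hs⟩, hsM⟩ := hne
  have e : A.sF j hj = s := Subtype.ext hs.symm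
  refine ⟨j, hj, ?_⟩
  have hle : gPF A j hj ≤ M := sup_le hM.1.le ((Subgroup.closure_le _).2 (by
    rintro x rfl
    rw [e]
    exact hsM))
  rcases hM.2 _ (fB_le_gPF A hj) hle with h5 | h5
  · exact absurd (h5 ▸ sF_mem_gPF A hj) (sF_not_mem A hj)
  · exact h5.symm

/-- The inverse of a representative on the orbit groups. -/
lemma conj_X_inv {j : ℕ} (hj : j < O.m) {x : GL D.Idx F} (hx : x ∈ XJ D F (O.J j)) :
    (A.n j)⁻¹ * x * A.n j ∈ YJ D F (O.J j) := by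
  have := hG.conj_rootsGen (A.s j hj)⁻¹ (P := fun r => D.IsPosRoot r ∧ D.InRootSub (O.J j) r)
    (Q := fun r => D.IsNegRoot r ∧ D.InRootSub (O.J j) r) (fun _ hr => hr.1.1) (fun r hr => by
      rw [A.s_inv_perm hj]
      exact O.w_P A.good3 hj hr) hx
  have e3 : (((A.s j hj)⁻¹ : ↥(D.monomialSubgroup F)) : GL D.Idx F) = (A.n j)⁻¹ := rfl
  rwa [e3, inv_inv] at this

lemma conj_Y_inv {j : ℕ} (hj : j < O.m) {x : GL D.Idx F} (hx : x ∈ YJ D F (O.J j)) :
    (A.n j)⁻¹ * x * A.n j ∈ XJ D F (O.J j) := by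
  have := hG.conj_rootsGen (A.s j hj)⁻¹ (P := fun r => D.IsNegRoot r ∧ D.InRootSub (O.J j) r)
    (Q := fun r => D.IsPosRoot r ∧ D.InRootSub (O.J j) r) (fun _ hr => hr.1.1) (fun r hr => by
      rw [A.s_inv_perm hj]
      exact O.w_NP A.good3 hj hr) hx
  have e3 : (((A.s j hj)⁻¹ : ↥(D.monomialSubgroup F)) : GL D.Idx F) = (A.n j)⁻¹ := rfl
  rwa [e3, inv_inv] at this

/-- The cover of the parabolic subgroup. -/
lemma gPF_cover {j : ℕ} (hj : j < O.m) {g : ↥S.fix} (hg : g ∈ gPF A j hj) :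
    g ∈ fB S ∨ ∃ b ∈ fB S, ∃ x ∈ fX S (O.J j), g = b * A.sF j hj * x := by
  rcases BN.mem_parabolic_singleton (P := A.bn) (sF_mem_S A hj) hg with h1 | h1
  · exact Or.inl h1
  · right
    obtain ⟨b₁, hb₁, b₂, hb₂, e⟩ := BN.mem_C.1 h1
    obtain ⟨r, hr, hrf, k, hk, hkf, x, hx, hxf, e2⟩ := A.borel_split' hj (b := (b₂ : GL D.Idx F))
      ⟨Subgroup.mem_subgroupOf.1 hb₂, b₂.2⟩
    have hn := A.fix j hj
    have hp : A.n j * (r * k) * (A.n j)⁻¹ ∈ D.borelSubgroup F := by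
      have e1 : A.n j * (r * k) * (A.n j)⁻¹ = (A.n j * r * (A.n j)⁻¹) * (A.n j * k * (A.n j)⁻¹) := by group
      rw [e1]
      exact Subgroup.mul_mem _ (Tbl.Good2.le_borel_U (R_le_U _ (A.conj_R hj hr)))
        (Tbl.Good2.le_borel_H (hG.N_conj_H (A.mem j hj) hk))
    have hpf : A.n j * (r * k) * (A.n j)⁻¹ ∈ S.fix :=
      Subgroup.mul_mem _ (Subgroup.mul_mem _ hn (Subgroup.mul_mem _ hrf hkf)) (Subgroup.inv_mem _ hn)
    refine ⟨b₁ * ⟨_, hpf⟩, Subgroup.mul_mem _ hb₁ (Subgroup.mem_subgroupOf.2 hp), ⟨x, hxf⟩, Subgroup.mem_subgroupOf.2 hx, ?_⟩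
    apply Subtype.ext
    have e3 : (g : GL D.Idx F) = b₁ * A.n j * b₂ := congrArg Subtype.val e
    show (g : GL D.Idx F) = b₁ * (A.n j * (r * k) * (A.n j)⁻¹) * A.n j * x
    rw [e3, e2]
    group

/-- A representative outside `B` is not in `BV`. -/
lemma n_ne_mul {n b v : GL D.Idx F} (hn : n ∈ D.monomialSubgroup F) (hnB : n ∉ D.borelSubgroup F)
    (hb : b ∈ D.borelSubgroup F) (hv : v ∈ D.negUnipotent F) : n ≠ b * v := by
  intro e
  obtain ⟨n0, hn0, hmap⟩ := A.good3.exists_n0 (F := F)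
  rw [← hmap] at hv
  obtain ⟨u, hu, rfl⟩ := hv
  have e1 : n * n0 = b * n0 * u := by
    rw [e]
    show b * (n0 * u * n0⁻¹) * n0 = b * n0 * u
    group
  have h1 := hG.bruhat_unique (n := n * n0) (n' := n0) (b₁ := 1) (b₂ := 1) (b₃ := b) (b₄ := u)
    (Subgroup.mul_mem _ hn hn0) hn0 (Subgroup.one_mem _) (Subgroup.one_mem _) hb
    (Tbl.Good2.le_borel_U hu) (by rw [one_mul, mul_one, e1])
  have e2 : n = n0 * ((n * n0)⁻¹ * n0)⁻¹ * n0⁻¹ := by group
  apply hnB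
  rw [e2]
  exact Tbl.Good2.le_borel_H (hG.N_conj_H hn0 (Subgroup.inv_mem _ h1))

lemma sF_ne_mul {j : ℕ} (hj : j < O.m) {b v : ↥S.fix} (hb : b ∈ fB S) (hv : v ∈ fV S) : A.sF j hj ≠ b * v := by
  intro e
  refine n_ne_mul A (A.mem j hj) (fun h => sF_not_mem A hj (Subgroup.mem_subgroupOf.2 h))
    (Subgroup.mem_subgroupOf.1 hb) (Subgroup.mem_subgroupOf.1 hv) ?_
  exact congrArg Subtype.val e

lemma conj_sF_fY {j : ℕ} (hj : j < O.m) {y : ↥S.fix} (hy : y ∈ fY S (O.J j)) : (A.sF j hj)⁻¹ * y * A.sF j hj ∈ fX S (O.J j) :=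
  Subgroup.mem_subgroupOf.2 (conj_Y_inv A hj (Subgroup.mem_subgroupOf.1 hy))

lemma conj_sF_fX {j : ℕ} (hj : j < O.m) {x : ↥S.fix} (hx : x ∈ fX S (O.J j)) : A.sF j hj * x * (A.sF j hj)⁻¹ ∈ fY S (O.J j) :=
  Subgroup.mem_subgroupOf.2 (A.conj_X hj (Subgroup.mem_subgroupOf.1 hx))

lemma conj_sF_fX_inv {j : ℕ} (hj : j < O.m) {x : ↥S.fix} (hx : x ∈ fX S (O.J j)) : (A.sF j hj)⁻¹ * x * A.sF j hj ∈ fY S (O.J j) :=
  Subgroup.mem_subgroupOf.2 (conj_X_inv A hj (Subgroup.mem_subgroupOf.1 hx))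

lemma conj_sF_fY' {j : ℕ} (hj : j < O.m) {y : ↥S.fix} (hy : y ∈ fY S (O.J j)) : A.sF j hj * y * (A.sF j hj)⁻¹ ∈ fX S (O.J j) :=
  Subgroup.mem_subgroupOf.2 (A.conj_Y hj (Subgroup.mem_subgroupOf.1 hy))

omit A in
lemma fX_le_fU (S : Tw hG F) (J : Set ℕ) : fX S J ≤ fU S := fun _ hx =>
  Subgroup.mem_subgroupOf.2 (X_le_U _ (Subgroup.mem_subgroupOf.1 hx))

omit A in
lemma fY_le_fV (S : Tw hG F) (J : Set ℕ) : fY S J ≤ fV S := fun _ hx =>
  Subgroup.mem_subgroupOf.2 (Y_le_V _ (Subgroup.mem_subgroupOf.1 hx))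

lemma fY_le_gPF {j : ℕ} (hj : j < O.m) : fY S (O.J j) ≤ gPF A j hj := by
  intro y hy
  have h1 := conj_sF_fY A hj hy
  have e : y = A.sF j hj * ((A.sF j hj)⁻¹ * y * A.sF j hj) * (A.sF j hj)⁻¹ := by group
  rw [e]
  exact Subgroup.mul_mem _ (Subgroup.mul_mem _ (sF_mem_gPF A hj) (fB_le_gPF A hj (fU_le_fB S (fX_le_fU S _ h1))))
    (Subgroup.inv_mem _ (sF_mem_gPF A hj))

/-- The two orbit groups have the same order. -/
lemma card_fY_eq {j : ℕ} (hj : j < O.m) : Nat.card ↥(fY S (O.J j)) = Nat.card ↥(fX S (O.J j)) := by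
  refine Nat.card_congr
    { toFun := fun y => ⟨(A.sF j hj)⁻¹ * y * A.sF j hj, conj_sF_fY A hj y.2⟩
      invFun := fun x => ⟨A.sF j hj * x * (A.sF j hj)⁻¹, conj_sF_fX A hj x.2⟩
      left_inv := fun y => Subtype.ext (by
        show A.sF j hj * ((A.sF j hj)⁻¹ * y * A.sF j hj) * (A.sF j hj)⁻¹ = y
        group)
      right_inv := fun x => Subtype.ext (by
        show (A.sF j hj)⁻¹ * (A.sF j hj * x * (A.sF j hj)⁻¹) * A.sF j hj = x
        group) }

/-- `V¹ ∩ P_j = Y_j¹`. -/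
theorem fV_inf_gPF [Finite ↥S.fix] {j : ℕ} (hj : j < O.m) {y₀ : ↥S.fix} (h1 : y₀ ∈ fV S) (h2 : y₀ ∈ gPF A j hj) :
    y₀ ∈ fY S (O.J j) := by
  classical
  set s := A.sF j hj with hs
  have hnot1 : ∀ {y : ↥S.fix}, y ∈ fV S → ∀ {b : ↥S.fix}, b ∈ fB S → ∀ x, y = b * s * x → x ≠ 1 := by
    intro y hy b hb x e hx
    rw [hx, mul_one] at e
    refine sF_ne_mul A hj (Subgroup.inv_mem _ hb) hy ?_
    rw [e, ← hs]
    group
  have key : ∀ y : ↥(fY S (O.J j)), ∃ x : ↥(fX S (O.J j)), ((y : ↥S.fix) = 1 → x = 1) ∧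
      ((y : ↥S.fix) ≠ 1 → x ≠ 1 ∧ ∃ b ∈ fB S, (y : ↥S.fix) = b * s * x) := by
    intro y
    by_cases hy : (y : ↥S.fix) = 1
    · exact ⟨1, fun _ => rfl, fun h => absurd hy h⟩
    · rcases gPF_cover A hj (fY_le_gPF A hj y.2) with h3 | ⟨b, hb, x, hx, e⟩
      · exact absurd (fB_inf_fV hG h3 (fY_le_fV S _ y.2)) hy
      · refine ⟨⟨x, hx⟩, fun h => absurd h hy, fun _ => ⟨?_, b, hb, e⟩⟩
        intro h3
        exact hnot1 (fY_le_fV S _ y.2) hb x e (congrArg Subtype.val h3)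
  choose g hg using key
  have hinj : Function.Injective g := by
    intro y y' e
    by_cases hy : (y : ↥S.fix) = 1
    · by_cases hy' : (y' : ↥S.fix) = 1
      · exact Subtype.ext (hy.trans hy'.symm)
      · exact absurd (e ▸ (hg y).1 hy) ((hg y').2 hy').1
    · by_cases hy' : (y' : ↥S.fix) = 1
      · exact absurd (e.symm ▸ (hg y').1 hy') ((hg y).2 hy).1
      · obtain ⟨_, b, hb, e1⟩ := (hg y).2 hy
        obtain ⟨_, b', hb', e2⟩ := (hg y').2 hy'
        have e3 : (y : ↥S.fix) * (y' : ↥S.fix)⁻¹ = b * b'⁻¹ := by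
          rw [e1, e2, e]
          group
        have h4 := fB_inf_fV hG (x := (y : ↥S.fix) * (y' : ↥S.fix)⁻¹) (by
          rw [e3]
          exact Subgroup.mul_mem _ hb (Subgroup.inv_mem _ hb'))
          (Subgroup.mul_mem _ (fY_le_fV S _ y.2) (Subgroup.inv_mem _ (fY_le_fV S _ y'.2)))
        exact Subtype.ext (mul_inv_eq_one.1 h4)
  have hsurj := (hinj.bijective_of_nat_card_le (card_fY_eq A hj).ge).2
  rcases gPF_cover A hj h2 with h3 | ⟨b, hb, x, hx, e⟩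
  · rw [fB_inf_fV hG h3 h1]
    exact Subgroup.one_mem _
  · rw [← hs] at e
    have hx1 := hnot1 h1 hb x e
    obtain ⟨y, hy⟩ := hsurj ⟨x, hx⟩
    have hy1 : (y : ↥S.fix) ≠ 1 := by
      intro h
      have := (hg y).1 h
      rw [hy] at this
      exact hx1 (congrArg Subtype.val this)
    obtain ⟨_, b', hb', e2⟩ := (hg y).2 hy1
    rw [hy] at e2
    have e3 : y₀ * (y : ↥S.fix)⁻¹ = b * b'⁻¹ := by
      rw [e, e2]
      group
    have h4 := fB_inf_fV hG (x := y₀ * (y : ↥S.fix)⁻¹) (by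
      rw [e3]
      exact Subgroup.mul_mem _ hb (Subgroup.inv_mem _ hb'))
      (Subgroup.mul_mem _ h1 (Subgroup.inv_mem _ (fY_le_fV S _ y.2)))
    rw [mul_inv_eq_one.1 h4]
    exact y.2

end TwNPart

namespace IsStdF

variable {S : Tw hG F} {O : TwOrb T D S.τ} (A : TwN S O) {β : MulAut ↥S.fix} (h : IsStdF β)
include A h

/-- The inverse of a standard automorphism. -/
lemma inv : IsStdF β⁻¹ := by
  constructor
  · intro x
    rw [← h.U, MulAut.apply_inv_self]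
  · intro x
    rw [← h.V, MulAut.apply_inv_self]

/-- Standard automorphisms preserve `H¹`. -/
theorem fH_iff (m0 : ↥(D.monomialSubgroup F)) (hm0f : (m0 : GL D.Idx F) ∈ S.fix)
    (hm0 : ∀ r : Fin D.nroots, D.nroots / 2 ≤ (r : ℕ) → (hG.permN m0 r : ℕ) < D.nroots / 2) (x : ↥S.fix) :
    β x ∈ fH S ↔ x ∈ fH S := by
  rw [mem_fH_iff A m0 hm0f hm0, mem_fH_iff A m0 hm0f hm0, h.fB_iff A]
  refine and_congr_right fun _ => ?_
  constructor
  · intro hx y hy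
    have h1 := hx (β y) ((h.V y).2 hy)
    rw [← map_inv, ← map_mul, ← map_mul] at h1
    exact (h.V _).1 h1
  · intro hx y hy
    have e : y = β (β⁻¹ y) := (MulAut.apply_inv_self _ _ y).symm
    rw [e, ← map_inv, ← map_mul, ← map_mul, h.V]
    exact hx _ ((h.V _).1 (by rw [← e]; exact hy))

/-- Standard automorphisms permute the minimal parabolic subgroups and the negative orbit groups. -/
theorem exists_perm_Y [Finite ↥S.fix] {j : ℕ} (hj : j < O.m) :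
    ∃ j', ∃ hj' : j' < O.m, (∀ x, β x ∈ gPF A j' hj' ↔ x ∈ gPF A j hj) ∧ ∀ x, β x ∈ fY S (O.J j') ↔ x ∈ fY S (O.J j) := by
  have hB : (fB S).map β.toMonoidHom = fB S := map_eq_of_iff (h.fB_iff A)
  have hM := (isMinOver_gPF A hj).map β hB
  obtain ⟨j', hj', e⟩ := exists_eq_gPF A hM
  have hP := iff_of_map_eq e
  refine ⟨j', hj', hP, fun x => ?_⟩
  constructor
  · intro hx
    have h1 : x ∈ fV S := (h.V x).1 (fY_le_fV S _ hx)
    exact fV_inf_gPF A hj h1 ((hP x).1 (fY_le_gPF A hj' hx))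
  · intro hx
    have h1 : β x ∈ fV S := (h.V x).2 (fY_le_fV S _ hx)
    exact fV_inf_gPF A hj' h1 ((hP x).2 (fY_le_gPF A hj hx))

end IsStdF

end

end Cfsg.Agent.Lib.ReeAut
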