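/-
Automorphisms of twisted groups: the positive orbit groups, the action on the representatives.
-/
import Cfsg.Agent.Lib.ReeAut.TwB

set_option autoImplicit false

namespace Cfsg.Agent.Lib.ReeAut

open Cfsg.Lie Cfsg.Agent.Lib.Chev

section

variable {F : Type*} [Field F] {D : ChevalleyDatum} {T : Tbl} {hG : T.Good2 D}

variable {S : Tw hG F} {O : TwOrb T D S.τ}

/-- The data of a longest element acting trivially on the orbits. -/
structure LongEl (A : TwN S O) where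
  m0 : ↥(D.monomialSubgroup F)
  hf : (m0 : GL D.Idx F) ∈ S.fix
  hneg : ∀ r : Fin D.nroots, D.nroots / 2 ≤ (r : ℕ) → (hG.permN m0 r : ℕ) < D.nroots / 2
  hw : ∀ j, j < O.m → ∀ r : Fin D.nroots, D.IsNegRoot r → D.InRootSub (O.J j) r → D.InRootSub (O.J j) (hG.permN m0 r)

namespace LongEl

variable {A : TwN S O} (L : LongEl A)

/-- The longest element as an element of the fixed points. -/
def n0 : ↥S.fix := ⟨L.m0, L.hf⟩

lemma mem_fU_iff_fV (x : ↥S.fix) : x ∈ fU S ↔ L.n0 * x * L.n0⁻¹ ∈ fV S := by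
  rw [Subgroup.mem_subgroupOf, Subgroup.mem_subgroupOf]
  show (x : GL D.Idx F) ∈ _ ↔ (L.m0 : GL D.Idx F) * x * (L.m0 : GL D.Idx F)⁻¹ ∈ _
  refine ⟨fun h => conj_U_le L.m0 L.hneg h, fun h => ?_⟩
  have := conj_V_le L.m0 L.hneg h
  have e : (L.m0 : GL D.Idx F)⁻¹ * ((L.m0 : GL D.Idx F) * x * (L.m0 : GL D.Idx F)⁻¹) * L.m0 = x := by group
  rwa [e] at this

lemma mem_fV_iff_fU (x : ↥S.fix) : x ∈ fV S ↔ L.n0 * x * L.n0⁻¹ ∈ fU S := by
  rw [Subgroup.mem_subgroupOf, Subgroup.mem_subgroupOf]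
  show (x : GL D.Idx F) ∈ _ ↔ (L.m0 : GL D.Idx F) * x * (L.m0 : GL D.Idx F)⁻¹ ∈ _
  refine ⟨fun h => conj_V_le' L.m0 L.hneg h, fun h => ?_⟩
  have := conj_U_le' L.m0 L.hneg h
  have e : (L.m0 : GL D.Idx F)⁻¹ * ((L.m0 : GL D.Idx F) * x * (L.m0 : GL D.Idx F)⁻¹) * L.m0 = x := by group
  rwa [e] at this

lemma conj_fY {j : ℕ} (hj : j < O.m) {y : ↥S.fix} (hy : y ∈ fY S (O.J j)) : L.n0 * y * L.n0⁻¹ ∈ fX S (O.J j) := by
  refine Subgroup.mem_subgroupOf.2 ?_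
  refine hG.conj_rootsGen L.m0 (P := fun r => D.IsNegRoot r ∧ D.InRootSub (O.J j) r)
    (Q := fun r => D.IsPosRoot r ∧ D.InRootSub (O.J j) r) (fun _ hr => hr.1.1) (fun r hr => ⟨?_, L.hw j hj r hr.1 hr.2⟩)
    (Subgroup.mem_subgroupOf.1 hy)
  refine (hG.isPos_iff (hG.permN L.m0 r).2).2 ?_
  by_contra hc
  have hr := (hG.isNeg_iff r.2).1 hr.1
  have h1 := L.hneg ⟨D.neg r, hG.neg_lt r.2⟩ ((hG.neg_pos_iff r.2).2 hr)
  rw [hG.permN_neg L.m0 r] at h1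
  exact absurd ((hG.neg_pos_iff (hG.permN L.m0 r).2).2 (not_le.1 hc)) (not_le.2 h1)

lemma mem_fX_iff [Finite ↥S.fix] {j : ℕ} (hj : j < O.m) (x : ↥S.fix) : x ∈ fX S (O.J j) ↔ L.n0⁻¹ * x * L.n0 ∈ fY S (O.J j) := by
  constructor
  · intro hx
    let f : ↥(fY S (O.J j)) → ↥(fX S (O.J j)) := fun y => ⟨L.n0 * y * L.n0⁻¹, L.conj_fY hj y.2⟩
    have hf : Function.Injective f := by
      intro a b e
      have e1 : L.n0 * (a : ↥S.fix) * L.n0⁻¹ = L.n0 * (b : ↥S.fix) * L.n0⁻¹ := congrArg Subtype.val e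
      exact Subtype.ext (by simpa using e1)
    obtain ⟨y, hy⟩ := (hf.bijective_of_nat_card_le (card_fY_eq A hj).ge).2 ⟨x, hx⟩
    have e1 : L.n0 * (y : ↥S.fix) * L.n0⁻¹ = x := congrArg Subtype.val hy
    have e2 : L.n0⁻¹ * x * L.n0 = y := by
      rw [← e1]
      group
    rw [e2]
    exact y.2
  · intro h
    have := L.conj_fY hj h
    have e : L.n0 * (L.n0⁻¹ * x * L.n0) * L.n0⁻¹ = x := by group
    rwa [e] at this

end LongEl

namespace IsStdF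

variable {A : TwN S O} (L : LongEl A) {β : MulAut ↥S.fix} (h : IsStdF β)
include h

lemma conj_long : IsStdF (MulAut.conj L.n0⁻¹ * β * MulAut.conj L.n0) := by
  have e : ∀ x, (MulAut.conj L.n0⁻¹ * β * MulAut.conj L.n0) x = L.n0⁻¹ * β (L.n0 * x * L.n0⁻¹) * L.n0 := by
    intro x
    simp [MulAut.mul_apply, MulAut.conj_apply]
  constructor
  · intro x
    have h1 := L.mem_fV_iff_fU (L.n0⁻¹ * β (L.n0 * x * L.n0⁻¹) * L.n0)
    have e1 : L.n0 * (L.n0⁻¹ * β (L.n0 * x * L.n0⁻¹) * L.n0) * L.n0⁻¹ = β (L.n0 * x * L.n0⁻¹) := by group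
    rw [e1, h.U] at h1
    rw [e, L.mem_fU_iff_fV, ← mul_assoc, ← mul_assoc]
    have e2 : L.n0 * L.n0⁻¹ * β (L.n0 * x * L.n0⁻¹) * L.n0 * L.n0⁻¹ = β (L.n0 * x * L.n0⁻¹) := by group
    rw [e2, h.V, ← L.mem_fU_iff_fV]
  · intro x
    rw [e, L.mem_fV_iff_fU, ← mul_assoc, ← mul_assoc]
    have e2 : L.n0 * L.n0⁻¹ * β (L.n0 * x * L.n0⁻¹) * L.n0 * L.n0⁻¹ = β (L.n0 * x * L.n0⁻¹) := by group
    rw [e2, h.U, ← L.mem_fV_iff_fU]

include L in
/-- Standard automorphisms permute the positive orbit groups. -/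
theorem exists_perm_X [Finite ↥S.fix] {j : ℕ} (hj : j < O.m) :
    ∃ j', ∃ _ : j' < O.m, ∀ x, β x ∈ fX S (O.J j') ↔ x ∈ fX S (O.J j) := by
  obtain ⟨j', hj', _, hY⟩ := (h.conj_long L).exists_perm_Y A hj
  refine ⟨j', hj', fun x => ?_⟩
  rw [L.mem_fX_iff hj', L.mem_fX_iff hj, ← hY]
  simp only [MulAut.mul_apply, MulAut.conj_apply]
  have e : L.n0 * (L.n0⁻¹ * x * L.n0) * L.n0⁻¹ = x := by group
  rw [e]
  simp

end IsStdF

section Rep

variable (A : TwN S O) {β : MulAut ↥S.fix}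

/-- The image of a representative is in the same coset of `B¹`. -/
theorem sF_inv_mul_mem {j : ℕ} (hj : j < O.m) (hX : ∀ x, β x ∈ fX S (O.J j) ↔ x ∈ fX S (O.J j))
    (hY : ∀ x, β x ∈ fY S (O.J j) ↔ x ∈ fY S (O.J j)) (hP : ∀ x, β x ∈ gPF A j hj ↔ x ∈ gPF A j hj) :
    (A.sF j hj)⁻¹ * β (A.sF j hj) ∈ fB S := by
  set s := A.sF j hj with hs
  set c := s⁻¹ * β s with hc
  have hcP : c ∈ gPF A j hj := Subgroup.mul_mem _ (Subgroup.inv_mem _ (sF_mem_gPF A hj)) ((hP _).2 (sF_mem_gPF A hj))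
  have hnorm : ∀ x ∈ fX S (O.J j), c * x * c⁻¹ ∈ fX S (O.J j) := by
    intro x hx
    have h1 : β⁻¹ x ∈ fX S (O.J j) := by
      rw [← hX, MulAut.apply_inv_self]
      exact hx
    have h2 : s * β⁻¹ x * s⁻¹ ∈ fY S (O.J j) := conj_sF_fX A hj h1
    have h3 : β (s * β⁻¹ x * s⁻¹) ∈ fY S (O.J j) := (hY _).2 h2
    have h4 := conj_sF_fY A hj h3
    rw [← hs] at h4
    have e : s⁻¹ * β (s * β⁻¹ x * s⁻¹) * s = c * x * c⁻¹ := by
      rw [map_mul, map_mul, map_inv, MulAut.apply_inv_self, hc]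
      group
    rwa [e] at h4
  rcases gPF_cover A hj hcP with h1 | ⟨b, hb, x, hx, e⟩
  · exact h1
  · exfalso
    obtain ⟨x₀, hx₀, hx₀f, hne⟩ := A.nontriv j hj
    have hx₀' : (⟨x₀, hx₀f⟩ : ↥S.fix) ∈ fX S (O.J j) := Subgroup.mem_subgroupOf.2 hx₀
    have h2 := hnorm _ (Subgroup.mul_mem _ (Subgroup.mul_mem _ (Subgroup.inv_mem _ hx) hx₀') hx)
    have e2 : c * (x⁻¹ * ⟨x₀, hx₀f⟩ * x) * c⁻¹ = b * (s * ⟨x₀, hx₀f⟩ * s⁻¹) * b⁻¹ := by
      rw [e, ← hs]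
      group
    rw [e2] at h2
    have h3 : s * (⟨x₀, hx₀f⟩ : ↥S.fix) * s⁻¹ ∈ fB S := by
      have e3 : s * (⟨x₀, hx₀f⟩ : ↥S.fix) * s⁻¹ = b⁻¹ * (b * (s * ⟨x₀, hx₀f⟩ * s⁻¹) * b⁻¹) * b := by group
      rw [e3]
      exact Subgroup.mul_mem _ (Subgroup.mul_mem _ (Subgroup.inv_mem _ hb) (fU_le_fB S (fX_le_fU S _ h2))) hb
    have h4 := fB_inf_fV hG h3 (fY_le_fV S _ (conj_sF_fX A hj hx₀'))
    apply hne
    have h5 : (⟨x₀, hx₀f⟩ : ↥S.fix) = 1 := by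
      have e3 : (⟨x₀, hx₀f⟩ : ↥S.fix) = s⁻¹ * (s * ⟨x₀, hx₀f⟩ * s⁻¹) * s := by group
      rw [e3, h4]
      group
    exact congrArg Subtype.val h5

omit A in
/-- An element of `B¹` conjugating an element of `H¹` into `H¹` centralises it. -/
theorem conj_fB_fH (hG : T.Good2 D) {S : Tw hG F} {c w : ↥S.fix} (hc : c ∈ fB S) (hwH : w ∈ fH S) (h3 : c * w * c⁻¹ ∈ fH S) : c * w * c⁻¹ = w := by
  obtain ⟨u, hu, k, hk, e⟩ := hG.mem_borel (Subgroup.mem_subgroupOf.1 hc)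
  have hcf : u * k ∈ S.fix := e ▸ c.2
  obtain ⟨huf, hkf⟩ := TwN.borel_fix hu hk hcf
  have hwH' : (w : GL D.Idx F) ∈ D.diagonalSubgroup F := Subgroup.mem_subgroupOf.1 hwH
  have hcomm := H_comm hG hk hwH'
  have e3 : ((c * w * c⁻¹ : ↥S.fix) : GL D.Idx F) = u * w * u⁻¹ := by
    show (c : GL D.Idx F) * w * (c : GL D.Idx F)⁻¹ = _
    rw [e]
    calc u * k * w * (u * k)⁻¹ = u * (k * w) * k⁻¹ * u⁻¹ := by group
      _ = u * (w * k) * k⁻¹ * u⁻¹ := by rw [hcomm]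
      _ = _ := by group
  have h6 : (u * w * u⁻¹) * (w : GL D.Idx F)⁻¹ ∈ D.posUnipotent F ⊓ D.diagonalSubgroup F := by
    constructor
    · have e4 : (u * w * u⁻¹) * (w : GL D.Idx F)⁻¹ = u * ((w : GL D.Idx F) * u⁻¹ * (w : GL D.Idx F)⁻¹) := by group
      rw [e4]
      exact Subgroup.mul_mem _ hu ((Subgroup.mem_normalizer_iff.1 (hG.H_le_normalizer_U hwH') _).1 (Subgroup.inv_mem _ hu))
    · rw [← e3]
      exact Subgroup.mul_mem _ (Subgroup.mem_subgroupOf.1 h3) (Subgroup.inv_mem _ hwH')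
  rw [hG.U_inf_H, Subgroup.mem_bot] at h6
  apply Subtype.ext
  rw [e3]
  exact mul_inv_eq_one.1 h6

/-- The action on `H¹` commutes with the representatives. -/
theorem map_conj_sF {j : ℕ} (hj : j < O.m) (hc : (A.sF j hj)⁻¹ * β (A.sF j hj) ∈ fB S)
    (hH : ∀ x, β x ∈ fH S ↔ x ∈ fH S) {z : ↥S.fix} (hz : z ∈ fH S) :
    β (A.sF j hj * z * (A.sF j hj)⁻¹) = A.sF j hj * β z * (A.sF j hj)⁻¹ := by
  set s := A.sF j hj with hs
  set c := s⁻¹ * β s with hcd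
  set w := β z with hw
  have hwH : w ∈ fH S := (hH z).2 hz
  have hsN : (s : GL D.Idx F) ∈ D.monomialSubgroup F := A.mem j hj
  have h1 : s * z * s⁻¹ ∈ fH S := Subgroup.mem_subgroupOf.2 (hG.N_conj_H hsN (Subgroup.mem_subgroupOf.1 hz))
  have h2 := (hH _).2 h1
  have e1 : β (s * z * s⁻¹) = s * (c * w * c⁻¹) * s⁻¹ := by
    rw [map_mul, map_mul, map_inv, hcd, ← hw]
    group
  have h3 : c * w * c⁻¹ ∈ fH S := by
    have h4 := Subgroup.mem_subgroupOf.1 h2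
    rw [e1] at h4
    have h5 := hG.N_conj_H (Subgroup.inv_mem _ hsN) h4
    have e2 : ((s : GL D.Idx F))⁻¹ * ((s * (c * w * c⁻¹) * s⁻¹ : ↥S.fix) : GL D.Idx F) * ((s : GL D.Idx F))⁻¹⁻¹ = ((c * w * c⁻¹ : ↥S.fix) : GL D.Idx F) := by
      push_cast
      group
    rw [e2] at h5
    exact Subgroup.mem_subgroupOf.2 h5
  have e5 := conj_fB_fH hG hc hwH h3
  rw [e1, e5]

/-- An automorphism trivial on a positive orbit group and with the right behaviour on the representative is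
trivial on the negative orbit group. -/
theorem fix_of_word {j : ℕ} (hj : j < O.m) (hc : (A.sF j hj)⁻¹ * β (A.sF j hj) ∈ fB S)
    (hX : ∀ x ∈ fX S (O.J j), β x = x) (hY : ∀ x ∈ fY S (O.J j), β x ∈ fY S (O.J j))
    {a a' y : ↥S.fix} (ha : a ∈ fX S (O.J j)) (ha' : a' ∈ fX S (O.J j)) (hy : y ∈ fY S (O.J j))
    (e : A.sF j hj = a * y * a') : β (A.sF j hj) = A.sF j hj ∧ ∀ x ∈ fY S (O.J j), β x = x := by
  set s := A.sF j hj with hs
  have h1 : β s = a * β y * a' := by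
    rw [e, map_mul, map_mul, hX a ha, hX a' ha']
  have e1 : y⁻¹ * β y = a' * (s⁻¹ * β s) * a'⁻¹ := by
    rw [h1, e]
    group
  have h2 : y⁻¹ * β y ∈ fB S := by
    rw [e1]
    exact Subgroup.mul_mem _ (Subgroup.mul_mem _ (fU_le_fB S (fX_le_fU S _ ha')) hc)
      (Subgroup.inv_mem _ (fU_le_fB S (fX_le_fU S _ ha')))
  have h3 : y⁻¹ * β y ∈ fV S := Subgroup.mul_mem _ (Subgroup.inv_mem _ (fY_le_fV S _ hy)) (fY_le_fV S _ (hY y hy))
  have h4 := fB_inf_fV hG h2 h3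
  have h5 : β y = y := (inv_mul_eq_one.1 h4).symm
  have h6 : β s = s := by
    rw [h1, h5, e]
  refine ⟨h6, fun x hx => ?_⟩
  have h7 := conj_sF_fY A hj hx
  rw [← hs] at h7
  have e2 : x = s * (s⁻¹ * x * s) * s⁻¹ := by group
  rw [e2, map_mul, map_mul, map_inv, h6, hX _ h7]

end Rep

end

end Cfsg.Agent.Lib.ReeAut
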