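/-
The automorphism group of the large Ree group: the elements, the orbit groups, the torus.
-/
import Cfsg.Agent.Lib.Tw.ReeF4h
import Cfsg.Agent.Lib.Tw.ReeF4i
import Cfsg.Agent.Lib.ReeAut.TwC
import Cfsg.Agent.Lib.ReeAut.FieldGen
import Cfsg.Agent.Lib.ChevAut.FieldCard
import Cfsg.Prelude.Def_KGroupFacts

set_option autoImplicit false
set_option maxRecDepth 100000

namespace Cfsg.Agent.Lib.ReeAut

open Cfsg.Lie Cfsg.Agent.Lib.Chev

lemma card_subgroupOf_eq {G : Type*} [Group G] (H K : Subgroup G) : Nat.card ↥(H.subgroupOf K) = Nat.card ↥(H ⊓ K) :=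
  Nat.card_congr
    { toFun := fun x => ⟨x.1.1, Subgroup.mem_inf.2 ⟨x.2, x.1.2⟩⟩
      invFun := fun x => ⟨⟨x.1, (Subgroup.mem_inf.1 x.2).2⟩, (Subgroup.mem_inf.1 x.2).1⟩
      left_inv := fun _ => rfl
      right_inv := fun _ => rfl }

lemma card_of_iff {G : Type*} [Group G] (β : MulAut G) {K L : Subgroup G} (h : ∀ x, β x ∈ L ↔ x ∈ K) :
    Nat.card L = Nat.card K :=
  Nat.card_congr
    { toFun := fun x => ⟨β⁻¹ x, by
        rw [← h, MulAut.apply_inv_self]
        exact x.2⟩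
      invFun := fun x => ⟨β x, (h _).2 x.2⟩
      left_inv := fun x => Subtype.ext (MulAut.apply_inv_self _ _ _)
      right_inv := fun x => Subtype.ext (MulAut.inv_apply_self _ _ _) }

/-- The context for the large Ree group. -/
class FCtx (K : Type*) [Field K] [Fintype K] [CharP K 2] where
  m : ℕ
  hm : 1 ≤ m
  hK : Fintype.card K = 2 ^ (2 * m + 1)
  hperf : ∀ x : K, ∃ y : K, y ^ 2 = x
  φ : K ≃+* K
  hq : ∀ x, φ x = x ^ 2 ^ m
  hφ : ∀ x, φ (φ (x ^ 2)) = x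

variable {K : Type*} [Field K] [Fintype K] [CharP K 2] [FCtx K]

local notation "φ'" => (FCtx.φ : K ≃+* K)

lemma phi_sq (x : K) : φ' ((φ' x) ^ 2) = x := by
  rw [← map_pow]
  exact FCtx.hφ x

lemma theta_phi' (θ : K ≃+* K) (x : K) : θ (φ' x) = φ' (θ x) := by
  rw [FCtx.hq, FCtx.hq, map_pow]

variable (K) in
/-- The twisted automorphism. -/
noncomputable abbrev twK : Tw good3F4.toGood2 K := twF4 (FCtx.hperf (K := K)) FCtx.φ

variable (K) in
/-- The group. -/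
abbrev GF : Type _ := ↥(twK K).fix

variable (K) in
/-- The data for the BN-pair. -/
noncomputable abbrev twA : TwN (twK K) orbF4 := twnF4 FCtx.hperf FCtx.φ FCtx.hφ

/-- Elements of the orbit groups. -/
noncomputable def pU (t : K) : GF K := ⟨parU φ' t, parU_fix FCtx.hperf φ' FCtx.hφ t⟩
/-- Elements of the orbit groups. -/
noncomputable def sU (t u : K) : GF K := ⟨suzU φ' t u, suzU_fix FCtx.hperf φ' FCtx.hφ t u⟩
/-- Elements of the orbit groups. -/
noncomputable def pV (t : K) : GF K := ⟨parV φ' t, parV_fix FCtx.hperf φ' FCtx.hφ t⟩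
/-- Elements of the orbit groups. -/
noncomputable def sV (t u : K) : GF K := ⟨suzV φ' t u, suzV_fix FCtx.hperf φ' FCtx.hφ t u⟩

lemma pU_coe (t : K) : (pU t : GL chevF4.Idx K) = parU φ' t := rfl
lemma sU_coe (t u : K) : (sU t u : GL chevF4.Idx K) = suzU φ' t u := rfl
lemma pV_coe (t : K) : (pV t : GL chevF4.Idx K) = parV φ' t := rfl
lemma sV_coe (t u : K) : (sV t u : GL chevF4.Idx K) = suzV φ' t u := rfl

lemma pU_mul (t t' : K) : pU t * pU t' = pU (t + t') := Subtype.ext (parU_mul comm_33_24 t t')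

lemma sU_mul (t u t' u' : K) : sU t u * sU t' u' = sU (t + t') (u + u' + φ' t * t') :=
  Subtype.ext (suzU_mul FCtx.hφ t u t' u')

lemma pU_inj {t t' : K} (h : pU t = pU t') : t = t' := parU_inj φ' (congrArg Subtype.val h)

lemma sU_inj {t u t' u' : K} (h : sU t u = sU t' u') : t = t' ∧ u = u' := suzU_inj φ' (congrArg Subtype.val h)

lemma pU_zero : pU (0 : K) = 1 := Subtype.ext (parU_zero φ')

lemma sU_zero : sU (0 : K) 0 = 1 := Subtype.ext (suzU_zero φ')

lemma sU_dec (t u : K) : sU t 0 * sU 0 u = sU t u := by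
  rw [sU_mul]
  simp

lemma sU_sq (t u : K) : sU t u * sU t u = sU 0 (φ' t * t) := by
  rw [sU_mul, add_self2, add_self2, zero_add]

lemma sU_sq_eq_one {t u : K} (h : sU t u * sU t u = 1) : t = 0 := by
  rw [sU_sq, ← sU_zero] at h
  have h2 := (sU_inj h).2
  rcases mul_eq_zero.1 h2 with h3 | h3
  · exact (map_eq_zero φ').1 h3
  · exact h3

variable (K) in
/-- The short orbit. -/
abbrev J0 : Set ℕ := orbF4.J 0
variable (K) in
/-- The long orbit. -/
abbrev J1 : Set ℕ := orbF4.J 1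

theorem h0F : 0 < orbF4.m := by decide
theorem h1F : 1 < orbF4.m := by decide

/-- The representative of the short orbit. -/
noncomputable def s0 : GF K := (twA K).sF 0 h0F
/-- The representative of the long orbit. -/
noncomputable def s1 : GF K := (twA K).sF 1 h1F

lemma s0_coe : (s0 : GF K).1 = n0F4 := rfl
lemma s1_coe : (s1 : GF K).1 = n1F4 := rfl

lemma pV_eq (t : K) : pV t = s0 * pU t * s0⁻¹ := rfl
lemma sV_eq (t u : K) : sV t u = s1 * sU t u * s1⁻¹ := rfl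

lemma s0_word : (s0 : GF K) = pU 1 * pV 1 * pU 1 := Subtype.ext (n0F4_words φ')
lemma s1_word : (s1 : GF K) = sU 1 0 * sV 0 1 * sU 1 1 := Subtype.ext (n1F4_words φ')

lemma mem_fX0 {x : GF K} : x ∈ fX (twK K) (orbF4.J 0) ↔ ∃ t, x = pU t := by
  constructor
  · intro hx
    obtain ⟨t, e⟩ := (mem_X0_fix_iff FCtx.hperf φ' FCtx.hφ).1 ⟨Subgroup.mem_subgroupOf.1 hx, x.2⟩
    exact ⟨t, Subtype.ext e⟩
  · rintro ⟨t, rfl⟩
    exact Subgroup.mem_subgroupOf.2 ((mem_X0_fix_iff FCtx.hperf φ' FCtx.hφ).2 ⟨t, rfl⟩).1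

lemma mem_fX1 {x : GF K} : x ∈ fX (twK K) (orbF4.J 1) ↔ ∃ t u, x = sU t u := by
  constructor
  · intro hx
    obtain ⟨t, u, e⟩ := (mem_X1_fix_iff FCtx.hperf φ' FCtx.hφ).1 ⟨Subgroup.mem_subgroupOf.1 hx, x.2⟩
    exact ⟨t, u, Subtype.ext e⟩
  · rintro ⟨t, u, rfl⟩
    exact Subgroup.mem_subgroupOf.2 ((mem_X1_fix_iff FCtx.hperf φ' FCtx.hφ).2 ⟨t, u, rfl⟩).1

lemma mem_fY0 {x : GF K} : x ∈ fY (twK K) (orbF4.J 0) ↔ ∃ t, x = pV t := by
  constructor
  · intro hx
    obtain ⟨t, e⟩ := mem_fX0.1 (conj_sF_fY (twA K) h0F hx)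
    refine ⟨t, ?_⟩
    rw [pV_eq, ← e]
    show x = s0 * (s0⁻¹ * x * s0) * s0⁻¹
    group
  · rintro ⟨t, rfl⟩
    have h := conj_sF_fX (twA K) h0F (x := pU t) (mem_fX0.2 ⟨t, rfl⟩)
    rw [pV_eq]
    exact h

lemma mem_fY1 {x : GF K} : x ∈ fY (twK K) (orbF4.J 1) ↔ ∃ t u, x = sV t u := by
  constructor
  · intro hx
    obtain ⟨t, u, e⟩ := mem_fX1.1 (conj_sF_fY (twA K) h1F hx)
    refine ⟨t, u, ?_⟩
    rw [sV_eq, ← e]
    show x = s1 * (s1⁻¹ * x * s1) * s1⁻¹
    group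
  · rintro ⟨t, u, rfl⟩
    have h := conj_sF_fX (twA K) h1F (x := sU t u) (mem_fX1.2 ⟨t, u, rfl⟩)
    rw [sV_eq]
    exact h

omit [FCtx K] in
lemma card_K_F4' [FCtx K] : Nat.card K = 2 ^ (2 * FCtx.m (K := K) + 1) := by
  rw [Nat.card_eq_fintype_card, FCtx.hK]

lemma card_fX0 : Nat.card ↥(fX (twK K) (orbF4.J 0)) = Nat.card K := by
  rw [card_subgroupOf_eq]
  have h := cardX0F4 (K := K) FCtx.hperf φ' FCtx.hφ
  rw [inf_comm] at *
  exact h

lemma card_fX1 : Nat.card ↥(fX (twK K) (orbF4.J 1)) = Nat.card K ^ 2 := by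
  rw [card_subgroupOf_eq]
  have h := cardX1F4 (K := K) FCtx.hperf φ' FCtx.hφ
  rw [inf_comm] at *
  exact h

lemma one_lt_card_K : 1 < Nat.card K := by
  rw [card_K_F4']
  exact Nat.one_lt_two_pow (by omega)

/-- The orbit groups are distinguished by their orders. -/
lemma orbit_eq_of_card {j j' : ℕ} (hj : j < orbF4.m) (hj' : j' < orbF4.m)
    (h : Nat.card ↥(fX (twK K) (orbF4.J j')) = Nat.card ↥(fX (twK K) (orbF4.J j))) : j' = j := by
  have hj2 : j < 2 := hj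
  have hj2' : j' < 2 := hj'
  have h1 := one_lt_card_K (K := K)
  have h2 : Nat.card K < Nat.card K ^ 2 := by nlinarith
  interval_cases j <;> interval_cases j'
  · rfl
  · rw [card_fX0, card_fX1] at h
    omega
  · rw [card_fX0, card_fX1] at h
    omega
  · rfl

/-! ### The longest element -/

/-- The word of the longest element. -/
def w0F4 : List ℕ := [0, 3, 1, 2, 1, 2, 0, 3, 1, 2, 1, 2, 0, 3, 1, 2, 1, 2, 0, 3, 1, 2, 1, 2]

theorem w0F4_eq : ∀ r, r < 48 → wperm digF4.tbl w0F4 r = chevF4.neg r := by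
  decide +kernel

theorem neg_F4_lt : ∀ r, r < 48 → 24 ≤ r → chevF4.neg r < 24 := by
  decide +kernel

/-- The element `m₀`. -/
noncomputable def m0F4 : ↥(chevF4.monomialSubgroup K) :=
  (((twA K).s 0 h0F * (twA K).s 1 h1F) ^ 4 : ↥(chevF4.monomialSubgroup K))

lemma perm_step {m : ↥(chevF4.monomialSubgroup K)} {pre : List ℕ} (h : ∀ r : Fin chevF4.nroots, (good3F4.toGood2.permN m r : ℕ) = wperm digF4.tbl pre r)
    {j : ℕ} (hj : j < orbF4.m) (r : Fin chevF4.nroots) : (good3F4.toGood2.permN (m * (twA K).s j hj) r : ℕ) = wperm digF4.tbl (pre ++ orbF4.wJ j) r := by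
  rw [map_mul, Equiv.Perm.mul_apply, h, (twA K).s_perm, wperm_append]

lemma m0F4_perm (r : Fin chevF4.nroots) : (good3F4.toGood2.permN (m0F4 (K := K)) r : ℕ) = wperm digF4.tbl w0F4 r := by
  have h0 : ∀ r : Fin chevF4.nroots, (good3F4.toGood2.permN (1 : ↥(chevF4.monomialSubgroup K)) r : ℕ) = wperm digF4.tbl [] r := fun r => by simp
  have h1 := perm_step h0 h0F
  have h2 := perm_step h1 h1F
  have h3 := perm_step h2 h0F
  have h4 := perm_step h3 h1F
  have h5 := perm_step h4 h0F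
  have h6 := perm_step h5 h1F
  have h7 := perm_step h6 h0F
  have h8 := perm_step h7 h1F
  have e : m0F4 (K := K) = 1 * (twA K).s 0 h0F * (twA K).s 1 h1F * (twA K).s 0 h0F * (twA K).s 1 h1F *
      (twA K).s 0 h0F * (twA K).s 1 h1F * (twA K).s 0 h0F * (twA K).s 1 h1F := by
    unfold m0F4
    simp only [pow_succ, pow_zero, one_mul, mul_assoc]
  rw [e]
  exact h8 r

variable (K) in
/-- The longest element. -/
noncomputable def longF4 : LongEl (twA K) where
  m0 := m0F4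
  hf := by
    have e : ((m0F4 (K := K) : ↥(chevF4.monomialSubgroup K)) : GL chevF4.Idx K) = (n0F4 * n1F4) ^ 4 := rfl
    rw [e]
    exact Subgroup.pow_mem _ (Subgroup.mul_mem _ (n0F4_fix FCtx.hperf φ' FCtx.hφ) (n1F4_fix FCtx.hperf φ' FCtx.hφ)) 4
  hneg := fun r hr => by
    rw [m0F4_perm, w0F4_eq r r.2]
    exact neg_F4_lt r r.2 hr
  hw := fun j hj r hr hrJ => by
    rw [m0F4_perm, w0F4_eq r r.2]
    exact good3F4.inRootSub_neg hrJ

end Cfsg.Agent.Lib.ReeAut
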