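/-
Automorphisms of twisted groups of orbit type (³D₄, ²E₆): the words of the orbits, the torus, the field automorphisms.
-/
import Cfsg.Agent.Lib.Tw.HChar2
import Cfsg.Agent.Lib.ReeAut.TwC
import Cfsg.Agent.Lib.ReeAut.FieldGen

set_option autoImplicit false

namespace Cfsg.Agent.Lib.ReeAut

open Cfsg.Lie Cfsg.Agent.Lib.Chev

section

variable {F : Type*} [Field F] {D : ChevalleyDatum} {T : Tbl} {hG : T.Good2 D} {S : Tw hG F}
  {O : TwOrb T D S.τ} {φ : F ≃+* F} {ρ : ℕ → ℕ}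

/-- The parameters of an orbit. -/
abbrev OkJ {τ : ℕ → ℕ} (O : TwOrb T D τ) (φ : F ≃+* F) (j : ℕ) (t : F) : Prop :=
  (⇑φ)^[(O.wJ j).length] t = t

section Ok

variable {τ : ℕ → ℕ} {O' : TwOrb T D τ} {j : ℕ}

lemma okJ_add {a c : F} (ha : OkJ O' φ j a) (hc : OkJ O' φ j c) : OkJ O' φ j (a + c) := by
  unfold OkJ at *
  rw [iterate_map_add, ha, hc]

lemma okJ_mul {a c : F} (ha : OkJ O' φ j a) (hc : OkJ O' φ j c) : OkJ O' φ j (a * c) := by
  unfold OkJ at *
  rw [iterate_map_mul, ha, hc]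

lemma okJ_one : OkJ O' φ j (1 : F) := iter_one φ _

lemma okJ_zero : OkJ O' φ j (0 : F) := iterate_map_zero φ _

lemma okJ_neg_one : OkJ O' φ j (-1 : F) := iter_neg_one φ _

lemma okJ_neg {a : F} (ha : OkJ O' φ j a) : OkJ O' φ j (-a) := by
  unfold OkJ at *
  rw [iterate_map_neg, ha]

lemma okJ_inv {a : F} (ha : OkJ O' φ j a) : OkJ O' φ j a⁻¹ := by
  unfold OkJ at *
  have key : ∀ (k : ℕ) (x : F), (⇑φ)^[k] x⁻¹ = ((⇑φ)^[k] x)⁻¹ := by
    intro k x
    induction k with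
    | zero => rfl
    | succ k ih => rw [Function.iterate_succ_apply', ih, Function.iterate_succ_apply', map_inv₀]
  rw [key, ha]

lemma okJ_theta (θ : F ≃+* F) (hθ : ∀ x, θ (φ x) = φ (θ x)) {a : F} (ha : OkJ O' φ j a) : OkJ O' φ j (θ a) := by
  unfold OkJ at *
  have key : ∀ (k : ℕ) (x : F), (⇑φ)^[k] (θ x) = θ ((⇑φ)^[k] x) := by
    intro k x
    induction k with
    | zero => rfl
    | succ k ih => rw [Function.iterate_succ_apply', ih, Function.iterate_succ_apply', hθ]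
  rw [key, ha]

end Ok

/-- The word of an orbit in the fixed points. -/
noncomputable def wG (B : StOrb S O φ ρ) {j : ℕ} (hj : j < O.m) (t : F) (ht : OkJ O φ j t) : ↥S.fix :=
  ⟨hG.gW (wordR φ ((O.wJ j).map D.simple) t), B.word_fix hj ht⟩

/-- The negative word of an orbit in the fixed points. -/
noncomputable def nG (B : StOrb S O φ ρ) {j : ℕ} (hj : j < O.m) (t : F) (ht : OkJ O φ j t) : ↥S.fix :=
  ⟨hG.gW (wordR φ (((O.wJ j).map D.simple).map D.neg) t), B.nword_fix hj ht⟩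

section Words

variable (B : StOrb S O φ ρ) {j : ℕ} (hj : j < O.m)

lemma wG_congr {t t' : F} (e : t = t') (ht : OkJ O φ j t) (ht' : OkJ O φ j t') : wG B hj t ht = wG B hj t' ht' := by
  subst e
  rfl

lemma wG_mem (t : F) (ht : OkJ O φ j t) : wG B hj t ht ∈ fX S (O.J j) :=
  Subgroup.mem_subgroupOf.2 (B.word_XJ hj t)

lemma nG_mem (t : F) (ht : OkJ O φ j t) : nG B hj t ht ∈ fY S (O.J j) :=
  Subgroup.mem_subgroupOf.2 (B.nword_YJ hj t)

lemma mem_fX_wG {x : ↥S.fix} (hx : x ∈ fX S (O.J j)) : ∃ t, ∃ ht : OkJ O φ j t, x = wG B hj t ht := by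
  obtain ⟨t, ht, e⟩ := B.XJ_fix hj (Subgroup.mem_subgroupOf.1 hx) x.2
  exact ⟨t, ht, Subtype.ext e⟩

lemma wG_inj {t t' : F} {ht : OkJ O φ j t} {ht' : OkJ O φ j t'} (h : wG B hj t ht = wG B hj t' ht') : t = t' :=
  B.word_inj hj (congrArg Subtype.val h)

lemma wG_mul (a c : F) (ha : OkJ O φ j a) (hc : OkJ O φ j c) :
    wG B hj a ha * wG B hj c hc = wG B hj (a + c) (okJ_add ha hc) := by
  refine Subtype.ext (gW_wordR_mul hG φ ?_ (B.pw hj) a c)
  intro r hr
  obtain ⟨a, ha, rfl⟩ := List.mem_map.1 hr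
  exact hG.simple_lt (O.wJ_lt j hj a ha)

lemma wG_zero : wG B hj 0 okJ_zero = 1 := Subtype.ext (hG.gW_wordR_zero φ _)

lemma sF_trip : B.twN.sF j hj = wG B hj 1 okJ_one * nG B hj (-1) okJ_neg_one * wG B hj 1 okJ_one :=
  Subtype.ext (B.nProd_trip hj)

end Words

/-! ### The torus -/

/-- The torus in the diagonal subgroup. -/
noncomputable def toDS (S : Tw hG F) : ↥(fH S) →* ↥(D.diagonalSubgroup F) where
  toFun z := ⟨z.1.1, Subgroup.mem_subgroupOf.1 z.2⟩
  map_one' := rfl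
  map_mul' _ _ := rfl

lemma toDS_coe (z : ↥(fH S)) : ((toDS S z : ↥(D.diagonalSubgroup F)) : GL D.Idx F) = z.1.1 := rfl

lemma toDS_fix (z : ↥(fH S)) : ((toDS S z : ↥(D.diagonalSubgroup F)) : GL D.Idx F) ∈ S.fix := z.1.2

/-- The head letter of an orbit. -/
abbrev hdJ {τ : ℕ → ℕ} (O : TwOrb T D τ) (j : ℕ) : ℕ := (O.wJ j).headD 0

lemma hdJ_eq {τ : ℕ → ℕ} {O' : TwOrb T D τ} {j i0 : ℕ} {L : List ℕ} (e : O'.wJ j = i0 :: L) : hdJ O' j = i0 := by
  unfold hdJ
  rw [e]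
  rfl

lemma hdJ_lt (B : StOrb S O φ ρ) {j : ℕ} (hj : j < O.m) : hdJ O j < D.rank := by
  obtain ⟨i0, L, e, _⟩ := B.ne j hj
  rw [hdJ_eq e]
  exact O.wJ_lt j hj i0 (by rw [e]; simp)

/-- The value of an element of the torus on a root. -/
noncomputable def chS (S : Tw hG F) {r : ℕ} (hr : r < D.nroots) : ↥(fH S) →* Fˣ := (hG.chi hr).comp (toDS S)

lemma chS_congr {r r' : ℕ} (hr : r < D.nroots) (hr' : r' < D.nroots) (e : r = r') (z : ↥(fH S)) :
    chS S hr z = chS S hr' z := by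
  subst e
  rfl

/-- The value of an element of the torus on an orbit. -/
noncomputable def chJ (B : StOrb S O φ ρ) {j : ℕ} (hj : j < O.m) : ↥(fH S) →* Fˣ :=
  chS S (hG.simple_lt (hdJ_lt B hj))

lemma chS_next (B : StOrb S O φ ρ) (z : ↥(fH S)) {i i' : ℕ} (hi : i < D.rank) (hi' : i' < D.rank) (e : ρ i = i') (t : F) :
    (chS S (hG.simple_lt hi') z : F) * φ t = φ ((chS S (hG.simple_lt hi) z : F) * t) := by
  have hp := hG.simple_lt hi
  have h1 := S.chi_tw (toDS_fix z) hp t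
  rw [B.f_simple i hi, B.f_simple i hi] at h1
  have e2 : S.τ (D.simple i) = D.simple i' := by
    rw [B.τ_simple i hi, e]
  have e3 := hG.chi_congr (S.τ_lt _ hp) (hG.simple_lt hi') e2 (toDS S z)
  rw [e3] at h1
  exact h1

lemma chS_next' (B : StOrb S O φ ρ) (z : ↥(fH S)) {i i' : ℕ} (hi : i < D.rank) (hi' : i' < D.rank) (e : ρ i = i') :
    (chS S (hG.simple_lt hi') z : F) = φ (chS S (hG.simple_lt hi) z : F) := by
  have h := chS_next B z hi hi' e 1
  rwa [map_one, mul_one, mul_one] at h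

/-- Conjugation of the word of a list of a cycle. -/
lemma word_conj (B : StOrb S O φ ρ) (z : ↥(fH S)) {i0 : ℕ} {i : ℕ} {L : List ℕ} (hc : TauCyc ρ i0 (i :: L))
    (hlt : ∀ a ∈ i :: L, a < D.rank) (hi : i < D.rank) (t : F) :
    (toDS S z : GL D.Idx F) * hG.gW (wordR φ ((i :: L).map D.simple) t) * (toDS S z : GL D.Idx F)⁻¹ =
      hG.gW (wordR φ ((i :: L).map D.simple) ((chS S (hG.simple_lt hi) z : F) * t)) := by
  induction L generalizing i t with
  | nil =>
    simp only [List.map_cons, List.map_nil, wordR, Tbl.Good2.gW_cons, Tbl.Good2.gW_nil, mul_one]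
    exact hG.chi_xN (hG.simple_lt hi) (toDS S z) t
  | cons s L ih =>
    obtain ⟨h1, h2⟩ := hc
    have hs : s < D.rank := hlt s (by simp)
    have hlt' : ∀ a ∈ s :: L, a < D.rank := fun a ha => hlt a (List.mem_cons_of_mem _ ha)
    have e := ih h2 hlt' hs (φ t)
    rw [chS_next B z hi hs h1 t] at e
    have e1 : (toDS S z : GL D.Idx F) * hG.xN (D.simple i) t * (toDS S z : GL D.Idx F)⁻¹ =
        hG.xN (D.simple i) ((chS S (hG.simple_lt hi) z : F) * t) := hG.chi_xN (hG.simple_lt hi) (toDS S z) t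
    have e2 : ∀ u : F, hG.gW (wordR φ ((i :: s :: L).map D.simple) u) =
        hG.xN (D.simple i) u * hG.gW (wordR φ ((s :: L).map D.simple) (φ u)) := fun u => by
      rw [List.map_cons (a := i), wordR, Tbl.Good2.gW_cons]
    rw [e2, e2, ← e, ← e1]
    group

lemma word_conjJ (B : StOrb S O φ ρ) {j : ℕ} (hj : j < O.m) (z : ↥(fH S)) (t : F) :
    (toDS S z : GL D.Idx F) * hG.gW (wordR φ ((O.wJ j).map D.simple) t) * (toDS S z : GL D.Idx F)⁻¹ =
      hG.gW (wordR φ ((O.wJ j).map D.simple) ((chJ B hj z : F) * t)) := by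
  obtain ⟨i0, L, e, hc⟩ := B.ne j hj
  have hlt : ∀ a ∈ i0 :: L, a < D.rank := fun a ha => O.wJ_lt j hj a (e ▸ ha)
  have h := word_conj B z hc hlt (hlt i0 (by simp)) t
  have e2 : (chJ B hj z : F) = (chS S (hG.simple_lt (hlt i0 (by simp))) z : F) := by
    unfold chJ
    rw [chS_congr _ (hG.simple_lt (hlt i0 (by simp))) (congrArg D.simple (hdJ_eq e))]
  rw [e2, e]
  exact h

/-- The values on an orbit are parameters of the orbit. -/
lemma chJ_ok (B : StOrb S O φ ρ) {j : ℕ} (hj : j < O.m) (z : ↥(fH S)) : OkJ O φ j (chJ B hj z : F) := by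
  have h := word_conjJ B hj z 1
  rw [mul_one] at h
  have h1 : hG.gW (wordR φ ((O.wJ j).map D.simple) (chJ B hj z : F)) ∈ XJ D F (O.J j) := B.word_XJ hj _
  have h2 : hG.gW (wordR φ ((O.wJ j).map D.simple) (chJ B hj z : F)) ∈ S.fix := by
    rw [← h]
    exact Subgroup.mul_mem _ (Subgroup.mul_mem _ (toDS_fix z) (B.word_fix hj (iter_one φ _))) (Subgroup.inv_mem _ (toDS_fix z))
  obtain ⟨t, ht, e⟩ := B.XJ_fix hj h1 h2
  have := B.word_inj hj e
  rw [this]
  exact ht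

/-- Conjugation of the words of an orbit by the torus. -/
lemma wG_conj (B : StOrb S O φ ρ) {j : ℕ} (hj : j < O.m) (z : ↥(fH S)) (t : F) (ht : OkJ O φ j t) :
    (z : ↥S.fix) * wG B hj t ht * (z : ↥S.fix)⁻¹ = wG B hj ((chJ B hj z : F) * t) (okJ_mul (chJ_ok B hj z) ht) :=
  Subtype.ext (word_conjJ B hj z t)

/-- An element of the torus is determined by its values on the orbits. -/
lemma chS_eq_of_orbit (B : StOrb S O φ ρ) {z z' : ↥(fH S)} {i0 : ℕ} {i : ℕ} {L : List ℕ} (hc : TauCyc ρ i0 (i :: L))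
    (hlt : ∀ a ∈ i :: L, a < D.rank) (hi : i < D.rank) (h : chS S (hG.simple_lt hi) z = chS S (hG.simple_lt hi) z')
    {a : ℕ} (ha : a ∈ i :: L) (hal : a < D.rank) : chS S (hG.simple_lt hal) z = chS S (hG.simple_lt hal) z' := by
  induction L generalizing i with
  | nil =>
    obtain rfl : a = i := by simpa using ha
    exact h
  | cons s L ih =>
    obtain ⟨h1, h2⟩ := hc
    rcases List.mem_cons.1 ha with rfl | ha'
    · exact h
    · have hs : s < D.rank := hlt s (by simp)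
      refine ih h2 (fun b hb => hlt b (List.mem_cons_of_mem _ hb)) hs ?_ ha'
      apply Units.ext
      rw [chS_next' B z hi hs h1, chS_next' B z' hi hs h1, h]

lemma T_ext (B : StOrb S O φ ρ) {z z' : ↥(fH S)} (h : ∀ j (hj : j < O.m), chJ B hj z = chJ B hj z') : z = z' := by
  have hz : toDS S (z * z'⁻¹) = 1 := by
    refine hG.eq_one_of_chi _ fun i hi => ?_
    have hj := O.inJ_lt i hi
    obtain ⟨i0, L, e, hc⟩ := B.ne _ hj
    have hlt : ∀ a ∈ i0 :: L, a < D.rank := fun a ha => O.wJ_lt _ hj a (e ▸ ha)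
    have hmem : i ∈ i0 :: L := by
      rw [← e]
      exact B.mem_of_In hj hi rfl
    have hhd := hlt i0 (by simp)
    have h1 : chS S (hG.simple_lt hhd) z = chS S (hG.simple_lt hhd) z' := by
      have := h _ hj
      unfold chJ at this
      rw [chS_congr _ (hG.simple_lt hhd) (congrArg D.simple (hdJ_eq e)), chS_congr (r := D.simple (hdJ O (O.inJ i))) _ (hG.simple_lt hhd) (congrArg D.simple (hdJ_eq e))] at this
      exact this
    have h2 := chS_eq_of_orbit B hc hlt hhd h1 hmem hi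
    have h3 : hG.chi (hG.simple_lt hi) (toDS S (z * z'⁻¹)) = chS S (hG.simple_lt hi) z * (chS S (hG.simple_lt hi) z')⁻¹ := by
      rw [map_mul, map_inv, map_mul, map_inv]
      rfl
    rw [h3, h2, mul_inv_cancel]
  have h1 : z * z'⁻¹ = 1 := by
    apply Subtype.ext
    apply Subtype.ext
    exact congrArg (fun w : ↥(D.diagonalSubgroup F) => (w : GL D.Idx F)) hz
  exact mul_inv_eq_one.1 h1

/-- The conjugate of an element of the torus by a representative. -/
noncomputable def sT (B : StOrb S O φ ρ) {i : ℕ} (hi : i < O.m) (z : ↥(fH S)) : ↥(fH S) :=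
  ⟨B.twN.sF i hi * (z : ↥S.fix) * (B.twN.sF i hi)⁻¹,
    Subgroup.mem_subgroupOf.2 (hG.N_conj_H (B.twN.mem i hi) (Subgroup.mem_subgroupOf.1 z.2))⟩

/-- The value on an orbit of the conjugate by a representative. -/
lemma chJ_sT (B : StOrb S O φ ρ) {i j : ℕ} (hi : i < O.m) (hj : j < O.m) {s' : ℕ} (hs' : s' < D.nroots)
    (e : wperm T (O.wJ i) s' = D.simple (hdJ O j))
    (hlin : ∀ k, k < D.rank → T.cart k s' = T.cart k (D.simple (hdJ O j)) + T.cart k (D.simple (hdJ O i))) (z : ↥(fH S)) :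
    chJ B hj (sT B hi z) = chJ B hj z * chJ B hi z := by
  have hl := O.wJ_lt i hi
  have hz : hG.nProd (O.wJ i) * (toDS S z : GL D.Idx F) * (hG.nProd (O.wJ i))⁻¹ ∈ D.diagonalSubgroup F :=
    hG.N_conj_H (hG.nProd_mem_N hl) (toDS S z).2
  have h1 := hG.chi_conj_nProd hl (toDS S z) hs' hz
  have h2 := hG.chi_congr (hG.wperm_lt hl hs') (hG.simple_lt (hdJ_lt B hj)) e ⟨_, hz⟩
  rw [h2] at h1
  have h3 := hG.chi_lin (toDS S z) (hG.simple_lt (hdJ_lt B hj)) (hG.simple_lt (hdJ_lt B hi)) hs' 1 1 (fun k hk => by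
    rw [hlin k hk]
    ring)
  rw [zpow_one, zpow_one] at h3
  exact h1.trans h3

end

end Cfsg.Agent.Lib.ReeAut
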