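/-
Automorphisms of twisted groups of orbit type: field automorphisms, good automorphisms, rigidity.
-/
import Cfsg.Agent.Lib.ReeAut.StA
import Cfsg.Agent.Lib.ReeAut.F4a

set_option autoImplicit false

namespace Cfsg.Agent.Lib.ReeAut

open Cfsg.Lie Cfsg.Agent.Lib.Chev

section

variable {F : Type*} [Field F] {D : ChevalleyDatum} {T : Tbl} {hG : T.Good2 D} {S : Tw hG F}
  {O : TwOrb T D S.τ} {φ : F ≃+* F} {ρ : ℕ → ℕ}

/-- The data of a twisted group of orbit type. -/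
structure StD (S : Tw hG F) (O : TwOrb T D S.τ) (φ : F ≃+* F) (ρ : ℕ → ℕ) where
  B : StOrb S O φ ρ
  hH : B.HGen
  post : List ℕ
  hch : chainOK T D O [] post
  hcomm : ∀ (θ : F ≃+* F) (x : F), θ (φ x) = φ (θ x)

lemma glMap_word (θ : F ≃+* F) (hθ : ∀ x, θ (φ x) = φ (θ x)) (R : List ℕ) (t : F) :
    glMap D θ (hG.gW (wordR φ R t)) = hG.gW (wordR φ R (θ t)) := by
  induction R generalizing t with
  | nil =>
    simp only [wordR, Tbl.Good2.gW_nil, map_one]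
  | cons r R ih =>
    simp only [wordR, Tbl.Good2.gW_cons, map_mul, glMap_xN, ih, hθ]

namespace StD

variable (C : StD S O φ ρ)
include C

lemma glMap_fix (θ : F ≃+* F) {g : GL D.Idx F} (hg : g ∈ S.fix) : glMap D θ g ∈ S.fix := by
  let G1 : Subgroup (GL D.Idx F) := S.fix.comap (glMap D θ).toMonoidHom
  have h : S.fix ≤ G1 := C.B.fix_le_words C.hH C.hch
    (fun j hj t ht => by
      show glMap D θ _ ∈ S.fix
      rw [glMap_word θ (C.hcomm θ)]
      exact C.B.word_fix hj (okJ_theta θ (C.hcomm θ) ht))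
    (fun j hj t ht => by
      show glMap D θ _ ∈ S.fix
      rw [glMap_word θ (C.hcomm θ)]
      exact C.B.nword_fix hj (okJ_theta θ (C.hcomm θ) ht))
  exact h hg

/-- The field automorphism on the group. -/
noncomputable def fieldS (θ : F ≃+* F) : MulAut ↥S.fix where
  toFun g := ⟨glMap D θ g.1, C.glMap_fix θ g.2⟩
  invFun g := ⟨glMap D θ.symm g.1, C.glMap_fix θ.symm g.2⟩
  left_inv g := Subtype.ext (glMap_symm D θ.symm g.1)
  right_inv g := Subtype.ext (glMap_symm D θ g.1)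
  map_mul' a b := Subtype.ext (map_mul (glMap D θ) a.1 b.1)

lemma fieldS_coe (θ : F ≃+* F) (g : ↥S.fix) : ((C.fieldS θ g : ↥S.fix) : GL D.Idx F) = glMap D θ g := rfl

lemma fieldS_inv (θ : F ≃+* F) : (C.fieldS θ)⁻¹ = C.fieldS θ.symm := rfl

lemma fieldS_mul (θ θ' : F ≃+* F) : C.fieldS (θ * θ') = C.fieldS θ * C.fieldS θ' := by
  ext g i j
  rfl

lemma fieldS_wG (θ : F ≃+* F) {j : ℕ} (hj : j < O.m) (t : F) (ht : OkJ O φ j t) :
    C.fieldS θ (wG C.B hj t ht) = wG C.B hj (θ t) (okJ_theta θ (C.hcomm θ) ht) :=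
  Subtype.ext (glMap_word θ (C.hcomm θ) _ t)

lemma fieldS_nG (θ : F ≃+* F) {j : ℕ} (hj : j < O.m) (t : F) (ht : OkJ O φ j t) :
    C.fieldS θ (nG C.B hj t ht) = nG C.B hj (θ t) (okJ_theta θ (C.hcomm θ) ht) :=
  Subtype.ext (glMap_word θ (C.hcomm θ) _ t)

lemma nG_congr {j : ℕ} (hj : j < O.m) {t t' : F} (e : t = t') (ht : OkJ O φ j t) (ht' : OkJ O φ j t') :
    nG C.B hj t ht = nG C.B hj t' ht' := by
  subst e
  rfl

lemma fieldS_sF (θ : F ≃+* F) {j : ℕ} (hj : j < O.m) : C.fieldS θ (C.B.twN.sF j hj) = C.B.twN.sF j hj := by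
  rw [sF_trip C.B hj, map_mul, map_mul, fieldS_wG, fieldS_nG]
  rw [wG_congr C.B hj (map_one θ) _ okJ_one, C.nG_congr hj (show θ (-1) = -1 by simp) _ okJ_neg_one]

lemma fieldS_std (θ : F ≃+* F) : IsStdF (C.fieldS θ) := by
  constructor
  · intro x
    constructor
    · intro h
      have h1 := glMap_rootsGen (D := D) θ.symm (P := D.IsPosRoot) (fun _ hr => hr.1) (Subgroup.mem_subgroupOf.1 h)
      rw [fieldS_coe, glMap_glMap_symm] at h1
      exact Subgroup.mem_subgroupOf.2 h1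
    · intro h
      exact Subgroup.mem_subgroupOf.2 (glMap_rootsGen (D := D) θ (P := D.IsPosRoot) (fun _ hr => hr.1) (Subgroup.mem_subgroupOf.1 h))
  · intro x
    constructor
    · intro h
      have h1 := glMap_rootsGen (D := D) θ.symm (P := D.IsNegRoot) (fun _ hr => hr.1) (Subgroup.mem_subgroupOf.1 h)
      rw [fieldS_coe, glMap_glMap_symm] at h1
      exact Subgroup.mem_subgroupOf.2 h1
    · intro h
      exact Subgroup.mem_subgroupOf.2 (glMap_rootsGen (D := D) θ (P := D.IsNegRoot) (fun _ hr => hr.1) (Subgroup.mem_subgroupOf.1 h))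

lemma fieldS_fY (θ : F ≃+* F) {J : Set ℕ} {x : ↥S.fix} (h : x ∈ fY S J) : C.fieldS θ x ∈ fY S J :=
  Subgroup.mem_subgroupOf.2 (glMap_rootsGen (D := D) θ (fun _ hr => hr.1.1) (Subgroup.mem_subgroupOf.1 h))

lemma fieldS_fH (θ : F ≃+* F) {x : ↥S.fix} (h : x ∈ fH S) : C.fieldS θ x ∈ fH S :=
  Subgroup.mem_subgroupOf.2 (glMap_H θ (Subgroup.mem_subgroupOf.1 h))

/-- The values of the image of a torus element. -/
lemma fieldS_chS (θ : F ≃+* F) (z : ↥(fH S)) {r : ℕ} (hr : r < D.nroots) :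
    (chS S hr (⟨C.fieldS θ z, C.fieldS_fH θ z.2⟩ : ↥(fH S)) : F) = θ (chS S hr z : F) := by
  refine hG.chi_eq hr _ ?_
  have hx : ∀ t : F, glMap D θ (hG.xU hr t) = hG.xU hr (θ t) := fun t => by
    rw [← hG.xN_of_lt hr, glMap_xN, hG.xN_of_lt hr]
  have h1 := hG.chi_spec hr (toDS S z) 1
  have h2 := congrArg (glMap D θ) h1
  rw [map_mul, map_mul, map_inv, hx, hx, mul_one, map_one] at h2
  show glMap D θ z.1.1 * hG.xU hr 1 * (glMap D θ z.1.1)⁻¹ = _
  exact h2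

/-- An inner field automorphism fixes the torus. -/
theorem fieldS_inner_T (θ : F ≃+* F) (g : ↥S.fix) (he : C.fieldS θ = MulAut.conj g) (z : ↥(fH S)) :
    C.fieldS θ z = z := by
  have hconj : ∀ x, g * x * g⁻¹ = C.fieldS θ x := by
    intro x
    rw [he]
    rfl
  have hg : g ∈ fB S := by
    rw [mem_fB_iff C.B.twN]
    intro y hy
    rw [hconj]
    exact ((C.fieldS_std θ).U y).2 hy
  have h1 : g * (z : ↥S.fix) * g⁻¹ ∈ fH S := by
    rw [hconj]
    exact C.fieldS_fH θ z.2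
  have h2 := conj_fB_fH hG hg z.2 h1
  rw [← hconj]
  exact h2

end StD

/-- Standard automorphisms preserving the orbit groups and the parabolic subgroups. -/
structure GoodSt (B : StOrb S O φ ρ) (β : MulAut ↥S.fix) : Prop where
  std : IsStdF β
  P : ∀ j (hj : j < O.m) x, β x ∈ gPF B.twN j hj ↔ x ∈ gPF B.twN j hj
  X : ∀ j, j < O.m → ∀ x, β x ∈ fX S (O.J j) ↔ x ∈ fX S (O.J j)
  Y : ∀ j, j < O.m → ∀ x, β x ∈ fY S (O.J j) ↔ x ∈ fY S (O.J j)

lemma conj_iff_S {G : Type*} [Group G] {K : Subgroup G} {z : G} (h1 : ∀ y ∈ K, z * y * z⁻¹ ∈ K) (h2 : ∀ y ∈ K, z⁻¹ * y * z ∈ K) (x : G) :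
    z * x * z⁻¹ ∈ K ↔ x ∈ K := by
  refine ⟨fun h => ?_, h1 x⟩
  have := h2 _ h
  have e : z⁻¹ * (z * x * z⁻¹) * z = x := by group
  rwa [e] at this

section Conj

lemma T_gen (z : ↥(fH S)) {P : ℕ → Prop} (hP : ∀ r, P r → r < D.nroots) {y : ↥S.fix} (hy : (y : GL D.Idx F) ∈ rootsGen D F P) :
    (((z : ↥S.fix) * y * (z : ↥S.fix)⁻¹ : ↥S.fix) : GL D.Idx F) ∈ rootsGen D F P :=
  TwN.H_conj_gen hG (Subgroup.mem_subgroupOf.1 z.2) hP hy

lemma T_gen' (z : ↥(fH S)) {P : ℕ → Prop} (hP : ∀ r, P r → r < D.nroots) {y : ↥S.fix} (hy : (y : GL D.Idx F) ∈ rootsGen D F P) :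
    (((z : ↥S.fix)⁻¹ * y * (z : ↥S.fix) : ↥S.fix) : GL D.Idx F) ∈ rootsGen D F P := by
  have := T_gen (z⁻¹) hP hy
  simpa using this

lemma T_iff (z : ↥(fH S)) {P : ℕ → Prop} (hP : ∀ r, P r → r < D.nroots) (y : ↥S.fix) :
    (z : ↥S.fix) * y * (z : ↥S.fix)⁻¹ ∈ (rootsGen D F P).subgroupOf S.fix ↔ y ∈ (rootsGen D F P).subgroupOf S.fix :=
  conj_iff_S (fun _ hy => Subgroup.mem_subgroupOf.2 (T_gen z hP (Subgroup.mem_subgroupOf.1 hy)))
    (fun _ hy => Subgroup.mem_subgroupOf.2 (T_gen' z hP (Subgroup.mem_subgroupOf.1 hy))) y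

lemma GoodSt.conj_T {B : StOrb S O φ ρ} {β : MulAut ↥S.fix} (h : GoodSt B β) (z : ↥(fH S)) : GoodSt B (MulAut.conj (z : ↥S.fix) * β) := by
  have e : ∀ x, (MulAut.conj (z : ↥S.fix) * β) x = (z : ↥S.fix) * β x * (z : ↥S.fix)⁻¹ := fun x => rfl
  have hP : ∀ j (hj : j < O.m) x, (z : ↥S.fix) * x * (z : ↥S.fix)⁻¹ ∈ gPF B.twN j hj ↔ x ∈ gPF B.twN j hj := by
    intro j hj x
    have hz : (z : ↥S.fix) ∈ gPF B.twN j hj := fB_le_gPF B.twN hj (fH_le_fB _ z.2)
    exact conj_iff_S (fun _ hy => Subgroup.mul_mem _ (Subgroup.mul_mem _ hz hy) (Subgroup.inv_mem _ hz))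
      (fun _ hy => Subgroup.mul_mem _ (Subgroup.mul_mem _ (Subgroup.inv_mem _ hz) hy) hz) x
  refine ⟨⟨fun x => ?_, fun x => ?_⟩, fun j hj x => ?_, fun j hj x => ?_, fun j hj x => ?_⟩
  · rw [e, ← h.std.U x]
    exact T_iff z (P := D.IsPosRoot) (fun _ hr => hr.1) _
  · rw [e, ← h.std.V x]
    exact T_iff z (P := D.IsNegRoot) (fun _ hr => hr.1) _
  · rw [e, hP, h.P]
  · rw [e, ← h.X j hj x]
    exact T_iff z (fun _ hr => hr.1.1) _
  · rw [e, ← h.Y j hj x]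
    exact T_iff z (fun _ hr => hr.1.1) _

end Conj

/-- Up to an inner automorphism, every automorphism is good when the orbits are not permuted. -/
theorem exists_goodSt [Finite ↥S.fix] (B : StOrb S O φ ρ) (L : LongEl B.twN) {p : ℕ} [Fact p.Prime] (PU : Sylow p ↥S.fix) (hPU : (PU : Subgroup ↥S.fix) = fU S)
    (hX : ∀ γ : MulAut ↥S.fix, IsStdF γ → ∀ j j' (_ : j < O.m) (_ : j' < O.m), (∀ x, γ x ∈ fX S (O.J j') ↔ x ∈ fX S (O.J j)) → j' = j)
    (hY : ∀ γ : MulAut ↥S.fix, IsStdF γ → ∀ j j' (_ : j < O.m) (_ : j' < O.m), (∀ x, γ x ∈ fY S (O.J j') ↔ x ∈ fY S (O.J j)) → j' = j)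
    (α : MulAut ↥S.fix) : ∃ g : ↥S.fix, GoodSt B (MulAut.conj g * α) := by
  obtain ⟨g, hs⟩ := exists_std B.twN PU hPU L.m0 L.hf L.hneg α
  refine ⟨g, hs, ?_, ?_, ?_⟩
  · intro j hj x
    obtain ⟨j', hj', hP, hY'⟩ := hs.exists_perm_Y B.twN hj
    obtain rfl := hY _ hs j j' hj hj' hY'
    exact hP x
  · intro j hj x
    obtain ⟨j', hj', hX'⟩ := hs.exists_perm_X L hj
    obtain rfl := hX _ hs j j' hj hj' hX'
    exact hX' x
  · intro j hj x
    obtain ⟨j', hj', _, hY'⟩ := hs.exists_perm_Y B.twN hj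
    obtain rfl := hY _ hs j j' hj hj' hY'
    exact hY' x

/-- The map of a good automorphism on the parameters of an orbit. -/
def IsOrbA (B : StOrb S O φ ρ) (β : MulAut ↥S.fix) {j : ℕ} (hj : j < O.m) (A : F → F) : Prop :=
  ∀ t (ht : OkJ O φ j t), ∃ ht' : OkJ O φ j (A t), β (wG B hj t ht) = wG B hj (A t) ht'

section Orb

variable {B : StOrb S O φ ρ} {β : MulAut ↥S.fix}

theorem exists_orbA (h : GoodSt B β) {j : ℕ} (hj : j < O.m) : ∃ A : F → F, IsOrbA B β hj A := by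
  have key : ∀ t : F, ∃ a : F, ∀ ht : OkJ O φ j t, ∃ ht' : OkJ O φ j a, β (wG B hj t ht) = wG B hj a ht' := by
    intro t
    by_cases ht : OkJ O φ j t
    · obtain ⟨a, ha, e⟩ := mem_fX_wG B hj ((h.X j hj _).2 (wG_mem B hj t ht))
      exact ⟨a, fun _ => ⟨ha, e⟩⟩
    · exact ⟨0, fun h => absurd h ht⟩
  choose A hA using key
  exact ⟨A, hA⟩

variable {j : ℕ} {hj : j < O.m} {A : F → F}

lemma IsOrbA.ok (hA : IsOrbA B β hj A) {t : F} (ht : OkJ O φ j t) : OkJ O φ j (A t) := (hA t ht).1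

lemma IsOrbA.map (hA : IsOrbA B β hj A) {t : F} (ht : OkJ O φ j t) : β (wG B hj t ht) = wG B hj (A t) (hA.ok ht) := (hA t ht).2

lemma IsOrbA.add (hA : IsOrbA B β hj A) {a c : F} (ha : OkJ O φ j a) (hc : OkJ O φ j c) : A (a + c) = A a + A c := by
  have e := congrArg β (wG_mul B hj a c ha hc)
  rw [map_mul, hA.map, hA.map, hA.map, wG_mul] at e
  exact (wG_inj B hj e).symm

lemma IsOrbA.zero (hA : IsOrbA B β hj A) : A 0 = 0 := by
  have h := hA.add (okJ_zero) (okJ_zero)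
  rw [add_zero] at h
  linear_combination -h

lemma IsOrbA.ne_zero (hA : IsOrbA B β hj A) {t : F} (ht : OkJ O φ j t) (h0 : t ≠ 0) : A t ≠ 0 := by
  intro e
  have h1 := hA.map ht
  rw [wG_congr B hj e _ okJ_zero, wG_zero, map_eq_one_iff _ β.injective] at h1
  rw [← wG_zero B hj] at h1
  exact h0 (wG_inj B hj h1)

variable (L : LongEl B.twN)

/-- The action on the torus. -/
noncomputable def bTS (h : GoodSt B β) (z : ↥(fH S)) : ↥(fH S) :=
  ⟨β z, (h.std.fH_iff B.twN L.m0 L.hf L.hneg _).2 z.2⟩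

lemma bTS_coe (h : GoodSt B β) (z : ↥(fH S)) : ((bTS L h z : ↥(fH S)) : ↥S.fix) = β z := rfl

lemma IsOrbA.scale (h : GoodSt B β) (hA : IsOrbA B β hj A) (z : ↥(fH S)) {t : F} (ht : OkJ O φ j t) :
    A ((chJ B hj z : F) * t) = (chJ B hj (bTS L h z) : F) * A t := by
  have e := congrArg β (wG_conj B hj z t ht)
  rw [map_mul, map_mul, map_inv, hA.map, hA.map, ← bTS_coe L h, wG_conj] at e
  exact (wG_inj B hj e).symm

lemma bTS_sT (h : GoodSt B β) {i : ℕ} (hi : i < O.m) (z : ↥(fH S)) : bTS L h (sT B hi z) = sT B hi (bTS L h z) := by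
  apply Subtype.ext
  have hc := sF_inv_mul_mem B.twN hi (h.X i hi) (h.Y i hi) (h.P i hi)
  have hH := h.std.fH_iff B.twN L.m0 L.hf L.hneg
  exact map_conj_sF B.twN hi hc hH z.2

include L in
/-- Compatibility of the maps of two orbits. -/
theorem link (h : GoodSt B β) {i j : ℕ} {hi : i < O.m} {hj : j < O.m} {Ai Aj : F → F} (hAi : IsOrbA B β hi Ai)
    (hAj : IsOrbA B β hj Aj) (h1i : Ai 1 = 1) (h1j : Aj 1 = 1)
    (hl : ∀ z, chJ B hj (sT B hi z) = chJ B hj z * chJ B hi z) (z : ↥(fH S)) (hok : OkJ O φ j (chJ B hi z : F)) :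
    Aj (chJ B hi z : F) = Ai (chJ B hi z : F) := by
  have sj : ∀ w : ↥(fH S), Aj (chJ B hj w : F) = (chJ B hj (bTS L h w) : F) := by
    intro w
    have := hAj.scale L h w (okJ_one)
    rwa [mul_one, h1j, mul_one] at this
  have si : ∀ w : ↥(fH S), Ai (chJ B hi w : F) = (chJ B hi (bTS L h w) : F) := by
    intro w
    have := hAi.scale L h w (okJ_one)
    rwa [mul_one, h1i, mul_one] at this
  have e1 := sj (sT B hi z)
  rw [bTS_sT, hl, hl, Units.val_mul, Units.val_mul, hAj.scale L h z hok, ← si] at e1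
  exact mul_left_cancel₀ (Units.ne_zero _) e1

end Orb

/-- An automorphism acting on the words as a field automorphism is a field automorphism. -/
theorem eq_fieldS (C : StD S O φ ρ) {β : MulAut ↥S.fix} (h : GoodSt C.B β) (θ : F ≃+* F)
    (hw : ∀ j (hj : j < O.m) t (ht : OkJ O φ j t), β (wG C.B hj t ht) = wG C.B hj (θ t) (okJ_theta θ (C.hcomm θ) ht)) :
    β = C.fieldS θ := by
  set β₁ := (C.fieldS θ)⁻¹ * β with hβ₁
  have happly : ∀ x, β₁ x = C.fieldS θ.symm (β x) := fun x => rfl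
  have h1w : ∀ j (hj : j < O.m) t (ht : OkJ O φ j t), β₁ (wG C.B hj t ht) = wG C.B hj t ht := by
    intro j hj t ht
    rw [happly, hw, C.fieldS_wG]
    exact wG_congr C.B hj (θ.symm_apply_apply t) _ _
  have hrep : ∀ j (hj : j < O.m), (C.B.twN.sF j hj)⁻¹ * β₁ (C.B.twN.sF j hj) ∈ fB S := by
    intro j hj
    have hc := sF_inv_mul_mem C.B.twN hj (h.X j hj) (h.Y j hj) (h.P j hj)
    have e : (C.B.twN.sF j hj)⁻¹ * β₁ (C.B.twN.sF j hj) = C.fieldS θ.symm ((C.B.twN.sF j hj)⁻¹ * β (C.B.twN.sF j hj)) := by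
      rw [map_mul, map_inv, C.fieldS_sF, happly]
    rw [e]
    exact ((C.fieldS_std θ.symm).fB_iff C.B.twN _).2 hc
  have hV : ∀ j (hj : j < O.m), ∀ x ∈ fY S (O.J j), β₁ x = x := by
    intro j hj
    refine (fix_of_word (β := β₁) C.B.twN hj (hrep j hj) ?_ ?_ (wG_mem C.B hj 1 okJ_one) (wG_mem C.B hj 1 okJ_one)
      (nG_mem C.B hj (-1) okJ_neg_one) (sF_trip C.B hj)).2
    · intro x hx
      obtain ⟨t, ht, rfl⟩ := mem_fX_wG C.B hj hx
      exact h1w j hj t ht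
    · intro x hx
      exact C.fieldS_fY θ.symm ((h.Y j hj _).2 hx)
  let G1 : Subgroup (GL D.Idx F) := (MonoidHom.eqLocus β₁.toMonoidHom (MonoidHom.id ↥S.fix)).map S.fix.subtype
  have hle : S.fix ≤ G1 := C.B.fix_le_words C.hH C.hch
    (fun j hj t ht => ⟨wG C.B hj t ht, h1w j hj t ht, rfl⟩)
    (fun j hj t ht => ⟨nG C.B hj t ht, hV j hj _ (nG_mem C.B hj t ht), rfl⟩)
  have hone : β₁ = 1 := by
    ext1 x
    obtain ⟨y, hy, e⟩ := hle x.2
    have e2 : y = x := Subtype.ext e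
    rw [← e2]
    exact hy
  rw [hβ₁, inv_mul_eq_one] at hone
  exact hone.symm

/-- The order of the outer automorphism group when all automorphisms are inner-by-field and the field acts faithfully
modulo inner automorphisms. -/
theorem card_out_of_decomp (C : StD S O φ ρ) (hdec : ∀ α : MulAut ↥S.fix, ∃ (g : ↥S.fix) (θ : F ≃+* F), α = MulAut.conj g * C.fieldS θ)
    (hin : ∀ (θ : F ≃+* F) (g : ↥S.fix), C.fieldS θ = MulAut.conj g → θ = 1) :
    Nat.card (Cfsg.Out ↥S.fix) = Nat.card (F ≃+* F) := by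
  let fh : (F ≃+* F) →* MulAut ↥S.fix := MonoidHom.mk' C.fieldS C.fieldS_mul
  let Ψ : (F ≃+* F) →* Cfsg.Out ↥S.fix := (QuotientGroup.mk' (Cfsg.Inn ↥S.fix)).comp fh
  have hinj : Function.Injective Ψ := by
    rw [injective_iff_map_eq_one]
    intro θ hθ
    have : C.fieldS θ ∈ Cfsg.Inn ↥S.fix := (QuotientGroup.eq_one_iff _).1 hθ
    obtain ⟨g, hg⟩ := this
    exact hin θ g hg.symm
  have hsurj : Function.Surjective Ψ := by
    intro x
    obtain ⟨α, rfl⟩ := QuotientGroup.mk'_surjective _ x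
    obtain ⟨g, θ, rfl⟩ := hdec α
    refine ⟨θ, ?_⟩
    show QuotientGroup.mk' _ (C.fieldS θ) = QuotientGroup.mk' _ (MulAut.conj g * C.fieldS θ)
    rw [map_mul]
    have : QuotientGroup.mk' (Cfsg.Inn ↥S.fix) (MulAut.conj g) = 1 :=
      (QuotientGroup.eq_one_iff _).2 ⟨g, rfl⟩
    rw [this, one_mul]
  exact (Nat.card_congr (Equiv.ofBijective Ψ ⟨hinj, hsurj⟩)).symm

end

end Cfsg.Agent.Lib.ReeAut
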