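/-
The automorphism group of ³D₄(q).
-/
import Cfsg.Agent.Lib.ReeAut.StB
import Cfsg.Agent.Lib.Tw.OrdD4
import Cfsg.Agent.Lib.ChevAut.FieldCard

set_option autoImplicit false
set_option maxRecDepth 100000

namespace Cfsg.Agent.Lib.ReeAut

open Cfsg.Lie Cfsg.Agent.Lib.Chev

lemma exists_ringEquiv_scale {K : Type*} [Field K] [Finite K] (A : K → K) (hadd : ∀ a c, A (a + c) = A a + A c) (h1 : A 1 = 1)
    (hs : ∀ x : K, x ≠ 0 → ∃ c : K, ∀ t, A (x * t) = c * A t) : ∃ θ : K ≃+* K, ∀ x, θ x = A x := by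
  have hA0 : A 0 = 0 := by
    have := hadd 0 0
    rw [add_zero] at this
    linear_combination -this
  have hmul : ∀ x a : K, A (x * a) = A x * A a := by
    intro x a
    by_cases hx : x = 0
    · rw [hx, zero_mul, hA0, zero_mul]
    · obtain ⟨c, hc⟩ := hs x hx
      have e2 := hc 1
      rw [mul_one, h1, mul_one] at e2
      rw [hc, e2]
  let σ : K →+* K :=
    { toFun := A, map_one' := h1, map_mul' := hmul, map_zero' := hA0, map_add' := hadd }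
  have hbij : Function.Bijective σ := ⟨σ.injective, Finite.surjective_of_injective σ.injective⟩
  exact ⟨RingEquiv.ofBijective σ hbij, fun _ => rfl⟩

section

variable {K : Type*} [Field K] [Fintype K] {q : ℕ} (φ : K ≃+* K)

theorem h0D : 0 < orbD4.m := by decide
theorem h1D : 1 < orbD4.m := by decide

/-- The data of ³D₄(q). -/
noncomputable def stdD4 (hq : ∀ x, φ x = x ^ q) (hφ : ∀ x, φ (φ (φ x)) = x) : StD (twD4 φ) orbD4 φ rhoD4 where
  B := stD4 φ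
  hH := hGenD4 φ hφ
  post := [0, 1, 0, 1, 0, 1]
  hch := chainD4
  hcomm := fun θ x => by rw [hq, hq, map_pow]

/-- The word of the longest element. -/
def w0D4 : List ℕ := [1, 0, 2, 3, 1, 0, 2, 3, 1, 0, 2, 3]

theorem w0D4_eq : ∀ r, r < 24 → wperm digD4.tbl w0D4 r = chevD4.neg r := by
  decide +kernel

theorem neg_D4_lt : ∀ r, r < 24 → 12 ≤ r → chevD4.neg r < 12 := by
  decide +kernel

/-- The element `m₀`. -/
noncomputable def m0D4 : ↥(chevD4.monomialSubgroup K) :=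
  (((stD4 φ).twN.s 0 h0D * (stD4 φ).twN.s 1 h1D) ^ 3 : ↥(chevD4.monomialSubgroup K))

lemma perm_stepD4 {m : ↥(chevD4.monomialSubgroup K)} {pre : List ℕ} (h : ∀ r : Fin chevD4.nroots, (good3D4.toGood2.permN m r : ℕ) = wperm digD4.tbl pre r)
    {j : ℕ} (hj : j < orbD4.m) (r : Fin chevD4.nroots) : (good3D4.toGood2.permN (m * (stD4 φ).twN.s j hj) r : ℕ) = wperm digD4.tbl (pre ++ orbD4.wJ j) r := by
  rw [map_mul, Equiv.Perm.mul_apply, h, (stD4 φ).twN.s_perm, wperm_append]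

lemma m0D4_perm (r : Fin chevD4.nroots) : (good3D4.toGood2.permN (m0D4 φ) r : ℕ) = wperm digD4.tbl w0D4 r := by
  have h0 : ∀ r : Fin chevD4.nroots, (good3D4.toGood2.permN (1 : ↥(chevD4.monomialSubgroup K)) r : ℕ) = wperm digD4.tbl [] r := fun r => by simp
  have h1 := perm_stepD4 φ h0 h0D
  have h2 := perm_stepD4 φ h1 h1D
  have h3 := perm_stepD4 φ h2 h0D
  have h4 := perm_stepD4 φ h3 h1D
  have h5 := perm_stepD4 φ h4 h0D
  have h6 := perm_stepD4 φ h5 h1D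
  have e : m0D4 φ = 1 * (stD4 φ).twN.s 0 h0D * (stD4 φ).twN.s 1 h1D * (stD4 φ).twN.s 0 h0D * (stD4 φ).twN.s 1 h1D *
      (stD4 φ).twN.s 0 h0D * (stD4 φ).twN.s 1 h1D := by
    unfold m0D4
    simp only [pow_succ, pow_zero, one_mul, mul_assoc]
  rw [e]
  exact h6 r

/-- The longest element. -/
noncomputable def longD4 : LongEl (stD4 φ).twN where
  m0 := m0D4 φ
  hf := by
    have e : ((m0D4 φ : ↥(chevD4.monomialSubgroup K)) : GL chevD4.Idx K) = ((stD4 φ).twN.n 0 * (stD4 φ).twN.n 1) ^ 3 := rfl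
    rw [e]
    exact Subgroup.pow_mem _ (Subgroup.mul_mem _ ((stD4 φ).twN.fix 0 h0D) ((stD4 φ).twN.fix 1 h1D)) 3
  hneg := fun r hr => by
    rw [m0D4_perm, w0D4_eq r r.2]
    exact neg_D4_lt r r.2 hr
  hw := fun j hj r hr hrJ => by
    rw [m0D4_perm, w0D4_eq r r.2]
    exact good3D4.inRootSub_neg hrJ

variable {φ}
variable (hq : ∀ x, φ x = x ^ q) (hφ : ∀ x, φ (φ (φ x)) = x) (hK : Fintype.card K = q ^ 3)

section Cards

include hq hK

lemma card_fX0D : Nat.card ↥(fX (twD4 φ) (orbD4.J 0)) = q := by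
  refine (card_subgroupOf_eq _ _).trans (((stD4 φ).card_XJ h0D).trans ?_)
  have e0 : Nat.card {t : K // (⇑φ)^[(orbD4.wJ 0).length] t = t} = Nat.card {x : K // x ^ q = x} :=
    Nat.card_congr (Equiv.subtypeEquivRight fun t => by
      show φ t = t ↔ _
      rw [hq])
  rw [e0, card_fixed_pow (by norm_num) hK]

lemma card_fX1D (hφ : ∀ x, φ (φ (φ x)) = x) : Nat.card ↥(fX (twD4 φ) (orbD4.J 1)) = q ^ 3 := by
  refine (card_subgroupOf_eq _ _).trans (((stD4 φ).card_XJ h1D).trans ?_)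
  have e1 : Nat.card {t : K // (⇑φ)^[(orbD4.wJ 1).length] t = t} = Nat.card K :=
    Nat.card_congr (Equiv.subtypeUnivEquiv fun t => hφ t)
  rw [e1, Nat.card_eq_fintype_card, hK]

end Cards

include hq hφ hK in
lemma orbit_eq_D4 {j j' : ℕ} (hj : j < orbD4.m) (hj' : j' < orbD4.m)
    (h : Nat.card ↥(fX (twD4 φ) (orbD4.J j')) = Nat.card ↥(fX (twD4 φ) (orbD4.J j))) : j' = j := by
  have hj2 : j < 2 := hj
  have hj2' : j' < 2 := hj'
  have h1 := one_lt_q (k := 3) (by norm_num) hK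
  have h2 : q < q ^ 3 := by nlinarith [sq_nonneg q, pow_succ q 2, pow_two q]
  interval_cases j <;> interval_cases j'
  · rfl
  · rw [card_fX0D hq hK, card_fX1D hq hK hφ] at h
    omega
  · rw [card_fX0D hq hK, card_fX1D hq hK hφ] at h
    omega
  · rfl

/-! ### The torus -/

include hq hφ hK in
/-- Prescribed values on the torus. -/
theorem exists_T_D4 (a b : Kˣ) (ha : φ (a : K) = a) : ∃ z : ↥(fH (twD4 φ)), chJ (stD4 φ) h0D z = a ∧ chJ (stD4 φ) h1D z = b := by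
  let f : ↥(fH (twD4 φ)) → {x : Kˣ // x ^ q = x} × Kˣ := fun z =>
    (⟨chJ (stD4 φ) h0D z, Units.ext (by
      rw [Units.val_pow_eq_pow_val, ← hq]
      exact chJ_ok (stD4 φ) h0D z)⟩, chJ (stD4 φ) h1D z)
  have hinj : Function.Injective f := by
    intro z z' e
    refine T_ext (stD4 φ) fun j hj => ?_
    have hj' : j < 2 := hj
    interval_cases j
    · exact congrArg Subtype.val (congrArg Prod.fst e)
    · exact congrArg Prod.snd e
  have hcard : Nat.card ({x : Kˣ // x ^ q = x} × Kˣ) ≤ Nat.card ↥(fH (twD4 φ)) := by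
    rw [card_subgroupOf_eq, cardHD4 φ hq hφ hK, Nat.card_prod, card_fixed_units (by norm_num) hK, Nat.card_units,
      Nat.card_eq_fintype_card, hK]
  have hfin : Finite ({x : Kˣ // x ^ q = x} × Kˣ) := inferInstance
  obtain ⟨z, hz⟩ := (hinj.bijective_of_nat_card_le hcard).2 (⟨a, Units.ext (by
    rw [Units.val_pow_eq_pow_val, ← hq]
    exact ha)⟩, b)
  refine ⟨z, ?_, ?_⟩
  · exact congrArg Subtype.val (congrArg Prod.fst hz)
  · exact congrArg Prod.snd hz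

/-! ### Rigidity -/

theorem linkD4a : wperm digD4.tbl [1] 18 < chevD4.nroots := by decide +kernel
theorem linkD4b : wperm digD4.tbl (orbD4.wJ 0) (wperm digD4.tbl [1] 18) = chevD4.simple (hdJ orbD4 1) := by decide +kernel
theorem linkD4c : ∀ k, k < chevD4.rank → digD4.tbl.cart k (wperm digD4.tbl [1] 18) =
    digD4.tbl.cart k (chevD4.simple (hdJ orbD4 1)) + digD4.tbl.cart k (chevD4.simple (hdJ orbD4 0)) := by decide +kernel

lemma linkD4 (z : ↥(fH (twD4 φ))) : chJ (stD4 φ) h1D (sT (stD4 φ) h0D z) = chJ (stD4 φ) h1D z * chJ (stD4 φ) h0D z :=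
  chJ_sT (stD4 φ) h0D h1D linkD4a linkD4b linkD4c z

include hq hφ hK in
/-- Rigidity. -/
theorem rigD4 {β : MulAut ↥(twD4 φ).fix} (h : GoodSt (stD4 φ) β) {A0 A1 : K → K} (hA0 : IsOrbA (stD4 φ) β h0D A0)
    (hA1 : IsOrbA (stD4 φ) β h1D A1) (a0 : A0 1 = 1) (a1 : A1 1 = 1) : ∃ θ : K ≃+* K, β = (stdD4 φ hq hφ).fieldS θ := by
  have ok1 : ∀ t : K, OkJ orbD4 φ 1 t := fun t => hφ t
  have hL := longD4 φ
  obtain ⟨θ, hθ⟩ := exists_ringEquiv_scale A1 (fun a c => hA1.add (ok1 a) (ok1 c)) a1 (fun x hx => by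
    obtain ⟨z, _, hz⟩ := exists_T_D4 hq hφ hK 1 (Units.mk0 x hx) (map_one φ)
    have hz' : (chJ (stD4 φ) h1D z : K) = x := by
      rw [hz]
      rfl
    exact ⟨_, fun t => by
      rw [← hz']
      exact hA1.scale hL h z (ok1 t)⟩)
  have hlink : ∀ t : K, φ t = t → A0 t = θ t := by
    intro t ht
    by_cases ht0 : t = 0
    · rw [ht0, hA0.zero, map_zero]
    · obtain ⟨z, hz, _⟩ := exists_T_D4 hq hφ hK (Units.mk0 t ht0) 1 ht
      have hz' : (chJ (stD4 φ) h0D z : K) = t := by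
        rw [hz]
        rfl
      have := link hL h hA0 hA1 a0 a1 linkD4 z (ok1 _)
      rw [hz'] at this
      rw [hθ]
      exact this.symm
  refine ⟨θ, eq_fieldS (stdD4 φ hq hφ) h θ fun j hj t ht => ?_⟩
  have hj' : j < 2 := hj
  interval_cases j
  · rw [hA0.map ht]
    exact wG_congr _ _ (hlink t ht) _ _
  · rw [hA1.map ht]
    exact wG_congr _ _ (hθ t).symm _ _

/-! ### The decomposition -/

include hq hφ hK in
theorem exists_goodD4 [Fact (Nat.Prime 2)] {p : ℕ} [Fact p.Prime] (PU : Sylow p ↥(twD4 φ).fix) (hPU : (PU : Subgroup ↥(twD4 φ).fix) = fU (twD4 φ))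
    (α : MulAut ↥(twD4 φ).fix) : ∃ g : ↥(twD4 φ).fix, GoodSt (stD4 φ) (MulAut.conj g * α) := by
  refine exists_goodSt (stD4 φ) (longD4 φ) PU hPU ?_ ?_ α
  · intro γ _ j j' hj hj' he
    exact orbit_eq_D4 hq hφ hK hj hj' (card_of_iff _ he)
  · intro γ _ j j' hj hj' he
    exact orbit_eq_D4 hq hφ hK hj hj'
      ((card_fY_eq (stD4 φ).twN hj').symm.trans ((card_of_iff _ he).trans (card_fY_eq (stD4 φ).twN hj)))

include hq hφ hK in
/-- The decomposition of an automorphism. -/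
theorem aut_decompD4 {p : ℕ} [Fact p.Prime] (PU : Sylow p ↥(twD4 φ).fix) (hPU : (PU : Subgroup ↥(twD4 φ).fix) = fU (twD4 φ))
    (α : MulAut ↥(twD4 φ).fix) : ∃ (g : ↥(twD4 φ).fix) (θ : K ≃+* K), α = MulAut.conj g * (stdD4 φ hq hφ).fieldS θ := by
  haveI : Fact (Nat.Prime 2) := ⟨Nat.prime_two⟩
  obtain ⟨g, hg⟩ := exists_goodD4 hq hφ hK PU hPU α
  set β := MulAut.conj g * α with hβ
  obtain ⟨A0, hA0⟩ := exists_orbA hg h0D
  obtain ⟨A1, hA1⟩ := exists_orbA hg h1D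
  have n0 : A0 1 ≠ 0 := hA0.ne_zero okJ_one one_ne_zero
  have n1 : A1 1 ≠ 0 := hA1.ne_zero okJ_one one_ne_zero
  have ok0 : φ (A0 1)⁻¹ = (A0 1)⁻¹ := by
    have h2 : φ (A0 1) = A0 1 := hA0.ok okJ_one
    rw [map_inv₀, h2]
  obtain ⟨z, hz0, hz1⟩ := exists_T_D4 hq hφ hK (Units.mk0 (A0 1)⁻¹ (inv_ne_zero n0)) (Units.mk0 (A1 1)⁻¹ (inv_ne_zero n1)) ok0
  have hz0' : (chJ (stD4 φ) h0D z : K) = (A0 1)⁻¹ := by
    rw [hz0]
    rfl
  have hz1' : (chJ (stD4 φ) h1D z : K) = (A1 1)⁻¹ := by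
    rw [hz1]
    rfl
  have hgz := hg.conj_T z
  have hA0' : IsOrbA (stD4 φ) (MulAut.conj (z : ↥(twD4 φ).fix) * β) h0D (fun t => (A0 1)⁻¹ * A0 t) := by
    intro t ht
    refine ⟨okJ_mul (okJ_inv (hA0.ok okJ_one)) (hA0.ok ht), ?_⟩
    show (z : ↥(twD4 φ).fix) * β (wG _ _ t ht) * (z : ↥(twD4 φ).fix)⁻¹ = _
    rw [hA0.map ht]
    exact (wG_conj (stD4 φ) h0D z (A0 t) (hA0.ok ht)).trans (wG_congr _ _ (by rw [hz0']) _ _)
  have hA1' : IsOrbA (stD4 φ) (MulAut.conj (z : ↥(twD4 φ).fix) * β) h1D (fun t => (A1 1)⁻¹ * A1 t) := by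
    intro t ht
    refine ⟨okJ_mul (okJ_inv (hA1.ok okJ_one)) (hA1.ok ht), ?_⟩
    show (z : ↥(twD4 φ).fix) * β (wG _ _ t ht) * (z : ↥(twD4 φ).fix)⁻¹ = _
    rw [hA1.map ht]
    exact (wG_conj (stD4 φ) h1D z (A1 t) (hA1.ok ht)).trans (wG_congr _ _ (by rw [hz1']) _ _)
  obtain ⟨θ, hθ⟩ := rigD4 hq hφ hK hgz hA0' hA1' (inv_mul_cancel₀ n0) (inv_mul_cancel₀ n1)
  refine ⟨g⁻¹ * (z : ↥(twD4 φ).fix)⁻¹, θ, ?_⟩
  rw [← hθ, map_mul, map_inv, map_inv, hβ]
  group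

include hq hφ hK in
/-- Field automorphisms are not inner. -/
theorem fieldD4_inner (θ : K ≃+* K) (g : ↥(twD4 φ).fix) (he : (stdD4 φ hq hφ).fieldS θ = MulAut.conj g) : θ = 1 := by
  ext x
  by_cases hx : x = 0
  · rw [hx, map_zero]
    rfl
  obtain ⟨z, _, hz⟩ := exists_T_D4 hq hφ hK 1 (Units.mk0 x hx) (map_one φ)
  have hz' : (chJ (stD4 φ) h1D z : K) = x := by
    rw [hz]
    rfl
  have h1 := (stdD4 φ hq hφ).fieldS_inner_T θ g he z
  have h2 := (stdD4 φ hq hφ).fieldS_chS θ z (good3D4.toGood2.simple_lt (hdJ_lt (stD4 φ) h1D))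
  have h3 : (⟨(stdD4 φ hq hφ).fieldS θ z, (stdD4 φ hq hφ).fieldS_fH θ z.2⟩ : ↥(fH (twD4 φ))) = z := Subtype.ext h1
  rw [h3] at h2
  have h4 : (chS (twD4 φ) (good3D4.toGood2.simple_lt (hdJ_lt (stD4 φ) h1D)) z : K) = x := hz'
  rw [h4] at h2
  exact h2.symm

include hq hφ hK in
/-- `U¹` is a Sylow subgroup. -/
theorem sylD4 {p f : ℕ} [Fact p.Prime] (hf : 1 ≤ f) (hq' : q = p ^ f) :
    ∃ PU : Sylow p ↥(twD4 φ).fix, (PU : Subgroup ↥(twD4 φ).fix) = fU (twD4 φ) := by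
  have hc : Nat.card ↥(fU (twD4 φ)) = q ^ 12 := (card_subgroupOf_eq _ _).trans (cardUD4 φ hq hφ hK)
  have hP : IsPGroup p ↥(fU (twD4 φ)) := IsPGroup.of_card (n := f * 12) (by rw [hc, hq', pow_mul])
  have hp := (Fact.out : p.Prime)
  have hq1 : 1 < q := one_lt_q (k := 3) (by norm_num) hK
  have hdvd : p ∣ q := by
    rw [hq']
    exact dvd_pow_self p (by omega)
  have hI : ¬ p ∣ (fU (twD4 φ)).index := by
    have h1 := Subgroup.card_mul_index (fU (twD4 φ))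
    rw [hc, twOrderD4 φ hq hφ hK] at h1
    have h2 : (fU (twD4 φ)).index = (q ^ 2 - 1) * (q ^ 6 - 1) * (q ^ 8 + q ^ 4 + 1) := by
      apply Nat.eq_of_mul_eq_mul_left (show 0 < q ^ 12 by positivity)
      rw [h1]
      ring
    rw [h2]
    have key : ∀ n, n ≠ 0 → ¬ p ∣ q ^ n - 1 := by
      intro n hn h3
      have h4 : p ∣ q ^ n := dvd_pow hdvd hn
      have h5 : q ^ n = (q ^ n - 1) + 1 := (Nat.sub_add_cancel (Nat.one_le_pow _ _ (by omega))).symm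
      rw [h5] at h4
      exact hp.one_lt.ne' (Nat.dvd_one.1 ((Nat.dvd_add_right h3).1 h4))
    intro h3
    rcases hp.dvd_mul.1 h3 with h4 | h4
    · rcases hp.dvd_mul.1 h4 with h5 | h5
      · exact key 2 (by norm_num) h5
      · exact key 6 (by norm_num) h5
    · have h6 : p ∣ q ^ 8 + q ^ 4 := Nat.dvd_add (dvd_pow hdvd (by norm_num)) (dvd_pow hdvd (by norm_num))
      exact hp.one_lt.ne' (Nat.dvd_one.1 ((Nat.dvd_add_right h6).1 h4))
  exact ⟨hP.toSylow hI, rfl⟩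

include hq hφ hK in
/-- The order of the outer automorphism group. -/
theorem card_out_D4 {p f : ℕ} [Fact p.Prime] (hf : 1 ≤ f) (hq' : q = p ^ f) :
    Nat.card (Cfsg.Out ↥(twD4 φ).fix) = Nat.card (K ≃+* K) := by
  obtain ⟨PU, hPU⟩ := sylD4 hq hφ hK hf hq'
  exact card_out_of_decomp (stdD4 φ hq hφ) (aut_decompD4 hq hφ hK PU hPU) (fieldD4_inner hq hφ hK)

end

end Cfsg.Agent.Lib.ReeAut
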