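/-
Automorphisms of twisted groups of orbit type: diagonal automorphisms.
-/
import Cfsg.Agent.Lib.ReeAut.StB
import Cfsg.Agent.Lib.ChevAut.CharAut

set_option autoImplicit false

namespace Cfsg.Agent.Lib.ReeAut

open Cfsg.Lie Cfsg.Agent.Lib.Chev

section

variable {F : Type*} [Field F] {D : ChevalleyDatum} {T : Tbl} {hG : T.Good2 D} {S : Tw hG F}
  {O : TwOrb T D S.τ} {φ : F ≃+* F} {ρ : ℕ → ℕ}

/-! ### The general conjugation of words -/

/-- Conjugation of the word of a cycle. -/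
lemma conj_word {g : GL D.Idx F} {c : ℕ → F} {i0 i : ℕ} {L : List ℕ} (hcyc : TauCyc ρ i0 (i :: L))
    (hρ : ∀ a ∈ i :: L, c (ρ a) = φ (c a))
    (hx : ∀ a ∈ i :: L, ∀ t, g * hG.xN (D.simple a) t * g⁻¹ = hG.xN (D.simple a) (c a * t)) (t : F) :
    g * hG.gW (wordR φ ((i :: L).map D.simple) t) * g⁻¹ = hG.gW (wordR φ ((i :: L).map D.simple) (c i * t)) := by
  induction L generalizing i t with
  | nil =>
    simp only [List.map_cons, List.map_nil, wordR, Tbl.Good2.gW_cons, Tbl.Good2.gW_nil, mul_one]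
    exact hx i (by simp) t
  | cons s L ih =>
    obtain ⟨h1, h2⟩ := hcyc
    have e := ih h2 (fun a ha => hρ a (List.mem_cons_of_mem _ ha)) (fun a ha => hx a (List.mem_cons_of_mem _ ha)) (φ t)
    have e3 : c s * φ t = φ (c i * t) := by
      rw [← h1, hρ i (by simp), map_mul]
    rw [e3] at e
    have e1 := hx i (by simp) t
    have e2 : ∀ u : F, hG.gW (wordR φ ((i :: s :: L).map D.simple) u) =
        hG.xN (D.simple i) u * hG.gW (wordR φ ((s :: L).map D.simple) (φ u)) := fun u => by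
      rw [List.map_cons (a := i), wordR, Tbl.Good2.gW_cons]
    rw [e2, e2, ← e, ← e1]
    group

/-- Conjugation of the negative word of a cycle. -/
lemma conj_nword {g : GL D.Idx F} {c : ℕ → F} {i0 i : ℕ} {L : List ℕ} (hcyc : TauCyc ρ i0 (i :: L))
    (hρ : ∀ a ∈ i :: L, c (ρ a) = φ (c a))
    (hx : ∀ a ∈ i :: L, ∀ t, g * hG.xN (D.neg (D.simple a)) t * g⁻¹ = hG.xN (D.neg (D.simple a)) ((c a)⁻¹ * t)) (t : F) :
    g * hG.gW (wordR φ (((i :: L).map D.simple).map D.neg) t) * g⁻¹ = hG.gW (wordR φ (((i :: L).map D.simple).map D.neg) ((c i)⁻¹ * t)) := by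
  induction L generalizing i t with
  | nil =>
    simp only [List.map_cons, List.map_nil, wordR, Tbl.Good2.gW_cons, Tbl.Good2.gW_nil, mul_one]
    exact hx i (by simp) t
  | cons s L ih =>
    obtain ⟨h1, h2⟩ := hcyc
    have e := ih h2 (fun a ha => hρ a (List.mem_cons_of_mem _ ha)) (fun a ha => hx a (List.mem_cons_of_mem _ ha)) (φ t)
    have e3 : (c s)⁻¹ * φ t = φ ((c i)⁻¹ * t) := by
      rw [← h1, hρ i (by simp), map_mul, map_inv₀]
    rw [e3] at e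
    have e1 := hx i (by simp) t
    have e2 : ∀ u : F, hG.gW (wordR φ (((i :: s :: L).map D.simple).map D.neg) u) =
        hG.xN (D.neg (D.simple i)) u * hG.gW (wordR φ (((s :: L).map D.simple).map D.neg) (φ u)) := fun u => by
      rw [List.map_cons (a := i), List.map_cons (a := D.simple i), wordR, Tbl.Good2.gW_cons]
    rw [e2, e2, ← e, ← e1]
    group

/-! ### The diagonal matrices -/

/-- The diagonal matrix of a tuple. -/
noncomputable def dvU (A : ℕ → ℕ → ℤ) (v : Fin D.rank → Fˣ) : GL D.Idx F := charU D (charOf D A v)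

lemma charOf_mul' (A : ℕ → ℕ → ℤ) (v v' : Fin D.rank → Fˣ) (r : ℕ) : charOf D A (v * v') r = charOf D A v r * charOf D A v' r := by
  unfold charOf
  rw [← Finset.prod_mul_distrib]
  exact Finset.prod_congr rfl fun i _ => mul_zpow _ _ _

lemma charOf_one' (A : ℕ → ℕ → ℤ) (r : ℕ) : charOf D A (1 : Fin D.rank → Fˣ) r = 1 := by
  unfold charOf
  exact Finset.prod_eq_one fun i _ => one_zpow _

lemma dvU_mul (A : ℕ → ℕ → ℤ) (v v' : Fin D.rank → Fˣ) : dvU A (v * v') = dvU A v * dvU A v' := by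
  apply Units.ext
  rw [Units.val_mul]
  unfold dvU
  rw [charU_coe, charU_coe, charU_coe, charDiag_eq_diagM, charDiag_eq_diagM, charDiag_eq_diagM, diagM_mul]
  congr 1
  funext r
  rw [charOf_mul', Units.val_mul]

lemma dvU_one (A : ℕ → ℕ → ℤ) : dvU A (1 : Fin D.rank → Fˣ) = (1 : GL D.Idx F) := by
  apply Units.ext
  unfold dvU
  rw [charU_coe, charDiag_eq_diagM, Units.val_one, ← diagM_one]
  congr 1
  funext r
  rw [charOf_one', Units.val_one]

lemma dvU_inv (A : ℕ → ℕ → ℤ) (v : Fin D.rank → Fˣ) : dvU A v⁻¹ = (dvU A v)⁻¹ :=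
  eq_inv_of_mul_eq_one_left (by rw [← dvU_mul, inv_mul_cancel, dvU_one])

lemma dvU_xN {A : ℕ → ℕ → ℤ} (hA : CoefFacts T D A) (v : Fin D.rank → Fˣ) {r : ℕ} (hr : r < D.nroots) (t : F) :
    dvU A v * hG.xN r t * (dvU A v)⁻¹ = hG.xN r ((charOf D A v r : F) * t) :=
  Units.ext (by
    rw [hG.xN_coe]
    exact charU_conj hG.sane (charOf_isChar hA v) hr t (hG.xN_coe r t))

lemma dvU_rootsGen (hG : T.Good2 D) {A : ℕ → ℕ → ℤ} (hA : CoefFacts T D A) (v : Fin D.rank → Fˣ) {P : ℕ → Prop} (hP : ∀ r, P r → r < D.nroots)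
    {g : GL D.Idx F} (hg : g ∈ rootsGen D F P) : dvU A v * g * (dvU A v)⁻¹ ∈ rootsGen D F P := by
  have h : rootsGen D F P ≤ (rootsGen D F P).comap (MulAut.conj (dvU A v)).toMonoidHom := by
    refine (Subgroup.closure_le _).2 ?_
    rintro x ⟨r, t, hr, hx⟩
    refine Subgroup.subset_closure ⟨r, (charOf D A v r : F) * t, hr, ?_⟩
    exact charU_conj hG.sane (charOf_isChar hA v) (hP r hr) t hx
  exact h hg

lemma dvU_comm_H {A : ℕ → ℕ → ℤ} (v : Fin D.rank → Fˣ) {k : GL D.Idx F} (hk : k ∈ D.diagonalSubgroup F) (hG : T.Good2 D) :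
    dvU A v * k = k * dvU A v := by
  obtain ⟨c, hc⟩ := (hG.H_range (F := F)).subset ⟨⟨k, hk⟩, rfl⟩
  have hc' : (k : Matrix D.Idx D.Idx F) = diagM D F (fun s => ((∏ i : Fin D.rank, c i ^ T.cart i.val s : Fˣ) : F)) := hc.symm
  apply Units.ext
  rw [Units.val_mul, Units.val_mul, hc']
  unfold dvU
  rw [charU_coe, charDiag_eq_diagM, diagM_mul, diagM_mul]
  congr 1
  funext s
  exact mul_comm _ _

/-! ### The data -/

/-- The data of a twisted group of orbit type, with root coefficients. -/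
structure StV (S : Tw hG F) (O : TwOrb T D S.τ) (φ : F ≃+* F) (ρ : ℕ → ℕ) extends StD S O φ ρ where
  A : ℕ → ℕ → ℤ
  hA : CoefFacts T D A
  ρf : Equiv.Perm (Fin D.rank)
  hρ : ∀ i : Fin D.rank, (ρf i : ℕ) = ρ i

namespace StV

variable (C : StV S O φ ρ)

/-- The value of a tuple on the natural numbers. -/
noncomputable abbrev vN (v : Fin D.rank → Fˣ) : ℕ → F := StOrb.cN (D := D) (F := F) v

lemma vN_rho {v : Fin D.rank → Fˣ} (hv : v ∈ tFix φ C.ρf) (i : ℕ) (hi : i < D.rank) : vN v (ρ i) = φ (vN v i) :=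
  StOrb.cN_rho C.ρf C.hρ hv i hi

lemma charOf_simple_vN (v : Fin D.rank → Fˣ) {i : ℕ} (hi : i < D.rank) : (charOf D C.A v (D.simple i) : F) = vN v i := by
  have h := charOf_simple C.hA v ⟨i, hi⟩
  rw [show D.simple (⟨i, hi⟩ : Fin D.rank) = D.simple i from rfl] at h
  rw [h]
  simp [StOrb.cN, hi]

lemma dvU_word (v : ↥(tFix φ C.ρf)) {j : ℕ} (hj : j < O.m) (t : F) :
    dvU C.A v.1 * hG.gW (wordR φ ((O.wJ j).map D.simple) t) * (dvU C.A v.1)⁻¹ =
      hG.gW (wordR φ ((O.wJ j).map D.simple) (vN v.1 (hdJ O j) * t)) := by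
  obtain ⟨i0, L, e, hc⟩ := C.B.ne j hj
  have hlt : ∀ a ∈ i0 :: L, a < D.rank := fun a ha => O.wJ_lt j hj a (e ▸ ha)
  rw [hdJ_eq e, e]
  refine conj_word hc (fun a ha => C.vN_rho v.2 a (hlt a ha)) (fun a ha t => ?_) t
  rw [dvU_xN C.hA v.1 (hG.simple_lt (hlt a ha)), C.charOf_simple_vN v.1 (hlt a ha)]

lemma dvU_nword (v : ↥(tFix φ C.ρf)) {j : ℕ} (hj : j < O.m) (t : F) :
    dvU C.A v.1 * hG.gW (wordR φ (((O.wJ j).map D.simple).map D.neg) t) * (dvU C.A v.1)⁻¹ =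
      hG.gW (wordR φ (((O.wJ j).map D.simple).map D.neg) ((vN v.1 (hdJ O j))⁻¹ * t)) := by
  obtain ⟨i0, L, e, hc⟩ := C.B.ne j hj
  have hlt : ∀ a ∈ i0 :: L, a < D.rank := fun a ha => O.wJ_lt j hj a (e ▸ ha)
  rw [hdJ_eq e, e]
  refine conj_nword hc (fun a ha => C.vN_rho v.2 a (hlt a ha)) (fun a ha t => ?_) t
  have hp := hG.simple_lt (hlt a ha)
  rw [dvU_xN C.hA v.1 (hG.neg_lt hp), charOf_neg C.hA v.1 hp, Units.val_inv_eq_inv_val, C.charOf_simple_vN v.1 (hlt a ha)]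

lemma vN_ok (v : ↥(tFix φ C.ρf)) {j : ℕ} (hj : j < O.m) : OkJ O φ j (vN v.1 (hdJ O j)) :=
  C.B.eJ_iter _ (C.vN_rho v.2) hj

lemma vN_ne (v : Fin D.rank → Fˣ) (i : ℕ) (hi : i < D.rank) : vN (D := D) v i ≠ 0 := StOrb.cN_ne v i hi

lemma dvU_fix (v : ↥(tFix φ C.ρf)) {g : GL D.Idx F} (hg : g ∈ S.fix) : dvU C.A v.1 * g * (dvU C.A v.1)⁻¹ ∈ S.fix := by
  let G1 : Subgroup (GL D.Idx F) := S.fix.comap (MulAut.conj (dvU C.A v.1)).toMonoidHom
  have h : S.fix ≤ G1 := C.B.fix_le_words C.hH C.hch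
    (fun j hj t ht => by
      show dvU C.A v.1 * _ * (dvU C.A v.1)⁻¹ ∈ S.fix
      rw [C.dvU_word v hj t]
      exact C.B.word_fix hj (okJ_mul (C.vN_ok v hj) ht))
    (fun j hj t ht => by
      show dvU C.A v.1 * _ * (dvU C.A v.1)⁻¹ ∈ S.fix
      rw [C.dvU_nword v hj t]
      exact C.B.nword_fix hj (okJ_mul (okJ_inv (C.vN_ok v hj)) ht))
  exact h hg

/-- The diagonal automorphism. -/
noncomputable def dV (v : ↥(tFix φ C.ρf)) : MulAut ↥S.fix where
  toFun g := ⟨dvU C.A v.1 * g * (dvU C.A v.1)⁻¹, C.dvU_fix v g.2⟩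
  invFun g := ⟨(dvU C.A v.1)⁻¹ * g * dvU C.A v.1, by
    have := C.dvU_fix v⁻¹ g.2
    rw [show ((v⁻¹ : ↥(tFix φ C.ρf)) : Fin D.rank → Fˣ) = v.1⁻¹ from rfl, dvU_inv, inv_inv] at this
    exact this⟩
  left_inv g := Subtype.ext (by
    show (dvU C.A v.1)⁻¹ * (dvU C.A v.1 * g * (dvU C.A v.1)⁻¹) * dvU C.A v.1 = g
    group)
  right_inv g := Subtype.ext (by
    show dvU C.A v.1 * ((dvU C.A v.1)⁻¹ * g * dvU C.A v.1) * (dvU C.A v.1)⁻¹ = g
    group)
  map_mul' a b := Subtype.ext (by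
    show dvU C.A v.1 * ((a : GL D.Idx F) * b) * (dvU C.A v.1)⁻¹ =
      (dvU C.A v.1 * a * (dvU C.A v.1)⁻¹) * (dvU C.A v.1 * b * (dvU C.A v.1)⁻¹)
    group)

lemma dV_coe (v : ↥(tFix φ C.ρf)) (g : ↥S.fix) : ((C.dV v g : ↥S.fix) : GL D.Idx F) = dvU C.A v.1 * g * (dvU C.A v.1)⁻¹ := rfl

lemma dV_mul (v v' : ↥(tFix φ C.ρf)) : C.dV (v * v') = C.dV v * C.dV v' := by
  ext1 g
  apply Subtype.ext
  show dvU C.A (v.1 * v'.1) * g * (dvU C.A (v.1 * v'.1))⁻¹ = dvU C.A v.1 * (dvU C.A v'.1 * g * (dvU C.A v'.1)⁻¹) * (dvU C.A v.1)⁻¹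
  rw [dvU_mul]
  group

lemma dV_one : C.dV 1 = 1 := by
  ext1 g
  apply Subtype.ext
  show dvU C.A (1 : Fin D.rank → Fˣ) * g * (dvU C.A (1 : Fin D.rank → Fˣ))⁻¹ = g
  rw [dvU_one]
  group

lemma dV_wG (v : ↥(tFix φ C.ρf)) {j : ℕ} (hj : j < O.m) (t : F) (ht : OkJ O φ j t) :
    C.dV v (wG C.B hj t ht) = wG C.B hj (vN v.1 (hdJ O j) * t) (okJ_mul (C.vN_ok v hj) ht) :=
  Subtype.ext (C.dvU_word v hj t)

lemma dV_nG (v : ↥(tFix φ C.ρf)) {j : ℕ} (hj : j < O.m) (t : F) (ht : OkJ O φ j t) :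
    C.dV v (nG C.B hj t ht) = nG C.B hj ((vN v.1 (hdJ O j))⁻¹ * t) (okJ_mul (okJ_inv (C.vN_ok v hj)) ht) :=
  Subtype.ext (C.dvU_nword v hj t)

lemma dV_std (v : ↥(tFix φ C.ρf)) : IsStdF (C.dV v) := by
  have key : ∀ {P : ℕ → Prop}, (∀ r, P r → r < D.nroots) → ∀ x : ↥S.fix,
      C.dV v x ∈ (rootsGen D F P).subgroupOf S.fix ↔ x ∈ (rootsGen D F P).subgroupOf S.fix := by
    intro P hP x
    rw [Subgroup.mem_subgroupOf, Subgroup.mem_subgroupOf]
    constructor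
    · intro h
      have := dvU_rootsGen hG C.hA (v.1)⁻¹ hP h
      rw [dvU_inv, inv_inv] at this
      have e : (dvU C.A v.1)⁻¹ * ((C.dV v x : ↥S.fix) : GL D.Idx F) * dvU C.A v.1 = x := by
        rw [dV_coe]
        group
      rwa [e] at this
    · exact fun h => dvU_rootsGen hG C.hA v.1 hP h
  exact ⟨key fun _ hr => hr.1, key fun _ hr => hr.1⟩

lemma dV_T (v : ↥(tFix φ C.ρf)) (z : ↥(fH S)) : C.dV v z = z := by
  apply Subtype.ext
  rw [dV_coe, dvU_comm_H v.1 (Subgroup.mem_subgroupOf.1 z.2) hG]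
  group

lemma aut_ext {β β' : MulAut ↥S.fix} (h1 : ∀ j (hj : j < O.m) t (ht : OkJ O φ j t), β (wG C.B hj t ht) = β' (wG C.B hj t ht))
    (h2 : ∀ j (hj : j < O.m) t (ht : OkJ O φ j t), β (nG C.B hj t ht) = β' (nG C.B hj t ht)) : β = β' := by
  let G1 : Subgroup (GL D.Idx F) := (MonoidHom.eqLocus β.toMonoidHom β'.toMonoidHom).map S.fix.subtype
  have hle : S.fix ≤ G1 := C.B.fix_le_words C.hH C.hch
    (fun j hj t ht => ⟨wG C.B hj t ht, h1 j hj t ht, rfl⟩)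
    (fun j hj t ht => ⟨nG C.B hj t ht, h2 j hj t ht, rfl⟩)
  ext1 x
  obtain ⟨y, hy, e⟩ := hle x.2
  have e2 : y = x := Subtype.ext e
  rw [← e2]
  exact hy

/-- The values on the simple roots of an element of the torus. -/
noncomputable def vT : ↥(fH S) →* ↥(tFix φ C.ρf) where
  toFun z := ⟨fun i => chS S (hG.simple_lt i.2) z, by
    show tSig φ C.ρf _ = _
    funext j
    obtain ⟨i, rfl⟩ := C.ρf.surjective j
    rw [tSig_apply]
    apply Units.ext
    rw [Units.coe_map]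
    exact (chS_next' C.B z i.2 (C.ρf i).2 (C.hρ i).symm).symm⟩
  map_one' := by
    apply Subtype.ext
    funext i
    exact map_one _
  map_mul' a b := by
    apply Subtype.ext
    funext i
    exact map_mul _ a b

lemma vN_vT (z : ↥(fH S)) {i : ℕ} (hi : i < D.rank) : vN (C.vT z).1 i = chS S (hG.simple_lt hi) z := by
  simp only [StOrb.cN, hi, dif_pos]
  rfl

lemma vT_inj : Function.Injective C.vT := by
  intro z z' e
  refine T_ext C.B fun j hj => Units.ext ?_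
  have hl := hdJ_lt C.B hj
  have h1 : vN (C.vT z).1 (hdJ O j) = vN (C.vT z').1 (hdJ O j) := by rw [e]
  rw [C.vN_vT z hl, C.vN_vT z' hl] at h1
  exact h1

/-- The diagonal automorphism of an element of the torus is the conjugation. -/
lemma dV_vT (z : ↥(fH S)) : C.dV (C.vT z) = MulAut.conj (z : ↥S.fix) := by
  have hzc : ∀ {r : ℕ} (hr : r < D.nroots) (t : F), (toDS S z : GL D.Idx F) * hG.xN r t * (toDS S z : GL D.Idx F)⁻¹ = hG.xN r ((chS S hr z : F) * t) :=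
    fun hr t => hG.chi_xN hr (toDS S z) t
  refine C.aut_ext (fun j hj t ht => ?_) (fun j hj t ht => ?_)
  · rw [C.dV_wG]
    refine Subtype.ext ?_
    show _ = ((z : ↥S.fix) * wG C.B hj t ht * (z : ↥S.fix)⁻¹).1
    rw [wG_conj C.B hj z t ht]
    show hG.gW (wordR φ _ _) = hG.gW (wordR φ _ _)
    rw [C.vN_vT z (hdJ_lt C.B hj)]
    rfl
  · rw [C.dV_nG]
    refine Subtype.ext ?_
    show _ = (toDS S z : GL D.Idx F) * hG.gW (wordR φ _ t) * (toDS S z : GL D.Idx F)⁻¹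
    obtain ⟨i0, L, e, hc⟩ := C.B.ne j hj
    have hlt : ∀ a ∈ i0 :: L, a < D.rank := fun a ha => O.wJ_lt j hj a (e ▸ ha)
    have key := conj_nword (φ := φ) (hG := hG) (g := (toDS S z : GL D.Idx F)) (c := vN (C.vT z).1) (t := t) hc (fun a ha => C.vN_rho (C.vT z).2 a (hlt a ha)) (fun a ha t => by
      have hp := hG.simple_lt (hlt a ha)
      rw [hzc (hG.neg_lt hp), C.vN_vT z (hlt a ha)]
      congr 2
      rw [← Units.val_inv_eq_inv_val]
      exact congrArg Units.val (hG.chi_neg (toDS S z) hp (hG.neg_lt hp)))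
    show hG.gW (wordR φ _ _) = _
    rw [e, hdJ_eq e]
    exact key.symm

end StV

end

end Cfsg.Agent.Lib.ReeAut
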