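/-
Automorphisms of twisted groups of orbit type: automorphisms with diagonal part, the order of the outer automorphism group.
-/
import Cfsg.Agent.Lib.ReeAut.StC

set_option autoImplicit false

namespace Cfsg.Agent.Lib.ReeAut

open Cfsg.Lie Cfsg.Agent.Lib.Chev

section

variable {F : Type*} [Field F] {D : ChevalleyDatum} {T : Tbl} {hG : T.Good2 D} {S : Tw hG F}
  {O : TwOrb T D S.τ} {φ : F ≃+* F} {ρ : ℕ → ℕ}

lemma IsStdF.mul' {β γ : MulAut ↥S.fix} (h : IsStdF β) (h' : IsStdF γ) : IsStdF (β * γ) := by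
  constructor
  · intro x
    rw [MulAut.mul_apply, h.U, h'.U]
  · intro x
    rw [MulAut.mul_apply, h.V, h'.V]

/-- Elements of different orbit groups. -/
lemma wG_not_mem (B : StOrb S O φ ρ) {j j' : ℕ} (hj : j < O.m) (hne : j ≠ j') : wG B hj 1 okJ_one ∉ fX S (O.J j') := by
  intro h
  obtain ⟨i0, L, e, hc⟩ := B.ne j hj
  have hi0 : i0 ∈ O.wJ j := by
    rw [e]
    simp
  have hl := O.wJ_lt j hj i0 hi0
  have hnot := Tbl.Good2.gF_not_mem hG (O.wJ_lt j hj) (B.nd j hj) (fun a ha b hb hab => B.comm_simple hj ha hb hab)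
    (t := fun _ => (1 : F)) hi0 one_ne_zero
  apply hnot
  rw [← gW_wordR_one hG φ]
  have hle : XJ D F (O.J j') ≤ Ui D F i0 := by
    refine (Subgroup.closure_le _).2 ?_
    rintro x ⟨r, t, hr, hx⟩
    refine Subgroup.subset_closure ⟨r, t, hr.1, ?_, hx⟩
    rintro rfl
    have h1 := O.J_of_simple_In B.good3 hl hr.2
    have h2 := B.mem j hj i0 hi0
    exact hne (h2.symm.trans h1)
  exact hle (Subgroup.mem_subgroupOf.1 h)

/-- A standard automorphism is good when standard automorphisms do not permute the orbits. -/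
theorem goodSt_of_std [Finite ↥S.fix] (B : StOrb S O φ ρ) (L : LongEl B.twN)
    (hX : ∀ γ : MulAut ↥S.fix, IsStdF γ → ∀ j j' (_ : j < O.m) (_ : j' < O.m), (∀ x, γ x ∈ fX S (O.J j') ↔ x ∈ fX S (O.J j)) → j' = j)
    (hY : ∀ γ : MulAut ↥S.fix, IsStdF γ → ∀ j j' (_ : j < O.m) (_ : j' < O.m), (∀ x, γ x ∈ fY S (O.J j') ↔ x ∈ fY S (O.J j)) → j' = j)
    {γ : MulAut ↥S.fix} (hs : IsStdF γ) : GoodSt B γ := by
  refine ⟨hs, ?_, ?_, ?_⟩
  · intro j hj x
    obtain ⟨j', hj', hP, hY'⟩ := hs.exists_perm_Y B.twN hj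
    obtain rfl := hY _ hs j j' hj hj' hY'
    exact hP x
  · intro j hj x
    obtain ⟨j', hj', hX'⟩ := hs.exists_perm_X L hj
    obtain rfl := hX _ hs j j' hj hj' hX'
    exact hX' x
  · intro j hj x
    obtain ⟨j', hj', _, hY'⟩ := hs.exists_perm_Y B.twN hj
    obtain rfl := hY _ hs j j' hj hj' hY'
    exact hY' x

section Long

variable {A : TwN S O} (L : LongEl A)

lemma IsStdF.conj_long' {γ : MulAut ↥S.fix} (h : IsStdF γ) : IsStdF (MulAut.conj L.n0 * γ * MulAut.conj L.n0⁻¹) := by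
  have e : ∀ x, (MulAut.conj L.n0 * γ * MulAut.conj L.n0⁻¹) x = L.n0 * γ (L.n0⁻¹ * x * L.n0) * L.n0⁻¹ := by
    intro x
    simp [MulAut.mul_apply, MulAut.conj_apply]
  constructor
  · intro x
    rw [e, ← L.mem_fV_iff_fU, h.V, L.mem_fV_iff_fU]
    have e2 : L.n0 * (L.n0⁻¹ * x * L.n0) * L.n0⁻¹ = x := by group
    rw [e2]
  · intro x
    rw [e, ← L.mem_fU_iff_fV, h.U, L.mem_fU_iff_fV]
    have e2 : L.n0 * (L.n0⁻¹ * x * L.n0) * L.n0⁻¹ = x := by group
    rw [e2]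

include L in
/-- The statement for negative orbit groups from the statement for positive orbit groups. -/
theorem hY_of_hX [Finite ↥S.fix]
    (hX : ∀ γ : MulAut ↥S.fix, IsStdF γ → ∀ j j' (_ : j < O.m) (_ : j' < O.m), (∀ x, γ x ∈ fX S (O.J j') ↔ x ∈ fX S (O.J j)) → j' = j)
    (γ : MulAut ↥S.fix) (hs : IsStdF γ) (j j' : ℕ) (hj : j < O.m) (hj' : j' < O.m) (he : ∀ x, γ x ∈ fY S (O.J j') ↔ x ∈ fY S (O.J j)) : j' = j := by
  refine hX _ (hs.conj_long' L) j j' hj hj' fun x => ?_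
  have e : (MulAut.conj L.n0 * γ * MulAut.conj L.n0⁻¹) x = L.n0 * γ (L.n0⁻¹ * x * L.n0) * L.n0⁻¹ := by
    simp [MulAut.mul_apply, MulAut.conj_apply]
  rw [e, L.mem_fX_iff hj', L.mem_fX_iff hj, ← he]
  have e2 : L.n0⁻¹ * (L.n0 * γ (L.n0⁻¹ * x * L.n0) * L.n0⁻¹) * L.n0 = γ (L.n0⁻¹ * x * L.n0) := by group
  rw [e2]

end Long

namespace StV

variable (C : StV S O φ ρ)

/-- Tuples are determined by their values on the orbits. -/
lemma V_ext {w w' : ↥(tFix φ C.ρf)} (h : ∀ j, j < O.m → vN w.1 (hdJ O j) = vN w'.1 (hdJ O j)) : w = w' := by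
  have key : ∀ {i0 i : ℕ} {L : List ℕ}, TauCyc ρ i0 (i :: L) → (∀ a ∈ i :: L, a < D.rank) → vN w.1 i = vN w'.1 i →
      ∀ a ∈ i :: L, vN w.1 a = vN w'.1 a := by
    intro i0 i L hc hlt e
    induction L generalizing i with
    | nil =>
      intro a ha
      obtain rfl : a = i := by simpa using ha
      exact e
    | cons s L ih =>
      obtain ⟨h1, h2⟩ := hc
      intro a ha
      rcases List.mem_cons.1 ha with rfl | ha'
      · exact e
      · refine ih h2 (fun b hb => hlt b (List.mem_cons_of_mem _ hb)) ?_ a ha'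
        rw [← h1, C.vN_rho w.2 i (hlt i (by simp)), C.vN_rho w'.2 i (hlt i (by simp)), e]
  apply Subtype.ext
  funext i
  have hj := O.inJ_lt i i.2
  obtain ⟨i0, L, e, hc⟩ := C.B.ne _ hj
  have hlt : ∀ a ∈ i0 :: L, a < D.rank := fun a ha => O.wJ_lt _ hj a (e ▸ ha)
  have hmem : (i : ℕ) ∈ i0 :: L := by
    rw [← e]
    exact C.B.mem_of_In hj i.2 rfl
  have h1 := h _ hj
  rw [hdJ_eq e] at h1
  have h2 := key hc hlt h1 _ hmem
  apply Units.ext
  have e1 : ∀ u : Fin D.rank → Fˣ, vN u (i : ℕ) = (u i : F) := fun u => by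
    simp only [StOrb.cN, i.2, dif_pos]
  rw [← e1, ← e1]
  exact h2

lemma dV_inv (v : ↥(tFix φ C.ρf)) : C.dV v⁻¹ = (C.dV v)⁻¹ := by
  rw [eq_inv_iff_mul_eq_one, ← C.dV_mul, inv_mul_cancel, C.dV_one]

/-- Elements of the torus from fixed tuples. -/
lemma exists_T_tuple (hpart : ((List.range O.m).flatMap O.wJ).Perm (List.range D.rank)) (c : ↥(tFix φ C.ρf)) :
    ∃ z : ↥(fH S), ∀ k : Fin D.rank, chS S (hG.simple_lt k.2) z = actZ (cartA T D.rank) c.1 k := by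
  obtain ⟨z, hz, e⟩ := C.B.exists_H_fix hpart (StOrb.cN c.1) (StOrb.cN_ne c.1) (C.vN_rho c.2)
  rw [StOrb.diagM_cN hG c.1] at e
  refine ⟨⟨⟨z, hz.2⟩, Subgroup.mem_subgroupOf.2 hz.1⟩, fun k => Units.ext ?_⟩
  have h := hG.chi_of_mat c.1 ⟨z, hz.1⟩ e (hG.simple_lt k.2)
  refine h.trans ?_
  simp only [actZ, cartA, hG.correct.simple_eq _ k.2]

variable [Finite F] [Finite ↥S.fix]

/-- The order of the outer automorphism group. -/
theorem card_out_gen (L : LongEl C.B.twN) {jt : ℕ} (hjt : jt < O.m) (htop : ∀ x : Fˣ, ∃ z, chJ C.B hjt z = x)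
    (hdec : ∀ α : MulAut ↥S.fix, ∃ (g : ↥S.fix) (v : ↥(tFix φ C.ρf)) (θ : F ≃+* F), α = MulAut.conj g * C.dV v * C.fieldS θ) :
    Nat.card (Cfsg.Out ↥S.fix) * Nat.card ↥(fH S) = Nat.card ↥(tFix φ C.ρf) * Nat.card (F ≃+* F) := by
  let mkO : MulAut ↥S.fix →* Cfsg.Out ↥S.fix := QuotientGroup.mk' (Cfsg.Inn ↥S.fix)
  have hconj : ∀ g : ↥S.fix, mkO (MulAut.conj g) = 1 := fun g => (QuotientGroup.eq_one_iff _).2 ⟨g, rfl⟩
  let dH : ↥(tFix φ C.ρf) →* MulAut ↥S.fix := MonoidHom.mk' C.dV C.dV_mul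
  let fH' : (F ≃+* F) →* MulAut ↥S.fix := MonoidHom.mk' C.fieldS C.fieldS_mul
  let W : Subgroup ↥(tFix φ C.ρf) := C.vT.range
  let ψ : ↥(tFix φ C.ρf) →* Cfsg.Out ↥S.fix := mkO.comp dH
  have hW : ∀ x ∈ W, ψ x = 1 := by
    rintro _ ⟨z, rfl⟩
    show mkO (C.dV (C.vT z)) = 1
    rw [C.dV_vT]
    exact hconj _
  let ψ' : (↥(tFix φ C.ρf) ⧸ W) →* Cfsg.Out ↥S.fix := QuotientGroup.lift W ψ hW
  let Ξ : (↥(tFix φ C.ρf) ⧸ W) × (F ≃+* F) → Cfsg.Out ↥S.fix := fun p => ψ' p.1 * mkO (C.fieldS p.2)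
  have hsurj : Function.Surjective Ξ := by
    intro x
    obtain ⟨α, rfl⟩ := QuotientGroup.mk'_surjective _ x
    obtain ⟨g, v, θ, rfl⟩ := hdec α
    refine ⟨(((v : ↥(tFix φ C.ρf)) : ↥(tFix φ C.ρf) ⧸ W), θ), ?_⟩
    show mkO (C.dV v) * mkO (C.fieldS θ) = mkO (MulAut.conj g * C.dV v * C.fieldS θ)
    rw [map_mul, map_mul, hconj, one_mul]
  have hinj : Function.Injective Ξ := by
    rintro ⟨a, θ⟩ ⟨b, θ'⟩ e
    obtain ⟨v, rfl⟩ := QuotientGroup.mk_surjective a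
    obtain ⟨v', rfl⟩ := QuotientGroup.mk_surjective b
    have e1 : mkO (C.dV v) * mkO (C.fieldS θ) = mkO (C.dV v') * mkO (C.fieldS θ') := e
    rw [← map_mul, ← map_mul] at e1
    have e2 : mkO ((C.dV v * C.fieldS θ) * (C.dV v' * C.fieldS θ')⁻¹) = 1 := by
      rw [map_mul, map_inv, e1, mul_inv_cancel]
    obtain ⟨g, hg⟩ : (C.dV v * C.fieldS θ) * (C.dV v' * C.fieldS θ')⁻¹ ∈ Cfsg.Inn ↥S.fix := (QuotientGroup.eq_one_iff _).1 e2
    have hg' : MulAut.conj g = (C.dV v * C.fieldS θ) * (C.dV v' * C.fieldS θ')⁻¹ := hg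
    have hstd : IsStdF (MulAut.conj g) := by
      rw [hg']
      exact ((C.dV_std v).mul' (C.toStD.fieldS_std θ)).mul' (((C.dV_std v').mul' (C.toStD.fieldS_std θ')).inv C.B.twN)
    have hact : ∀ x, g * x * g⁻¹ = (MulAut.conj g) x := fun x => rfl
    have hgB : g ∈ fB S := by
      rw [mem_fB_iff C.B.twN]
      intro y hy
      rw [hact]
      exact (hstd.U y).2 hy
    have hgH : g ∈ fH S := by
      rw [mem_fH_iff C.B.twN L.m0 L.hf L.hneg]
      refine ⟨hgB, fun y hy => ?_⟩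
      rw [hact]
      exact (hstd.V y).2 hy
    have hcomm : ∀ z : ↥(fH S), MulAut.conj g z = z := by
      intro z
      apply Subtype.ext
      show (g : GL D.Idx F) * z * (g : GL D.Idx F)⁻¹ = z
      rw [H_comm hG (Subgroup.mem_subgroupOf.1 hgH) (Subgroup.mem_subgroupOf.1 z.2)]
      group
    have hdVi : ∀ (w : ↥(tFix φ C.ρf)) (z : ↥(fH S)), (C.dV w)⁻¹ z = z := by
      intro w z
      rw [MulAut.inv_def]
      show (C.dV w).symm z = z
      rw [MulEquiv.symm_apply_eq, C.dV_T]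
    set σ : F ≃+* F := θ'.symm.trans θ with hσ
    have hσφ : ∀ z : ↥(fH S), C.toStD.fieldS σ z = z := by
      intro z
      have h1 := hcomm z
      rw [hg', mul_inv_rev, StD.fieldS_inv] at h1
      have h2 : (C.dV v * C.toStD.fieldS θ * (C.toStD.fieldS θ'.symm * (C.dV v')⁻¹)) z =
          C.dV v (C.toStD.fieldS θ (C.toStD.fieldS θ'.symm ((C.dV v')⁻¹ z))) := rfl
      rw [h2, hdVi] at h1
      have h3 : C.toStD.fieldS θ (C.toStD.fieldS θ'.symm z) = C.toStD.fieldS σ z := by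
        apply Subtype.ext
        show glMap D θ (glMap D θ'.symm z) = glMap D (θ'.symm.trans θ) z
        apply Units.ext
        ext i k
        rfl
      rw [h3] at h1
      have h4 : C.toStD.fieldS σ z ∈ fH S := C.toStD.fieldS_fH σ z.2
      have h5 := C.dV_T v ⟨_, h4⟩
      have h6 : C.dV v (C.toStD.fieldS σ z) = C.toStD.fieldS σ z := h5
      rw [h6] at h1
      exact h1
    have hσ1 : σ = RingEquiv.refl F := by
      ext x
      by_cases hx : x = 0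
      · rw [hx, map_zero]
        rfl
      obtain ⟨z, hz⟩ := htop (Units.mk0 x hx)
      have hz' : (chJ C.B hjt z : F) = x := by
        rw [hz]
        rfl
      have h1 := C.toStD.fieldS_chS σ z (hG.simple_lt (hdJ_lt C.B hjt))
      have h3 : (⟨C.toStD.fieldS σ z, C.toStD.fieldS_fH σ z.2⟩ : ↥(fH S)) = z := Subtype.ext (hσφ z)
      rw [h3] at h1
      have h4 : (chS S (hG.simple_lt (hdJ_lt C.B hjt)) z : F) = x := hz'
      rw [h4] at h1
      exact h1.symm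
    have hθθ : θ = θ' := by
      ext x
      have h1 : σ (θ' x) = θ' x := by
        rw [hσ1]
        rfl
      have h2 : θ (θ'.symm (θ' x)) = θ' x := h1
      rw [RingEquiv.symm_apply_apply] at h2
      exact h2
    subst hθθ
    let z₀ : ↥(fH S) := ⟨g, hgH⟩
    have hg2 : MulAut.conj g = C.dV (v * v'⁻¹) := by
      rw [hg', C.dV_mul]
      have e3 : C.dV v'⁻¹ = (C.dV v')⁻¹ := by
        rw [eq_inv_iff_mul_eq_one, ← C.dV_mul, inv_mul_cancel, C.dV_one]
      rw [e3]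
      group
    have hz₀ : C.vT z₀ = v * v'⁻¹ := by
      refine C.V_ext fun j hj => ?_
      have hl := hdJ_lt C.B hj
      have h1 : MulAut.conj g (wG C.B hj 1 okJ_one) = wG C.B hj ((chJ C.B hj z₀ : F) * 1) (okJ_mul (chJ_ok C.B hj z₀) okJ_one) :=
        wG_conj C.B hj z₀ 1 okJ_one
      rw [hg2, C.dV_wG] at h1
      have h2 := wG_inj C.B hj h1
      rw [mul_one, mul_one] at h2
      rw [C.vN_vT z₀ hl, h2]
      rfl
    have hmem : v⁻¹ * v' ∈ W := by
      refine ⟨z₀⁻¹, ?_⟩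
      rw [map_inv, hz₀, mul_inv_rev, inv_inv]
      exact mul_comm _ _
    exact Prod.ext ((QuotientGroup.eq).2 hmem) rfl
  have hb : Function.Bijective Ξ := ⟨hinj, hsurj⟩
  have h1 : Nat.card (Cfsg.Out ↥S.fix) = Nat.card (↥(tFix φ C.ρf) ⧸ W) * Nat.card (F ≃+* F) := by
    rw [← Nat.card_prod]
    exact (Nat.card_congr (Equiv.ofBijective Ξ hb)).symm
  have h2 : Nat.card ↥(fH S) = Nat.card W := Nat.card_congr (MonoidHom.ofInjective C.vT_inj).toEquiv
  have h3 := Subgroup.card_eq_card_quotient_mul_card_subgroup W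
  rw [h1, h2, h3]
  ring

end StV

end

end Cfsg.Agent.Lib.ReeAut
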