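/-
The automorphism group of ²E₆(q): the data, the longest element, the orbit groups.
-/
import Cfsg.Agent.Lib.ReeAut.StE
import Cfsg.Agent.Lib.ReeAut.D4a
import Cfsg.Agent.Lib.Tw.OrdE6

set_option autoImplicit false
set_option maxRecDepth 100000

namespace Cfsg.Agent.Lib.ReeAut

open Cfsg.Lie Cfsg.Agent.Lib.Chev

section

variable {K : Type*} [Field K] [Fintype K] {q : ℕ} (φ : K ≃+* K)

theorem h0E : 0 < orbE6.m := by decide
theorem h1E : 1 < orbE6.m := by decide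
theorem h2E : 2 < orbE6.m := by decide
theorem h3E : 3 < orbE6.m := by decide

/-- The chain of the longest element. -/
def chE6 : List ℕ := [0, 1, 0, 2, 1, 0, 2, 1, 2, 3, 2, 1, 0, 2, 1, 2, 3, 2, 1, 0, 2, 1, 2, 3]

theorem chE6_lt : ∀ j ∈ chE6, j < orbE6.m := by
  decide +kernel

theorem w0E6_neg : ∀ r, r < 72 → 36 ≤ r → wperm digE6.tbl (chE6.flatMap orbE6.wJ) r < 36 := by
  decide +kernel

theorem w0E6_lt : ∀ r, r < 72 → wperm digE6.tbl (chE6.flatMap orbE6.wJ) r < 72 := by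
  decide +kernel

theorem w0E6_out : ∀ j, j < 4 → ∀ r, r < 72 → digE6.tbl.outJ inJE6 j r = false →
    digE6.tbl.outJ inJE6 j (wperm digE6.tbl (chE6.flatMap orbE6.wJ) r) = false := by
  decide +kernel

lemma inRoot_iff {j r : ℕ} (hr : r < chevE6.nroots) : chevE6.InRootSub (orbE6.J j) r ↔ digE6.tbl.outJ inJE6 j r = false := by
  rw [not_out_iff (D := chevE6) good3E6.toGood2.correct.l_eq]
  constructor
  · intro h i hi hne
    rw [good3E6.toGood2.correct.cor_eq r i hr hi]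
    exact h.2 i hi hne
  · intro h
    refine ⟨hr, fun i hi hne => ?_⟩
    rw [← good3E6.toGood2.correct.cor_eq r i hr hi]
    exact h i hi hne

theorem flat_ltE6 : ∀ i ∈ chE6.flatMap orbE6.wJ, i < chevE6.rank := by
  decide +kernel

variable (K) in
/-- The element `m₀`. -/
noncomputable def m0E6 : ↥(chevE6.monomialSubgroup K) :=
  ⟨good3E6.toGood2.nProd (chE6.flatMap orbE6.wJ), good3E6.toGood2.nProd_mem_N flat_ltE6⟩

lemma m0E6_perm (r : Fin chevE6.nroots) : (good3E6.toGood2.permN (m0E6 K) r : ℕ) = wperm digE6.tbl (chE6.flatMap orbE6.wJ) r :=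
  good3E6.toGood2.permN_nProd flat_ltE6 r

/-- The longest element. -/
noncomputable def longE6 : LongEl (stE6 φ).twN where
  m0 := m0E6 K
  hf := (stE6 φ).nProd_flat_fix chE6_lt
  hneg := fun r hr => by
    rw [m0E6_perm]
    exact w0E6_neg r r.2 hr
  hw := fun j hj r _ hrJ => by
    rw [m0E6_perm]
    have hl : wperm digE6.tbl (chE6.flatMap orbE6.wJ) r < chevE6.nroots := w0E6_lt r r.2
    exact (inRoot_iff hl).2 (w0E6_out j hj r r.2 ((inRoot_iff r.2).1 hrJ))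

variable {φ}

/-- The data of ²E₆(q). -/
noncomputable def stdE6 (φ : K ≃+* K) (hq : ∀ x, φ x = x ^ q) (hφ : ∀ x, φ (φ x) = x) : StV (twE6 φ) orbE6 φ rhoE6 where
  B := stE6 φ
  hH := hGenE6 φ hφ
  post := [0, 1, 0, 2, 1, 0, 2, 1, 2, 3, 2, 1, 0, 2, 1, 2, 3, 2, 1, 0, 2, 1, 2, 3]
  hch := chainE6
  hcomm := fun θ x => by rw [hq, hq, map_pow]
  A := Classical.choose good3E6.exists_coef
  hA := Classical.choose_spec good3E6.exists_coef
  ρf := rhofE6
  hρ := fun _ => rfl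

variable (hq : ∀ x, φ x = x ^ q) (hφ : ∀ x, φ (φ x) = x) (hK : Fintype.card K = q ^ 2)

section Cards

include hq hK

lemma card_fX01E (j : ℕ) (hj : j = 0 ∨ j = 1) : Nat.card ↥(fX (twE6 φ) (orbE6.J j)) = q := by
  have hj4 : j < orbE6.m := by
    rcases hj with rfl | rfl <;> decide
  refine (card_subgroupOf_eq _ _).trans (((stE6 φ).card_XJ hj4).trans ?_)
  have e0 : Nat.card {t : K // (⇑φ)^[(orbE6.wJ j).length] t = t} = Nat.card {x : K // x ^ q = x} :=
    Nat.card_congr (Equiv.subtypeEquivRight fun t => by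
      rcases hj with rfl | rfl
      · show φ t = t ↔ _
        rw [hq]
      · show φ t = t ↔ _
        rw [hq])
  rw [e0, card_fixed_pow (by norm_num) hK]

lemma card_fX23E (hφ : ∀ x, φ (φ x) = x) (j : ℕ) (hj : j = 2 ∨ j = 3) : Nat.card ↥(fX (twE6 φ) (orbE6.J j)) = q ^ 2 := by
  have hj4 : j < orbE6.m := by
    rcases hj with rfl | rfl <;> decide
  refine (card_subgroupOf_eq _ _).trans (((stE6 φ).card_XJ hj4).trans ?_)
  have e1 : Nat.card {t : K // (⇑φ)^[(orbE6.wJ j).length] t = t} = Nat.card K :=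
    Nat.card_congr (Equiv.subtypeUnivEquiv fun t => by
      rcases hj with rfl | rfl
      · exact hφ t
      · exact hφ t)
  rw [e1, Nat.card_eq_fintype_card, hK]

end Cards

/-! ### Commutation of the orbit groups -/

theorem commE6a : ∀ p ∈ [(0, 2), (0, 3), (1, 3)], ∀ i ∈ wJE6 p.1, ∀ i' ∈ wJE6 p.2, i ≠ i' ∧
    (chevE6.commTerms (chevE6.simple i) (chevE6.simple i') = [] ∧ chevE6.commTerms (chevE6.simple i) (chevE6.neg (chevE6.simple i')) = [] ∧
      chevE6.commTerms (chevE6.neg (chevE6.simple i)) (chevE6.simple i') = [] ∧ chevE6.commTerms (chevE6.neg (chevE6.simple i)) (chevE6.neg (chevE6.simple i')) = []) := by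
  decide +kernel

omit [Fintype K] in
lemma gW_comm_gW {hG : Tbl.Good2 digE6.tbl chevE6} {l l' : List (ℕ × K)} (h : ∀ e ∈ l, ∀ e' ∈ l', Tbl.Good2.CommR K hG e.1 e'.1) :
    hG.gW l * hG.gW l' = hG.gW l' * hG.gW l := by
  induction l with
  | nil => simp
  | cons e l ih =>
    rw [Tbl.Good2.gW_cons, mul_assoc, ih fun a ha b hb => h a (List.mem_cons_of_mem _ ha) b hb, ← mul_assoc,
      Tbl.Good2.comm_gW (fun e' he' => h e (by simp) e' he'), mul_assoc]

/-- Two orbit groups commute. -/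
def CF (φ : K ≃+* K) (a b : ℕ) : Prop :=
  ∀ x ∈ fX (twE6 φ) (orbE6.J a), ∀ y ∈ fX (twE6 φ) (orbE6.J b), x * y = y * x

omit [Fintype K] in
lemma CF_of {a b : ℕ} (ha : a < orbE6.m) (hb : b < orbE6.m) (h : (a, b) ∈ [(0, 2), (0, 3), (1, 3)]) : CF φ a b := by
  intro x hx y hy
  obtain ⟨t, ht, rfl⟩ := mem_fX_wG (stE6 φ) ha hx
  obtain ⟨t', ht', rfl⟩ := mem_fX_wG (stE6 φ) hb hy
  apply Subtype.ext
  refine gW_comm_gW fun e he e' he' => ?_
  obtain ⟨i, hi, e1⟩ := List.mem_map.1 (mem_wordR he)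
  obtain ⟨i', hi', e2⟩ := List.mem_map.1 (mem_wordR he')
  rw [← e1, ← e2]
  obtain ⟨hne, hc⟩ := commE6a (a, b) h i hi i' hi'
  exact (good3E6.toGood2.commR_simple (F := K) (orbE6.wJ_lt a ha i hi) (orbE6.wJ_lt b hb i' hi') hne hc).1

theorem commE6b : ∀ i ∈ wJE6 2, chevE6.neg (chevE6.simple i) ≠ chevE6.simple 3 ∧ chevE6.neg (chevE6.simple i) ≠ chevE6.neg (chevE6.simple 3) ∧
    chevE6.commTerms (chevE6.simple 3) (chevE6.neg (chevE6.simple i)) = [] := by
  decide +kernel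

theorem permE6b : wperm digE6.tbl [2, 4] (chevE6.simple 3) < 72 ∧ 36 ≤ wperm digE6.tbl [2, 4] (chevE6.simple 3) ∧
    wperm digE6.tbl [2, 4] (chevE6.simple 3) ≠ chevE6.simple 3 := by
  decide +kernel

omit [Fintype K] in
/-- The middle orbit groups do not commute. -/
lemma not_CF12 : ¬ CF φ 1 2 := by
  intro h
  have hi3 : 3 < chevE6.rank := by decide
  have hp : chevE6.simple 3 < chevE6.nroots := good3E6.toGood2.simple_lt hi3
  set x := wG (stE6 φ) h1E 1 okJ_one with hx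
  have hxe : (x : GL chevE6.Idx K) = good3E6.toGood2.xU hp 1 := by
    show good3E6.toGood2.gW [(chevE6.simple 3, 1)] = _
    rw [Tbl.Good2.gW_cons, Tbl.Good2.gW_nil, mul_one, good3E6.toGood2.xN_of_lt hp]
  have c1 : x * wG (stE6 φ) h2E 1 okJ_one = wG (stE6 φ) h2E 1 okJ_one * x :=
    h _ (wG_mem _ _ _ _) _ (wG_mem _ _ _ _)
  have c2 : x * nG (stE6 φ) h2E (-1) okJ_neg_one = nG (stE6 φ) h2E (-1) okJ_neg_one * x := by
    apply Subtype.ext
    show (x : GL chevE6.Idx K) * good3E6.toGood2.gW _ = good3E6.toGood2.gW _ * (x : GL chevE6.Idx K)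
    rw [hxe, ← good3E6.toGood2.xN_of_lt hp]
    refine Tbl.Good2.comm_gW fun e he => ?_
    obtain ⟨s, hs, e1⟩ := mem_wordR_map_neg he
    obtain ⟨i, hi, rfl⟩ := List.mem_map.1 hs
    rw [e1]
    have hi6 := orbE6.wJ_lt 2 h2E i hi
    have hpi := good3E6.toGood2.simple_lt hi6
    obtain ⟨b1, b2, b3⟩ := commE6b i hi
    exact good3E6.toGood2.commR_of_nil hp (good3E6.toGood2.neg_lt hpi) b1 b2 b3
  have c3 : x * (stE6 φ).twN.sF 2 h2E = (stE6 φ).twN.sF 2 h2E * x := by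
    rw [sF_trip (stE6 φ) h2E]
    calc x * (wG (stE6 φ) h2E 1 okJ_one * nG (stE6 φ) h2E (-1) okJ_neg_one * wG (stE6 φ) h2E 1 okJ_one)
        = (x * wG (stE6 φ) h2E 1 okJ_one) * nG (stE6 φ) h2E (-1) okJ_neg_one * wG (stE6 φ) h2E 1 okJ_one := by group
      _ = wG (stE6 φ) h2E 1 okJ_one * (x * nG (stE6 φ) h2E (-1) okJ_neg_one) * wG (stE6 φ) h2E 1 okJ_one := by rw [c1]; group
      _ = wG (stE6 φ) h2E 1 okJ_one * nG (stE6 φ) h2E (-1) okJ_neg_one * (x * wG (stE6 φ) h2E 1 okJ_one) := by rw [c2]; group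
      _ = _ := by rw [c1]; group
  have hl : ∀ i ∈ [2, 4], i < chevE6.rank := by decide
  obtain ⟨c, hc, e⟩ := good3E6.toGood2.nProd_conj_x (F := K) hl hp
  have e1 := e 1
  have c4 : (good3E6.toGood2.nProd [2, 4] : GL chevE6.Idx K) * (x : GL chevE6.Idx K) * (good3E6.toGood2.nProd [2, 4] : GL chevE6.Idx K)⁻¹ = x := by
    have h5 : ((x * (stE6 φ).twN.sF 2 h2E : ↥(twE6 φ).fix) : GL chevE6.Idx K) = (x : GL chevE6.Idx K) * good3E6.toGood2.nProd [2, 4] := rfl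
    have h6 : (((stE6 φ).twN.sF 2 h2E * x : ↥(twE6 φ).fix) : GL chevE6.Idx K) = good3E6.toGood2.nProd [2, 4] * (x : GL chevE6.Idx K) := rfl
    have h7 : (x : GL chevE6.Idx K) * good3E6.toGood2.nProd [2, 4] = good3E6.toGood2.nProd [2, 4] * (x : GL chevE6.Idx K) := by
      rw [← h5, ← h6, c3]
    rw [← h7]
    group
  rw [hxe] at c4
  rw [c4] at e1
  obtain ⟨p1, p2, p3⟩ := permE6b
  have hmem : good3E6.toGood2.xU hp 1 ∈ Ui chevE6 K 3 := by
    rw [e1]
    have h8 := good3E6.toGood2.gW_mem_Ui (F := K) (i := 3) (l := [(wperm digE6.tbl [2, 4] (chevE6.simple 3), c * 1)]) (fun e he => by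
      obtain rfl : e = _ := by simpa using he
      exact ⟨p1, p2, p3⟩)
    rw [Tbl.Good2.gW_cons, Tbl.Good2.gW_nil, mul_one, good3E6.toGood2.xN_of_lt p1] at h8
    exact h8
  exact one_ne_zero (good3E6.toGood2.xp_mem_Ui hi3 hmem)

omit [Fintype K] in
lemma CF_map {γ : MulAut ↥(twE6 φ).fix} {a a' b b' : ℕ} (ha : ∀ x, γ x ∈ fX (twE6 φ) (orbE6.J a') ↔ x ∈ fX (twE6 φ) (orbE6.J a))
    (hb : ∀ x, γ x ∈ fX (twE6 φ) (orbE6.J b') ↔ x ∈ fX (twE6 φ) (orbE6.J b)) (h : CF φ a b) : CF φ a' b' := by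
  intro x hx y hy
  have e1 : x = γ (γ⁻¹ x) := (MulAut.apply_inv_self _ _ x).symm
  have e2 : y = γ (γ⁻¹ y) := (MulAut.apply_inv_self _ _ y).symm
  have h1 : γ⁻¹ x ∈ fX (twE6 φ) (orbE6.J a) := by
    rw [← ha, ← e1]
    exact hx
  have h2 : γ⁻¹ y ∈ fX (twE6 φ) (orbE6.J b) := by
    rw [← hb, ← e2]
    exact hy
  have e3 : γ⁻¹ x * γ⁻¹ y = γ⁻¹ y * γ⁻¹ x := h _ h1 _ h2
  have e4 := congrArg γ e3
  rwa [map_mul, map_mul, ← e1, ← e2] at e4

omit [Fintype K] in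
lemma sepE6 {a b : ℕ} (ha : a < orbE6.m) (h : ∀ x, x ∈ fX (twE6 φ) (orbE6.J b) ↔ x ∈ fX (twE6 φ) (orbE6.J a)) : b = a := by
  by_contra hne
  exact wG_not_mem (stE6 φ) ha (fun e => hne e.symm) ((h _).2 (wG_mem _ _ _ _))

include hq hφ hK in
/-- Standard automorphisms do not permute the positive orbit groups. -/
theorem hXE6 (γ : MulAut ↥(twE6 φ).fix) (hs : IsStdF γ) (j j' : ℕ) (hj : j < orbE6.m) (hj' : j' < orbE6.m)
    (he : ∀ x, γ x ∈ fX (twE6 φ) (orbE6.J j') ↔ x ∈ fX (twE6 φ) (orbE6.J j)) : j' = j := by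
  have hq1 := one_lt_q (k := 2) (by norm_num) hK
  have hqq : q ≠ q ^ 2 := by nlinarith
  have hcard : ∀ a a', a < 4 → a' < 4 → (∀ x, γ x ∈ fX (twE6 φ) (orbE6.J a') ↔ x ∈ fX (twE6 φ) (orbE6.J a)) → (a < 2 ↔ a' < 2) := by
    intro a a' ha ha' h
    have h1 := card_of_iff _ h
    have hc : ∀ b, b < 4 → Nat.card ↥(fX (twE6 φ) (orbE6.J b)) = if b < 2 then q else q ^ 2 := by
      intro b hb
      by_cases hb2 : b < 2
      · rw [if_pos hb2]
        exact card_fX01E hq hK b (by omega)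
      · rw [if_neg hb2]
        exact card_fX23E hq hK hφ b (by omega)
    rw [hc a ha, hc a' ha'] at h1
    by_cases h2 : a < 2 <;> by_cases h3 : a' < 2 <;> simp only [h2, h3, if_true, if_false] at h1 ⊢
    · exact (hqq h1.symm).elim
    · exact (hqq h1).elim
  have hL := longE6 φ
  have hLf : Finite ↥(twE6 φ).fix := inferInstance
  obtain ⟨p0, hp0, e0⟩ := hs.exists_perm_X hL h0E
  obtain ⟨p1, hp1, e1⟩ := hs.exists_perm_X hL h1E
  obtain ⟨p2, hp2, e2⟩ := hs.exists_perm_X hL h2E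
  obtain ⟨p3, hp3, e3⟩ := hs.exists_perm_X hL h3E
  have hp0' : p0 < 4 := hp0
  have hp1' : p1 < 4 := hp1
  have hp2' : p2 < 4 := hp2
  have hp3' : p3 < 4 := hp3
  have c0 := (hcard 0 p0 (by norm_num) hp0' e0).1 (by norm_num)
  have c1 := (hcard 1 p1 (by norm_num) hp1' e1).1 (by norm_num)
  have c2 := (hcard 2 p2 (by norm_num) hp2' e2).not.1 (by norm_num)
  have c3 := (hcard 3 p3 (by norm_num) hp3' e3).not.1 (by norm_num)
  have hinj : ∀ {a b a' b' : ℕ}, a < orbE6.m → (∀ x, γ x ∈ fX (twE6 φ) (orbE6.J a') ↔ x ∈ fX (twE6 φ) (orbE6.J a)) →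
      (∀ x, γ x ∈ fX (twE6 φ) (orbE6.J b') ↔ x ∈ fX (twE6 φ) (orbE6.J b)) → a' = b' → b = a := by
    intro a b a' b' ha h1 h2 e
    subst e
    exact sepE6 ha fun x => (h2 x).symm.trans (h1 x)
  have n01 : p0 ≠ p1 := fun e => absurd (hinj h0E e0 e1 e) (by norm_num)
  have n23 : p2 ≠ p3 := fun e => absurd (hinj h2E e2 e3 e) (by norm_num)
  have c02 := CF_map e0 e2 (CF_of (φ := φ) h0E h2E (by simp))
  have c03 := CF_map e0 e3 (CF_of (φ := φ) h0E h3E (by simp))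
  have c13 := CF_map e1 e3 (CF_of (φ := φ) h1E h3E (by simp))
  have np0 : p0 = 0 := by
    by_contra hne
    have h1 : p0 = 1 := by omega
    subst h1
    have h2 : p2 = 2 ∨ p3 = 2 := by omega
    rcases h2 with rfl | rfl
    · exact not_CF12 c02
    · exact not_CF12 c03
  have np1 : p1 = 1 := by omega
  subst np0 np1
  have np3 : p3 = 3 := by
    by_contra hne
    have h1 : p3 = 2 := by omega
    subst h1
    exact not_CF12 c13
  have np2 : p2 = 2 := by omega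
  subst np3 np2
  have hj4 : j < 4 := hj
  have key : ∀ a, (∀ x, γ x ∈ fX (twE6 φ) (orbE6.J a) ↔ x ∈ fX (twE6 φ) (orbE6.J j)) → a < orbE6.m → j' = a := by
    intro a h ha
    refine sepE6 (φ := φ) ha fun y => ?_
    have h1 := he (γ⁻¹ y)
    have h2 := h (γ⁻¹ y)
    rw [MulAut.apply_inv_self] at h1 h2
    exact h1.trans h2.symm
  interval_cases j
  · exact key 0 e0 h0E
  · exact key 1 e1 h1E
  · exact key 2 e2 h2E
  · exact key 3 e3 h3E

end

end Cfsg.Agent.Lib.ReeAut
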