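/-
The automorphism group of ²E₆(q): the torus, rigidity, the decomposition of an automorphism, the outer automorphism group.
-/
import Cfsg.Agent.Lib.ReeAut.E6a

set_option autoImplicit false
set_option maxRecDepth 100000

namespace Cfsg.Agent.Lib.ReeAut

open Cfsg.Lie Cfsg.Agent.Lib.Chev

section

variable {K : Type*} [Field K] [Fintype K] {q : ℕ} {φ : K ≃+* K}

variable (hq : ∀ x, φ x = x ^ q) (hφ : ∀ x, φ (φ x) = x) (hK : Fintype.card K = q ^ 2)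

/-- The tuple with prescribed values at the heads of the orbits. -/
noncomputable def cOfE (φ : K ≃+* K) (a b d e : Kˣ) : Fin chevE6.rank → Kˣ :=
  ![e, a, d, b, Units.map (φ : K →* K) d, Units.map (φ : K →* K) e]

include hφ in
omit [Fintype K] in
lemma cOfE_mem {a b : Kˣ} (d e : Kˣ) (ha : φ (a : K) = a) (hb : φ (b : K) = b) : cOfE φ a b d e ∈ tFix φ rhofE6 := by
  have hu2 : ∀ x : Kˣ, Units.map (φ : K →* K) (Units.map (φ : K →* K) x) = x := fun x => Units.ext (hφ x)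
  have hua : Units.map (φ : K →* K) a = a := Units.ext ha
  have hub : Units.map (φ : K →* K) b = b := Units.ext hb
  show tSig φ rhofE6 (cOfE φ a b d e) = cOfE φ a b d e
  funext i
  revert i
  refine forall_finE6 ?_ ?_ ?_ ?_ ?_ ?_
  · exact hu2 e
  · exact hua
  · exact hu2 d
  · exact hub
  · rfl
  · rfl

section Torus

include hq hφ

/-- Prescribed tuples on the torus. -/
lemma exists_T_cOf (a b d e : Kˣ) (ha : φ (a : K) = a) (hb : φ (b : K) = b) :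
    ∃ z : ↥(fH (twE6 φ)),
      chJ (stE6 φ) h0E z = a ^ (2 : ℤ) * b ^ (-1 : ℤ) ∧
      chJ (stE6 φ) h1E z = a ^ (-1 : ℤ) * d ^ (-1 : ℤ) * b ^ (2 : ℤ) * (Units.map (φ : K →* K) d) ^ (-1 : ℤ) ∧
      chJ (stE6 φ) h2E z = e ^ (-1 : ℤ) * d ^ (2 : ℤ) * b ^ (-1 : ℤ) ∧
      chJ (stE6 φ) h3E z = e ^ (2 : ℤ) * d ^ (-1 : ℤ) := by
  obtain ⟨z, hz⟩ := (stdE6 φ hq hφ).exists_T_tuple hpartE6 ⟨_, cOfE_mem hφ d e ha hb⟩
  refine ⟨z, ?_, ?_, ?_, ?_⟩
  · refine (hz ⟨1, by decide⟩).trans ?_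
    rw [actZ_row6 _ _ _ (a := 0) (b := 2) (d := 0) (e := -1) (f := 0) (g := 0)
      (by decide +kernel) (by decide +kernel) (by decide +kernel) (by decide +kernel) (by decide +kernel) (by decide +kernel)]
    show e ^ (0 : ℤ) * a ^ (2 : ℤ) * d ^ (0 : ℤ) * b ^ (-1 : ℤ) * _ ^ (0 : ℤ) * _ ^ (0 : ℤ) = _
    simp
  · refine (hz ⟨3, by decide⟩).trans ?_
    rw [actZ_row6 _ _ _ (a := 0) (b := -1) (d := -1) (e := 2) (f := -1) (g := 0)
      (by decide +kernel) (by decide +kernel) (by decide +kernel) (by decide +kernel) (by decide +kernel) (by decide +kernel)]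
    show e ^ (0 : ℤ) * a ^ (-1 : ℤ) * d ^ (-1 : ℤ) * b ^ (2 : ℤ) * (Units.map (φ : K →* K) d) ^ (-1 : ℤ) * (Units.map (φ : K →* K) e) ^ (0 : ℤ) = _
    simp
  · refine (hz ⟨2, by decide⟩).trans ?_
    rw [actZ_row6 _ _ _ (a := -1) (b := 0) (d := 2) (e := -1) (f := 0) (g := 0)
      (by decide +kernel) (by decide +kernel) (by decide +kernel) (by decide +kernel) (by decide +kernel) (by decide +kernel)]
    show e ^ (-1 : ℤ) * a ^ (0 : ℤ) * d ^ (2 : ℤ) * b ^ (-1 : ℤ) * _ ^ (0 : ℤ) * _ ^ (0 : ℤ) = _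
    simp
  · refine (hz ⟨0, by decide⟩).trans ?_
    rw [actZ_row6 _ _ _ (a := 2) (b := 0) (d := -1) (e := 0) (f := 0) (g := 0)
      (by decide +kernel) (by decide +kernel) (by decide +kernel) (by decide +kernel) (by decide +kernel) (by decide +kernel)]
    show e ^ (2 : ℤ) * a ^ (0 : ℤ) * d ^ (-1 : ℤ) * b ^ (0 : ℤ) * _ ^ (0 : ℤ) * _ ^ (0 : ℤ) = _
    simp

lemma exists_T0 (x : Kˣ) (hx : φ (x : K) = x) : ∃ z : ↥(fH (twE6 φ)), chJ (stE6 φ) h0E z = x := by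
  have hb : φ ((x⁻¹ : Kˣ) : K) = (x⁻¹ : Kˣ) := by
    rw [Units.val_inv_eq_inv_val, map_inv₀, hx]
  obtain ⟨z, h0, _⟩ := exists_T_cOf hq hφ 1 x⁻¹ 1 1 (by simp) hb
  exact ⟨z, by rw [h0]; simp⟩

lemma exists_T1 (x : Kˣ) (hx : φ (x : K) = x) : ∃ z : ↥(fH (twE6 φ)), chJ (stE6 φ) h1E z = x := by
  have ha : φ ((x⁻¹ : Kˣ) : K) = (x⁻¹ : Kˣ) := by
    rw [Units.val_inv_eq_inv_val, map_inv₀, hx]
  obtain ⟨z, _, h1, _⟩ := exists_T_cOf hq hφ x⁻¹ 1 1 1 ha (by simp)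
  exact ⟨z, by rw [h1]; simp⟩

lemma exists_T2 (x : Kˣ) : ∃ z : ↥(fH (twE6 φ)), chJ (stE6 φ) h2E z = x := by
  obtain ⟨z, _, _, h2, _⟩ := exists_T_cOf hq hφ 1 1 1 x⁻¹ (by simp) (by simp)
  exact ⟨z, by rw [h2]; simp⟩

lemma exists_T3 (x : Kˣ) : ∃ z : ↥(fH (twE6 φ)), chJ (stE6 φ) h3E z = x := by
  obtain ⟨z, _, _, _, h3⟩ := exists_T_cOf hq hφ 1 1 x⁻¹ 1 (by simp) (by simp)
  exact ⟨z, by rw [h3]; simp⟩

end Torus

/-! ### Rigidity -/

theorem linkE23a : wperm digE6.tbl [0, 5] (chevE6.simple 2) < chevE6.nroots := by decide +kernel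
theorem linkE23b : wperm digE6.tbl (orbE6.wJ 3) (wperm digE6.tbl [0, 5] (chevE6.simple 2)) = chevE6.simple (hdJ orbE6 2) := by decide +kernel
theorem linkE23c : ∀ k, k < chevE6.rank → digE6.tbl.cart k (wperm digE6.tbl [0, 5] (chevE6.simple 2)) =
    digE6.tbl.cart k (chevE6.simple (hdJ orbE6 2)) + digE6.tbl.cart k (chevE6.simple (hdJ orbE6 3)) := by decide +kernel

theorem linkE21a : wperm digE6.tbl [3] (chevE6.simple 2) < chevE6.nroots := by decide +kernel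
theorem linkE21b : wperm digE6.tbl (orbE6.wJ 1) (wperm digE6.tbl [3] (chevE6.simple 2)) = chevE6.simple (hdJ orbE6 2) := by decide +kernel
theorem linkE21c : ∀ k, k < chevE6.rank → digE6.tbl.cart k (wperm digE6.tbl [3] (chevE6.simple 2)) =
    digE6.tbl.cart k (chevE6.simple (hdJ orbE6 2)) + digE6.tbl.cart k (chevE6.simple (hdJ orbE6 1)) := by decide +kernel

theorem linkE10a : wperm digE6.tbl [1] (chevE6.simple 3) < chevE6.nroots := by decide +kernel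
theorem linkE10b : wperm digE6.tbl (orbE6.wJ 0) (wperm digE6.tbl [1] (chevE6.simple 3)) = chevE6.simple (hdJ orbE6 1) := by decide +kernel
theorem linkE10c : ∀ k, k < chevE6.rank → digE6.tbl.cart k (wperm digE6.tbl [1] (chevE6.simple 3)) =
    digE6.tbl.cart k (chevE6.simple (hdJ orbE6 1)) + digE6.tbl.cart k (chevE6.simple (hdJ orbE6 0)) := by decide +kernel

include hq hφ in
/-- Rigidity. -/
theorem rigE6 {β : MulAut ↥(twE6 φ).fix} (h : GoodSt (stE6 φ) β) {A0 A1 A2 A3 : K → K} (hA0 : IsOrbA (stE6 φ) β h0E A0)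
    (hA1 : IsOrbA (stE6 φ) β h1E A1) (hA2 : IsOrbA (stE6 φ) β h2E A2) (hA3 : IsOrbA (stE6 φ) β h3E A3)
    (a0 : A0 1 = 1) (a1 : A1 1 = 1) (a2 : A2 1 = 1) (a3 : A3 1 = 1) : ∃ θ : K ≃+* K, β = (stdE6 φ hq hφ).toStD.fieldS θ := by
  have ok2 : ∀ t : K, OkJ orbE6 φ 2 t := fun t => hφ t
  have ok3 : ∀ t : K, OkJ orbE6 φ 3 t := fun t => hφ t
  have hL := longE6 φ
  obtain ⟨θ, hθ⟩ := exists_ringEquiv_scale A2 (fun a c => hA2.add (ok2 a) (ok2 c)) a2 (fun x hx => by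
    obtain ⟨z, hz⟩ := exists_T2 hq hφ (Units.mk0 x hx)
    have hz' : (chJ (stE6 φ) h2E z : K) = x := by
      rw [hz]
      rfl
    exact ⟨_, fun t => by
      rw [← hz']
      exact hA2.scale hL h z (ok2 t)⟩)
  have l23 : ∀ z, chJ (stE6 φ) h2E (sT (stE6 φ) h3E z) = chJ (stE6 φ) h2E z * chJ (stE6 φ) h3E z :=
    chJ_sT (stE6 φ) h3E h2E linkE23a linkE23b linkE23c
  have l21 : ∀ z, chJ (stE6 φ) h2E (sT (stE6 φ) h1E z) = chJ (stE6 φ) h2E z * chJ (stE6 φ) h1E z :=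
    chJ_sT (stE6 φ) h1E h2E linkE21a linkE21b linkE21c
  have l10 : ∀ z, chJ (stE6 φ) h1E (sT (stE6 φ) h0E z) = chJ (stE6 φ) h1E z * chJ (stE6 φ) h0E z :=
    chJ_sT (stE6 φ) h0E h1E linkE10a linkE10b linkE10c
  have h3 : ∀ t : K, A3 t = θ t := by
    intro t
    by_cases ht0 : t = 0
    · rw [ht0, hA3.zero, map_zero]
    · obtain ⟨z, hz⟩ := exists_T3 hq hφ (Units.mk0 t ht0)
      have hz' : (chJ (stE6 φ) h3E z : K) = t := by
        rw [hz]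
        rfl
      have := link hL h hA3 hA2 a3 a2 l23 z (ok2 _)
      rw [hz'] at this
      rw [hθ]
      exact this.symm
  have h1 : ∀ t : K, φ t = t → A1 t = θ t := by
    intro t ht
    by_cases ht0 : t = 0
    · rw [ht0, hA1.zero, map_zero]
    · obtain ⟨z, hz⟩ := exists_T1 hq hφ (Units.mk0 t ht0) ht
      have hz' : (chJ (stE6 φ) h1E z : K) = t := by
        rw [hz]
        rfl
      have := link hL h hA1 hA2 a1 a2 l21 z (ok2 _)
      rw [hz'] at this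
      rw [hθ]
      exact this.symm
  have h0 : ∀ t : K, φ t = t → A0 t = θ t := by
    intro t ht
    by_cases ht0 : t = 0
    · rw [ht0, hA0.zero, map_zero]
    · obtain ⟨z, hz⟩ := exists_T0 hq hφ (Units.mk0 t ht0) ht
      have hz' : (chJ (stE6 φ) h0E z : K) = t := by
        rw [hz]
        rfl
      have := link hL h hA0 hA1 a0 a1 l10 z (by
        rw [hz']
        exact ht)
      rw [hz'] at this
      rw [← h1 t ht]
      exact this.symm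
  refine ⟨θ, eq_fieldS (stdE6 φ hq hφ).toStD h θ fun j hj t ht => ?_⟩
  have hj' : j < 4 := hj
  interval_cases j
  · rw [hA0.map ht]
    exact wG_congr _ _ (h0 t ht) _ _
  · rw [hA1.map ht]
    exact wG_congr _ _ (h1 t ht) _ _
  · rw [hA2.map ht]
    exact wG_congr _ _ (hθ t).symm _ _
  · rw [hA3.map ht]
    exact wG_congr _ _ (h3 t) _ _

/-! ### The decomposition -/

include hq hφ hK in
/-- Standard automorphisms are good. -/
theorem goodE6 {γ : MulAut ↥(twE6 φ).fix} (hs : IsStdF γ) : GoodSt (stE6 φ) γ :=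
  goodSt_of_std (stE6 φ) (longE6 φ) (hXE6 hq hφ hK) (hY_of_hX (longE6 φ) (hXE6 hq hφ hK)) hs

include hq hφ hK in
/-- The decomposition of an automorphism. -/
theorem aut_decompE6 {p : ℕ} [Fact p.Prime] (PU : Sylow p ↥(twE6 φ).fix) (hPU : (PU : Subgroup ↥(twE6 φ).fix) = fU (twE6 φ))
    (α : MulAut ↥(twE6 φ).fix) : ∃ (g : ↥(twE6 φ).fix) (v : ↥(tFix φ (stdE6 φ hq hφ).ρf)) (θ : K ≃+* K),
      α = MulAut.conj g * (stdE6 φ hq hφ).dV v * (stdE6 φ hq hφ).toStD.fieldS θ := by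
  obtain ⟨g, hgs⟩ := exists_std (stE6 φ).twN PU hPU (longE6 φ).m0 (longE6 φ).hf (longE6 φ).hneg α
  have hg := goodE6 hq hφ hK hgs
  set β := MulAut.conj g * α with hβ
  obtain ⟨A0, hA0⟩ := exists_orbA hg h0E
  obtain ⟨A1, hA1⟩ := exists_orbA hg h1E
  obtain ⟨A2, hA2⟩ := exists_orbA hg h2E
  obtain ⟨A3, hA3⟩ := exists_orbA hg h3E
  have n0 : A0 1 ≠ 0 := hA0.ne_zero okJ_one one_ne_zero
  have n1 : A1 1 ≠ 0 := hA1.ne_zero okJ_one one_ne_zero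
  have n2 : A2 1 ≠ 0 := hA2.ne_zero okJ_one one_ne_zero
  have n3 : A3 1 ≠ 0 := hA3.ne_zero okJ_one one_ne_zero
  have ok0 : φ (A0 1)⁻¹ = (A0 1)⁻¹ := by
    have h2 : φ (A0 1) = A0 1 := hA0.ok okJ_one
    rw [map_inv₀, h2]
  have ok1 : φ (A1 1)⁻¹ = (A1 1)⁻¹ := by
    have h2 : φ (A1 1) = A1 1 := hA1.ok okJ_one
    rw [map_inv₀, h2]
  let v : ↥(tFix φ (stdE6 φ hq hφ).ρf) := ⟨cOfE φ (Units.mk0 _ (inv_ne_zero n0)) (Units.mk0 _ (inv_ne_zero n1))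
    (Units.mk0 _ (inv_ne_zero n2)) (Units.mk0 _ (inv_ne_zero n3)), cOfE_mem hφ _ _ ok0 ok1⟩
  have hs' : IsStdF ((stdE6 φ hq hφ).dV v * β) := ((stdE6 φ hq hφ).dV_std v).mul' hgs
  have hg' := goodE6 hq hφ hK hs'
  have hv0 : StV.vN v.1 (hdJ orbE6 0) = (A0 1)⁻¹ := rfl
  have hv1 : StV.vN v.1 (hdJ orbE6 1) = (A1 1)⁻¹ := rfl
  have hv2 : StV.vN v.1 (hdJ orbE6 2) = (A2 1)⁻¹ := rfl
  have hv3 : StV.vN v.1 (hdJ orbE6 3) = (A3 1)⁻¹ := rfl
  have hA0' : IsOrbA (stE6 φ) ((stdE6 φ hq hφ).dV v * β) h0E (fun t => (A0 1)⁻¹ * A0 t) := by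
    intro t ht
    refine ⟨okJ_mul (okJ_inv (hA0.ok okJ_one)) (hA0.ok ht), ?_⟩
    show (stdE6 φ hq hφ).dV v (β (wG _ _ t ht)) = _
    rw [hA0.map ht]
    exact ((stdE6 φ hq hφ).dV_wG v h0E (A0 t) _).trans (wG_congr _ _ (by rw [hv0]) _ _)
  have hA1' : IsOrbA (stE6 φ) ((stdE6 φ hq hφ).dV v * β) h1E (fun t => (A1 1)⁻¹ * A1 t) := by
    intro t ht
    refine ⟨okJ_mul (okJ_inv (hA1.ok okJ_one)) (hA1.ok ht), ?_⟩
    show (stdE6 φ hq hφ).dV v (β (wG _ _ t ht)) = _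
    rw [hA1.map ht]
    exact ((stdE6 φ hq hφ).dV_wG v h1E (A1 t) _).trans (wG_congr _ _ (by rw [hv1]) _ _)
  have hA2' : IsOrbA (stE6 φ) ((stdE6 φ hq hφ).dV v * β) h2E (fun t => (A2 1)⁻¹ * A2 t) := by
    intro t ht
    refine ⟨okJ_mul (okJ_inv (hA2.ok okJ_one)) (hA2.ok ht), ?_⟩
    show (stdE6 φ hq hφ).dV v (β (wG _ _ t ht)) = _
    rw [hA2.map ht]
    exact ((stdE6 φ hq hφ).dV_wG v h2E (A2 t) _).trans (wG_congr _ _ (by rw [hv2]) _ _)
  have hA3' : IsOrbA (stE6 φ) ((stdE6 φ hq hφ).dV v * β) h3E (fun t => (A3 1)⁻¹ * A3 t) := by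
    intro t ht
    refine ⟨okJ_mul (okJ_inv (hA3.ok okJ_one)) (hA3.ok ht), ?_⟩
    show (stdE6 φ hq hφ).dV v (β (wG _ _ t ht)) = _
    rw [hA3.map ht]
    exact ((stdE6 φ hq hφ).dV_wG v h3E (A3 t) _).trans (wG_congr _ _ (by rw [hv3]) _ _)
  obtain ⟨θ, hθ⟩ := rigE6 hq hφ hg' hA0' hA1' hA2' hA3' (inv_mul_cancel₀ n0) (inv_mul_cancel₀ n1) (inv_mul_cancel₀ n2) (inv_mul_cancel₀ n3)
  refine ⟨g⁻¹, v⁻¹, θ, ?_⟩
  have e3 : (stdE6 φ hq hφ).dV v⁻¹ = ((stdE6 φ hq hφ).dV v)⁻¹ := StV.dV_inv _ v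
  have e5 : α = MulAut.conj g⁻¹ * ((stdE6 φ hq hφ).dV v)⁻¹ * ((stdE6 φ hq hφ).dV v * β) := by
    rw [hβ, map_inv]
    group
  exact e5.trans (by
    rw [e3]
    exact congrArg _ hθ)

include hq hφ hK in
/-- `U¹` is a Sylow subgroup. -/
theorem sylE6 {p f : ℕ} [Fact p.Prime] (hf : 1 ≤ f) (hq' : q = p ^ f) :
    ∃ PU : Sylow p ↥(twE6 φ).fix, (PU : Subgroup ↥(twE6 φ).fix) = fU (twE6 φ) := by
  have hc : Nat.card ↥(fU (twE6 φ)) = q ^ 36 := (card_subgroupOf_eq _ _).trans (cardUE6 φ hq hφ hK)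
  have hP : IsPGroup p ↥(fU (twE6 φ)) := IsPGroup.of_card (n := f * 36) (by rw [hc, hq', pow_mul])
  have hp := (Fact.out : p.Prime)
  have hq1 : 1 < q := one_lt_q (k := 2) (by norm_num) hK
  have hdvd : p ∣ q := by
    rw [hq']
    exact dvd_pow_self p (by omega)
  have hI : ¬ p ∣ (fU (twE6 φ)).index := by
    have h1 := Subgroup.card_mul_index (fU (twE6 φ))
    have h0 := twOrderE6 φ hq hφ hK
    rw [← h1, hc] at h0
    have h2 : Nat.gcd 3 (q + 1) * (fU (twE6 φ)).index = (q ^ 2 - 1) * (q ^ 5 + 1) * (q ^ 6 - 1) * (q ^ 8 - 1) * (q ^ 9 + 1) * (q ^ 12 - 1) := by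
      apply Nat.eq_of_mul_eq_mul_left (show 0 < q ^ 36 by positivity)
      calc q ^ 36 * (Nat.gcd 3 (q + 1) * (fU (twE6 φ)).index) = Nat.gcd 3 (q + 1) * (q ^ 36 * (fU (twE6 φ)).index) := by ring
        _ = _ := by rw [h0]; ring
    intro h3
    have h4 : p ∣ (q ^ 2 - 1) * (q ^ 5 + 1) * (q ^ 6 - 1) * (q ^ 8 - 1) * (q ^ 9 + 1) * (q ^ 12 - 1) := by
      rw [← h2]
      exact Dvd.dvd.mul_left h3 _
    have key : ∀ n, n ≠ 0 → ¬ p ∣ q ^ n - 1 := by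
      intro n hn h3
      have h4 : p ∣ q ^ n := dvd_pow hdvd hn
      have h5 : q ^ n = (q ^ n - 1) + 1 := (Nat.sub_add_cancel (Nat.one_le_pow _ _ (by omega))).symm
      rw [h5] at h4
      exact hp.one_lt.ne' (Nat.dvd_one.1 ((Nat.dvd_add_right h3).1 h4))
    have key' : ∀ n, n ≠ 0 → ¬ p ∣ q ^ n + 1 := by
      intro n hn h3
      have h4 : p ∣ q ^ n := dvd_pow hdvd hn
      exact hp.one_lt.ne' (Nat.dvd_one.1 ((Nat.dvd_add_right h4).1 h3))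
    rcases hp.dvd_mul.1 h4 with h5 | h5
    · rcases hp.dvd_mul.1 h5 with h6 | h6
      · rcases hp.dvd_mul.1 h6 with h7 | h7
        · rcases hp.dvd_mul.1 h7 with h8 | h8
          · rcases hp.dvd_mul.1 h8 with h9 | h9
            · exact key 2 (by norm_num) h9
            · exact key' 5 (by norm_num) h9
          · exact key 6 (by norm_num) h8
        · exact key 8 (by norm_num) h7
      · exact key' 9 (by norm_num) h6
    · exact key 12 (by norm_num) h5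
  exact ⟨hP.toSylow hI, rfl⟩

include hq hφ hK in
/-- The order of the outer automorphism group. -/
theorem card_out_E6 {p f : ℕ} [Fact p.Prime] (hf : 1 ≤ f) (hq' : q = p ^ f) :
    Nat.card (Cfsg.Out ↥(twE6 φ).fix) = Nat.gcd 3 (q + 1) * Nat.card (K ≃+* K) := by
  obtain ⟨PU, hPU⟩ := sylE6 hq hφ hK hf hq'
  have h := (stdE6 φ hq hφ).card_out_gen (longE6 φ) h2E (exists_T2 hq hφ) (aut_decompE6 hq hφ hK PU hPU)
  have hH := cardHE6 φ hq hφ hK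
  have hV := card_tFixE6 φ hq hφ hK
  have e1 : Nat.card ↥(tFix φ (stdE6 φ hq hφ).ρf) = Nat.card ↥(tFix φ rhofE6) := rfl
  have e2 : Nat.card ↥(fH (twE6 φ)) = Nat.card ↥(chevE6.diagonalSubgroup K ⊓ (twE6 φ).fix) := card_subgroupOf_eq _ _
  rw [e1, hV, ← hH, e2] at h
  have hpos : 0 < Nat.card ↥(chevE6.diagonalSubgroup K ⊓ (twE6 φ).fix) := Nat.card_pos
  apply Nat.eq_of_mul_eq_mul_right hpos
  rw [h]
  ring

end

end Cfsg.Agent.Lib.ReeAut
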