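/-
The automorphism group of the large Ree group: the torus and the field automorphisms.
-/
import Cfsg.Agent.Lib.ReeAut.F4a

set_option autoImplicit false
set_option maxRecDepth 100000

namespace Cfsg.Agent.Lib.ReeAut

open Cfsg.Lie Cfsg.Agent.Lib.Chev

variable {K : Type*} [Field K] [Fintype K] [CharP K 2] [FCtx K]

local notation "φ'" => (FCtx.φ : K ≃+* K)

variable (K) in
/-- The torus. -/
abbrev TF : Type _ := ↥(fH (twK K))

/-- The torus in the diagonal subgroup. -/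
noncomputable def toD : TF K →* ↥(chevF4.diagonalSubgroup K) where
  toFun z := ⟨z.1.1, Subgroup.mem_subgroupOf.1 z.2⟩
  map_one' := rfl
  map_mul' _ _ := rfl

lemma toD_coe (z : TF K) : ((toD z : ↥(chevF4.diagonalSubgroup K)) : GL chevF4.Idx K) = z.1.1 := rfl

lemma toD_fix (z : TF K) : ((toD z : ↥(chevF4.diagonalSubgroup K)) : GL chevF4.Idx K) ∈ (twK K).fix := z.1.2

/-- The coordinates on the torus. -/
noncomputable def cP : TF K →* Kˣ := chP.comp toD
/-- The coordinates on the torus. -/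
noncomputable def cQ : TF K →* Kˣ := chQ.comp toD
/-- The coordinates on the torus. -/
noncomputable def cA : TF K →* Kˣ := chA.comp toD
/-- The coordinates on the torus. -/
noncomputable def cB : TF K →* Kˣ := chB.comp toD
/-- The coordinates on the torus. -/
noncomputable def cC : TF K →* Kˣ := chC.comp toD

lemma pU_conj (z : TF K) (t : K) : (z : GF K) * pU t * (z : GF K)⁻¹ = pU ((cQ z : K) * t) :=
  Subtype.ext (conj_parU FCtx.hperf φ' FCtx.hφ (z := toD z) (toD_fix z) t)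

lemma sU_conj (z : TF K) (t u : K) : (z : GF K) * sU t u * (z : GF K)⁻¹ = sU ((cB z : K) * t) ((cC z : K) * u) :=
  Subtype.ext (conj_suzU FCtx.hperf φ' FCtx.hφ (z := toD z) (toD_fix z) t u)

lemma cQ_eq (z : TF K) : (cQ z : K) = φ' ((cP z : K) ^ 2) := chQ_fix FCtx.hperf φ' (toD_fix z)

lemma cB_eq (z : TF K) : (cB z : K) = φ' ((cA z : K) ^ 2) := chB_fix FCtx.hperf φ' (toD_fix z)

lemma cP_eq (z : TF K) : (cP z : K) = φ' (cQ z : K) := by
  rw [cQ_eq, FCtx.hφ]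

lemma cA_eq (z : TF K) : (cA z : K) = φ' (cB z : K) := by
  rw [cB_eq, FCtx.hφ]

lemma cC_eq (z : TF K) : (cC z : K) = (cA z : K) * (cB z : K) := by
  show ((chC (toD z) : Kˣ) : K) = _
  rw [chC_eq, Units.val_mul]
  rfl

lemma TF_ext {z z' : TF K} (hP : cP z = cP z') (hA : cA z = cA z') : z = z' := by
  have e := eq_of_chi_F4 FCtx.hperf φ' (z := toD z) (z' := toD z') (toD_fix z) (toD_fix z') hP hA
  have e2 : z.1.1 = z'.1.1 := congrArg (fun w : ↥(chevF4.diagonalSubgroup K) => (w : GL chevF4.Idx K)) e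
  exact Subtype.ext (Subtype.ext e2)

lemma exists_TF (a b : Kˣ) : ∃ z : TF K, cQ z = a ∧ cB z = b := by
  have ha : φ' (a : K) ≠ 0 := (map_ne_zero φ').2 a.ne_zero
  have hb : φ' (b : K) ≠ 0 := (map_ne_zero φ').2 b.ne_zero
  obtain ⟨z, hz⟩ := (chiFixF4_bij FCtx.hperf φ' FCtx.hφ).2 (Units.mk0 _ ha, Units.mk0 _ hb)
  rw [chiFixF4_apply, Prod.mk.injEq] at hz
  let z' : TF K := ⟨⟨z.1, (Subgroup.mem_inf.1 z.2).2⟩, Subgroup.mem_subgroupOf.2 (Subgroup.mem_inf.1 z.2).1⟩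
  have hP : ((cP z' : Kˣ) : K) = φ' (a : K) := congrArg Units.val hz.1
  have hA : ((cA z' : Kˣ) : K) = φ' (b : K) := congrArg Units.val hz.2
  refine ⟨z', Units.ext ?_, Units.ext ?_⟩
  · rw [cQ_eq, hP]
    exact phi_sq _
  · rw [cB_eq, hA]
    exact phi_sq _

lemma exists_TF_P (a : Kˣ) : ∃ z : TF K, cP z = a := by
  have ha : (φ').symm (a : K) ≠ 0 := (map_ne_zero (φ').symm).2 a.ne_zero
  obtain ⟨z, hz, _⟩ := exists_TF (K := K) (Units.mk0 _ ha) 1
  refine ⟨z, Units.ext ?_⟩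
  rw [cP_eq, hz]
  exact (φ').apply_symm_apply _

/-! ### Field automorphisms -/

lemma glMap_suzU (θ : K ≃+* K) (t u : K) : glMap chevF4 θ (suzU φ' t u) = suzU φ' (θ t) (θ u) := by
  unfold suzU
  rw [ggF4_eq_gW, ggF4_eq_gW]
  simp only [Tbl.Good2.gW_cons, Tbl.Good2.gW_nil, map_mul, map_one, mul_one, glMap_xN, map_add, map_pow, theta_phi']

lemma glMap_parU (θ : K ≃+* K) (t : K) : glMap chevF4 θ (parU φ' t) = parU φ' (θ t) := by
  unfold parU ppF4
  simp only [map_mul, glMap_xN, theta_phi']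

lemma glMap_n0 (θ : K ≃+* K) : glMap chevF4 θ n0F4 = n0F4 := by
  rw [n0F4_eq]
  simp only [map_mul, glMap_xN, map_one]

lemma glMap_n1 (θ : K ≃+* K) : glMap chevF4 θ n1F4 = n1F4 := by
  rw [n1F4_eq]
  simp only [map_mul, glMap_xN, map_one]

lemma glMap_suzV (θ : K ≃+* K) (t u : K) : glMap chevF4 θ (suzV φ' t u) = suzV φ' (θ t) (θ u) := by
  unfold suzV
  rw [map_mul, map_mul, map_inv, glMap_n1, glMap_suzU]

lemma glMap_parV (θ : K ≃+* K) (t : K) : glMap chevF4 θ (parV φ' t) = parV φ' (θ t) := by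
  unfold parV
  rw [map_mul, map_mul, map_inv, glMap_n0, glMap_parU]

lemma glMap_fixF (θ : K ≃+* K) {g : GL chevF4.Idx K} (hg : g ∈ (twK K).fix) : glMap chevF4 θ g ∈ (twK K).fix := by
  let G1 : Subgroup (GL chevF4.Idx K) := (twK K).fix ⊓ (twK K).fix.comap (glMap chevF4 θ).toMonoidHom
  have h : (twK K).fix ≤ G1 :=
    fix_le_F4 FCtx.hperf φ' FCtx.hφ inf_le_left
      (fun t u => ⟨suzU_fix FCtx.hperf φ' FCtx.hφ t u, by
        show glMap chevF4 θ (suzU φ' t u) ∈ (twK K).fix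
        rw [glMap_suzU]
        exact suzU_fix FCtx.hperf φ' FCtx.hφ _ _⟩)
      (fun t u => ⟨suzV_fix FCtx.hperf φ' FCtx.hφ t u, by
        show glMap chevF4 θ (suzV φ' t u) ∈ (twK K).fix
        rw [glMap_suzV]
        exact suzV_fix FCtx.hperf φ' FCtx.hφ _ _⟩)
      (fun t => ⟨parU_fix FCtx.hperf φ' FCtx.hφ t, by
        show glMap chevF4 θ (parU φ' t) ∈ (twK K).fix
        rw [glMap_parU]
        exact parU_fix FCtx.hperf φ' FCtx.hφ _⟩)
      (fun t => ⟨parV_fix FCtx.hperf φ' FCtx.hφ t, by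
        show glMap chevF4 θ (parV φ' t) ∈ (twK K).fix
        rw [glMap_parV]
        exact parV_fix FCtx.hperf φ' FCtx.hφ _⟩)
  exact (h hg).2

/-- The field automorphism on the group. -/
noncomputable def fieldF (θ : K ≃+* K) : MulAut (GF K) where
  toFun g := ⟨glMap chevF4 θ g.1, glMap_fixF θ g.2⟩
  invFun g := ⟨glMap chevF4 θ.symm g.1, glMap_fixF θ.symm g.2⟩
  left_inv g := Subtype.ext (glMap_symm chevF4 θ.symm g.1)
  right_inv g := Subtype.ext (glMap_symm chevF4 θ g.1)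
  map_mul' a b := Subtype.ext (map_mul (glMap chevF4 θ) a.1 b.1)

lemma fieldF_coe (θ : K ≃+* K) (g : GF K) : ((fieldF θ g : GF K) : GL chevF4.Idx K) = glMap chevF4 θ g := rfl

lemma fieldF_inv (θ : K ≃+* K) : (fieldF θ)⁻¹ = fieldF θ.symm := rfl

lemma fieldF_mul (θ θ' : K ≃+* K) : fieldF (θ * θ') = fieldF θ * fieldF θ' := by
  ext g i j
  rfl

lemma fieldF_pU (θ : K ≃+* K) (t : K) : fieldF θ (pU t) = pU (θ t) := Subtype.ext (glMap_parU θ t)
lemma fieldF_sU (θ : K ≃+* K) (t u : K) : fieldF θ (sU t u) = sU (θ t) (θ u) := Subtype.ext (glMap_suzU θ t u)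
lemma fieldF_pV (θ : K ≃+* K) (t : K) : fieldF θ (pV t) = pV (θ t) := Subtype.ext (glMap_parV θ t)
lemma fieldF_sV (θ : K ≃+* K) (t u : K) : fieldF θ (sV t u) = sV (θ t) (θ u) := Subtype.ext (glMap_suzV θ t u)

lemma fieldF_s0 (θ : K ≃+* K) : fieldF θ s0 = s0 := Subtype.ext (glMap_n0 θ)
lemma fieldF_s1 (θ : K ≃+* K) : fieldF θ s1 = s1 := Subtype.ext (glMap_n1 θ)

lemma fieldF_std (θ : K ≃+* K) : IsStdF (fieldF θ) := by
  constructor
  · intro x
    constructor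
    · intro h
      have h1 := glMap_rootsGen (D := chevF4) θ.symm (P := chevF4.IsPosRoot) (fun _ hr => hr.1) (Subgroup.mem_subgroupOf.1 h)
      rw [fieldF_coe, glMap_glMap_symm] at h1
      exact Subgroup.mem_subgroupOf.2 h1
    · intro h
      exact Subgroup.mem_subgroupOf.2 (glMap_rootsGen (D := chevF4) θ (P := chevF4.IsPosRoot) (fun _ hr => hr.1) (Subgroup.mem_subgroupOf.1 h))
  · intro x
    constructor
    · intro h
      have h1 := glMap_rootsGen (D := chevF4) θ.symm (P := chevF4.IsNegRoot) (fun _ hr => hr.1) (Subgroup.mem_subgroupOf.1 h)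
      rw [fieldF_coe, glMap_glMap_symm] at h1
      exact Subgroup.mem_subgroupOf.2 h1
    · intro h
      exact Subgroup.mem_subgroupOf.2 (glMap_rootsGen (D := chevF4) θ (P := chevF4.IsNegRoot) (fun _ hr => hr.1) (Subgroup.mem_subgroupOf.1 h))

lemma fieldF_fY (θ : K ≃+* K) {J : Set ℕ} {x : GF K} (h : x ∈ fY (twK K) J) : fieldF θ x ∈ fY (twK K) J :=
  Subgroup.mem_subgroupOf.2 (glMap_rootsGen (D := chevF4) θ (fun _ hr => hr.1.1) (Subgroup.mem_subgroupOf.1 h))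

lemma fieldF_fH (θ : K ≃+* K) {x : GF K} (h : x ∈ fH (twK K)) : fieldF θ x ∈ fH (twK K) :=
  Subgroup.mem_subgroupOf.2 (glMap_H θ (Subgroup.mem_subgroupOf.1 h))

lemma fieldF_cQ (θ : K ≃+* K) (z : TF K) : (cQ (⟨fieldF θ z, fieldF_fH θ z.2⟩ : TF K) : K) = θ (cQ z : K) := by
  have e1 := congrArg (fieldF θ) (pU_conj z 1)
  rw [map_mul, map_mul, map_inv, fieldF_pU, fieldF_pU, map_one, mul_one] at e1
  have e2 := pU_conj ⟨fieldF θ z, fieldF_fH θ z.2⟩ 1
  rw [mul_one] at e2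
  exact pU_inj (e2.symm.trans e1)

lemma fieldF_cB (θ : K ≃+* K) (z : TF K) : (cB (⟨fieldF θ z, fieldF_fH θ z.2⟩ : TF K) : K) = θ (cB z : K) := by
  have e1 := congrArg (fieldF θ) (sU_conj z 1 0)
  rw [map_mul, map_mul, map_inv, fieldF_sU, fieldF_sU, map_one, mul_one, map_zero, mul_zero, map_zero] at e1
  have e2 := sU_conj ⟨fieldF θ z, fieldF_fH θ z.2⟩ 1 0
  rw [mul_one, mul_zero] at e2
  exact (sU_inj (e2.symm.trans e1)).1

lemma fieldF_cP (θ : K ≃+* K) (z : TF K) : (cP (⟨fieldF θ z, fieldF_fH θ z.2⟩ : TF K) : K) = θ (cP z : K) := by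
  rw [cP_eq, fieldF_cQ, cP_eq, theta_phi']

lemma fieldF_cA (θ : K ≃+* K) (z : TF K) : (cA (⟨fieldF θ z, fieldF_fH θ z.2⟩ : TF K) : K) = θ (cA z : K) := by
  rw [cA_eq, fieldF_cB, cA_eq, theta_phi']

end Cfsg.Agent.Lib.ReeAut
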