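/-
The automorphism group of the large Ree group: rigidity of standard automorphisms.
-/
import Cfsg.Agent.Lib.ReeAut.F4b

set_option autoImplicit false
set_option maxRecDepth 100000

namespace Cfsg.Agent.Lib.ReeAut

open Cfsg.Lie Cfsg.Agent.Lib.Chev

variable {K : Type*} [Field K] [Fintype K] [CharP K 2] [FCtx K]

local notation "φ'" => (FCtx.φ : K ≃+* K)

/-! ### A general lemma on field automorphisms -/

lemma exists_ringEquiv_of_scale (A : K → K) (hadd : ∀ a c, A (a + c) = A a + A c) (h1 : A 1 = 1)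
    (hs : ∀ x : K, x ≠ 0 → ∃ c : K, ∀ t, A (x * t) = c * A t) : ∃ θ : K ≃+* K, ∀ x, θ x = A x := by
  have hA0 : A 0 = 0 := by
    have := hadd 0 0
    rw [add_zero] at this
    linear_combination -this
  have hmul : ∀ x a : K, A (x * a) = A x * A a := by
    intro x a
    by_cases hx : x = 0
    · rw [hx, zero_mul, hA0, zero_mul]
    · obtain ⟨c, hc⟩ := hs x hx
      have e2 := hc 1
      rw [mul_one, h1, mul_one] at e2
      rw [hc, e2]
  let σ : K →+* K :=
    { toFun := A, map_one' := h1, map_mul' := hmul, map_zero' := hA0, map_add' := hadd }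
  have hbij : Function.Bijective σ := ⟨σ.injective, Finite.surjective_of_injective σ.injective⟩
  exact ⟨RingEquiv.ofBijective σ hbij, fun _ => rfl⟩

/-- The map `t ↦ φ(t) t` is onto. -/
lemma exists_phi_mul (s : K) : ∃ t : K, φ' t * t = s := by
  have hinj : Function.Injective (fun t : K => φ' t * t) := by
    have key : ∀ t : K, t ≠ 0 → t = (φ' t * t / φ' (φ' t * t)) ^ 2 := by
      intro t ht
      have hf : φ' t ≠ 0 := (map_ne_zero φ').2 ht
      have h2 : (φ' (φ' t)) ^ 2 = t := by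
        rw [← map_pow, ← map_pow]
        exact FCtx.hφ t
      have h3 : φ' (φ' t) ≠ 0 := (map_ne_zero φ').2 hf
      rw [map_mul, div_pow, mul_pow, mul_pow, h2]
      field_simp
    intro a b e
    have e' : φ' a * a = φ' b * b := e
    by_cases ha : a = 0
    · rw [ha, map_zero, zero_mul] at e'
      rcases mul_eq_zero.1 e'.symm with h | h
      · rw [ha, (map_eq_zero φ').1 h]
      · rw [ha, h]
    · have hb : b ≠ 0 := by
        rintro rfl
        rw [map_zero, zero_mul] at e'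
        rcases mul_eq_zero.1 e' with h | h
        · exact ha ((map_eq_zero φ').1 h)
        · exact ha h
      rw [key a ha, key b hb, e']
  exact (Finite.surjective_of_injective hinj) s

/-- Rigidity of the Suzuki part. -/
theorem rig_sU (β : MulAut (GF K)) (hU : ∀ t, ∃ w, β (sU t 0) = sU t w) (hZ : ∀ u, ∃ u', β (sU 0 u) = sU 0 u')
    (hT : ∀ z : TF K, β z = z) : ∀ t u, β (sU t u) = sU t u := by
  choose g hg using hU
  choose E hE using hZ
  have hE' : ∀ u, E u = u := by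
    intro u
    obtain ⟨t, rfl⟩ := exists_phi_mul (K := K) u
    have e1 := congrArg β (sU_sq t 0)
    rw [map_mul, hg, sU_sq, hE] at e1
    exact ((sU_inj e1).2).symm
  have hadd : ∀ a c, g (a + c) = g a + g c := by
    intro a c
    have e : sU a 0 * sU c 0 = sU (a + c) 0 * sU 0 (φ' a * c) := by
      rw [sU_dec, sU_mul]
      simp
    have e1 := congrArg β e
    rw [map_mul, map_mul, hg, hg, hg, hE, hE', sU_mul, sU_mul] at e1
    have e2 := (sU_inj e1).2
    simp only [mul_zero, add_zero] at e2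
    linear_combination -e2
  have hscale : ∀ (z : TF K) t, g ((cB z : K) * t) = (cC z : K) * g t := by
    intro z t
    have e := sU_conj z t 0
    rw [mul_zero] at e
    have e1 := congrArg β e
    rw [map_mul, map_mul, map_inv, hT, hg, hg, sU_conj] at e1
    exact ((sU_inj e1).2).symm
  have hs2 : ∀ b : K, g b = φ' b * b * g 1 := by
    intro b
    by_cases hb : b = 0
    · rw [hb, map_zero, zero_mul, zero_mul]
      have := hadd 0 0
      rw [add_zero] at this
      linear_combination -this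
    · obtain ⟨z, _, hz⟩ := exists_TF (K := K) 1 (Units.mk0 b hb)
      have hz' : (cB z : K) = b := by
        rw [hz]
        rfl
      have e := hscale z 1
      rw [mul_one, hz', cC_eq, cA_eq, hz'] at e
      exact e
  have hg1 : g 1 = 0 := by
    by_contra hne
    have h1 : ∀ a : K, φ' a = a := by
      intro a
      have e := hadd a 1
      rw [hs2 (a + 1), hs2 a, hs2 1, map_add, map_one, one_mul] at e
      have e2 : (φ' a + a) * g 1 = 0 := by
        linear_combination e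
      rcases mul_eq_zero.1 e2 with h | h
      · have := add_self2 a
        exact add_right_cancel (h.trans this.symm)
      · exact absurd h hne
    obtain ⟨a, ha0, ha1⟩ := exists_ne_F4 (K := K) FCtx.hm FCtx.hK
    have h2 := FCtx.hφ a
    rw [h1, h1] at h2
    have h3 : a * (a + 1) = 0 := by
      have e := add_self2 a
      rw [mul_add, mul_one, ← pow_two, h2, e]
    rcases mul_eq_zero.1 h3 with h | h
    · exact ha0 h
    · apply ha1
      have := add_self2 (1 : K)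
      exact add_right_cancel (h.trans this.symm)
  intro t u
  rw [← sU_dec, map_mul, hg, hE, hE', hs2, hg1, mul_zero]

/-! ### Good automorphisms -/

lemma conj_iff {G : Type*} [Group G] {L : Subgroup G} {z : G} (h1 : ∀ y ∈ L, z * y * z⁻¹ ∈ L) (h2 : ∀ y ∈ L, z⁻¹ * y * z ∈ L) (y : G) :
    z * y * z⁻¹ ∈ L ↔ y ∈ L := by
  refine ⟨fun h => ?_, h1 y⟩
  have := h2 _ h
  have e : z⁻¹ * (z * y * z⁻¹) * z = y := by group
  rwa [e] at this

lemma TF_gen (z : TF K) {P : ℕ → Prop} (hP : ∀ r, P r → r < chevF4.nroots) {y : GF K} (hy : (y : GL chevF4.Idx K) ∈ rootsGen chevF4 K P) :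
    (((z : GF K) * y * (z : GF K)⁻¹ : GF K) : GL chevF4.Idx K) ∈ rootsGen chevF4 K P :=
  TwN.H_conj_gen good3F4.toGood2 (Subgroup.mem_subgroupOf.1 z.2) hP hy

lemma TF_gen' (z : TF K) {P : ℕ → Prop} (hP : ∀ r, P r → r < chevF4.nroots) {y : GF K} (hy : (y : GL chevF4.Idx K) ∈ rootsGen chevF4 K P) :
    (((z : GF K)⁻¹ * y * (z : GF K) : GF K) : GL chevF4.Idx K) ∈ rootsGen chevF4 K P := by
  have := TF_gen (z⁻¹) hP hy
  simpa using this

lemma TF_iff (z : TF K) {P : ℕ → Prop} (hP : ∀ r, P r → r < chevF4.nroots) (y : GF K) :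
    (z : GF K) * y * (z : GF K)⁻¹ ∈ (rootsGen chevF4 K P).subgroupOf (twK K).fix ↔ y ∈ (rootsGen chevF4 K P).subgroupOf (twK K).fix :=
  conj_iff (fun _ hy => Subgroup.mem_subgroupOf.2 (TF_gen z hP (Subgroup.mem_subgroupOf.1 hy)))
    (fun _ hy => Subgroup.mem_subgroupOf.2 (TF_gen' z hP (Subgroup.mem_subgroupOf.1 hy))) y

/-- Standard automorphisms fixing the orbit groups and the parabolic subgroups. -/
structure GoodF (β : MulAut (GF K)) : Prop where
  std : IsStdF β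
  P0 : ∀ x, β x ∈ gPF (twA K) 0 h0F ↔ x ∈ gPF (twA K) 0 h0F
  P1 : ∀ x, β x ∈ gPF (twA K) 1 h1F ↔ x ∈ gPF (twA K) 1 h1F
  X0 : ∀ x, β x ∈ fX (twK K) (orbF4.J 0) ↔ x ∈ fX (twK K) (orbF4.J 0)
  X1 : ∀ x, β x ∈ fX (twK K) (orbF4.J 1) ↔ x ∈ fX (twK K) (orbF4.J 1)
  Y0 : ∀ x, β x ∈ fY (twK K) (orbF4.J 0) ↔ x ∈ fY (twK K) (orbF4.J 0)
  Y1 : ∀ x, β x ∈ fY (twK K) (orbF4.J 1) ↔ x ∈ fY (twK K) (orbF4.J 1)

lemma GoodF.conj_TF {β : MulAut (GF K)} (h : GoodF β) (z : TF K) : GoodF (MulAut.conj (z : GF K) * β) := by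
  have e : ∀ x, (MulAut.conj (z : GF K) * β) x = (z : GF K) * β x * (z : GF K)⁻¹ := fun x => rfl
  have hP : ∀ j (hj : j < orbF4.m) x, (z : GF K) * x * (z : GF K)⁻¹ ∈ gPF (twA K) j hj ↔ x ∈ gPF (twA K) j hj := by
    intro j hj x
    have hz : (z : GF K) ∈ gPF (twA K) j hj := fB_le_gPF (twA K) hj (fH_le_fB _ z.2)
    exact conj_iff (fun _ hy => Subgroup.mul_mem _ (Subgroup.mul_mem _ hz hy) (Subgroup.inv_mem _ hz))
      (fun _ hy => Subgroup.mul_mem _ (Subgroup.mul_mem _ (Subgroup.inv_mem _ hz) hy) hz) x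
  refine ⟨⟨fun x => ?_, fun x => ?_⟩, fun x => ?_, fun x => ?_, fun x => ?_, fun x => ?_, fun x => ?_, fun x => ?_⟩
  · rw [e, ← h.std.U x]
    exact TF_iff z (P := chevF4.IsPosRoot) (fun _ hr => hr.1) _
  · rw [e, ← h.std.V x]
    exact TF_iff z (P := chevF4.IsNegRoot) (fun _ hr => hr.1) _
  · rw [e, hP, h.P0]
  · rw [e, hP, h.P1]
  · rw [e, ← h.X0 x]
    exact TF_iff z (fun _ hr => hr.1.1) _
  · rw [e, ← h.X1 x]
    exact TF_iff z (fun _ hr => hr.1.1) _
  · rw [e, ← h.Y0 x]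
    exact TF_iff z (fun _ hr => hr.1.1) _
  · rw [e, ← h.Y1 x]
    exact TF_iff z (fun _ hr => hr.1.1) _

variable (K) in
/-- `U¹` is a Sylow subgroup. -/
noncomputable def sylF : Sylow 2 (GF K) :=
  haveI : Fact (Nat.Prime 2) := ⟨Nat.prime_two⟩
  (U1_sylow (m := FCtx.m (K := K)) FCtx.hperf φ' FCtx.hK FCtx.hφ).1.toSylow (U1_sylow (m := FCtx.m (K := K)) FCtx.hperf φ' FCtx.hK FCtx.hφ).2

lemma exists_goodF (α : MulAut (GF K)) : ∃ g : GF K, GoodF (MulAut.conj g * α) := by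
  haveI : Fact (Nat.Prime 2) := ⟨Nat.prime_two⟩
  haveI : Finite (GF K) := inferInstance
  obtain ⟨g, hs⟩ := exists_std (twA K) (sylF K) rfl (longF4 K).m0 (longF4 K).hf (longF4 K).hneg α
  refine ⟨g, ?_⟩
  obtain ⟨j0, hj0, hP0, hY0⟩ := hs.exists_perm_Y (twA K) h0F
  obtain ⟨j1, hj1, hP1, hY1⟩ := hs.exists_perm_Y (twA K) h1F
  obtain ⟨j0', hj0', hX0⟩ := hs.exists_perm_X (longF4 K) h0F
  obtain ⟨j1', hj1', hX1⟩ := hs.exists_perm_X (longF4 K) h1F
  have e0 : j0 = 0 := orbit_eq_of_card (K := K) h0F hj0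
    ((card_fY_eq (twA K) hj0).symm.trans ((card_of_iff _ hY0).trans (card_fY_eq (twA K) h0F)))
  have e1 : j1 = 1 := orbit_eq_of_card (K := K) h1F hj1
    ((card_fY_eq (twA K) hj1).symm.trans ((card_of_iff _ hY1).trans (card_fY_eq (twA K) h1F)))
  have e0' : j0' = 0 := orbit_eq_of_card (K := K) h0F hj0' (card_of_iff _ hX0)
  have e1' : j1' = 1 := orbit_eq_of_card (K := K) h1F hj1' (card_of_iff _ hX1)
  subst e0 e1 e0' e1'
  exact ⟨hs, hP0, hP1, hX0, hX1, hY0, hY1⟩

/-- The action on the torus. -/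
noncomputable def bT {β : MulAut (GF K)} (h : GoodF β) (z : TF K) : TF K :=
  ⟨β z, (h.std.fH_iff (twA K) (longF4 K).m0 (longF4 K).hf (longF4 K).hneg _).2 z.2⟩

lemma bT_coe {β : MulAut (GF K)} (h : GoodF β) (z : TF K) : ((bT h z : TF K) : GF K) = β z := rfl

/-- The conjugate of a torus element by the representative of the short orbit. -/
noncomputable def sT0 (z : TF K) : TF K :=
  ⟨(s0 : GF K) * (z : GF K) * (s0 : GF K)⁻¹, Subgroup.mem_subgroupOf.2 (good3F4.toGood2.N_conj_H ((twA K).mem 0 h0F) (Subgroup.mem_subgroupOf.1 z.2))⟩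

lemma cA_sT0 (z : TF K) : cA (sT0 z) = cP z * cA z := by
  show chA ⟨n0F4 * (toD z : GL chevF4.Idx K) * n0F4⁻¹, _⟩ = _
  rw [chi_conj_wperm (l := [0, 3]) (s := 34) (r := 27) (by decide) (by decide) (by decide) (by decide +kernel) (toD z) (n0F4_conj_mem (toD z)),
    chi34_eq]
  rfl

/-- Rigidity. -/
theorem rigF {β : MulAut (GF K)} (h : GoodF β) (h1 : β (pU 1) = pU 1) (h2 : ∃ w, β (sU 1 0) = sU 1 w) :
    ∃ θ : K ≃+* K, β = fieldF θ := by
  have hpU : ∀ t : K, ∃ t', β (pU t) = pU t' := fun t => mem_fX0.1 ((h.X0 _).2 (mem_fX0.2 ⟨t, rfl⟩))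
  have hsU : ∀ t u : K, ∃ t' u', β (sU t u) = sU t' u' := fun t u => mem_fX1.1 ((h.X1 _).2 (mem_fX1.2 ⟨t, u, rfl⟩))
  have hZ : ∀ u : K, ∃ u', β (sU 0 u) = sU 0 u' := by
    intro u
    obtain ⟨a, b, e⟩ := hsU 0 u
    have h3 : sU (0 : K) u * sU 0 u = 1 := by
      rw [sU_sq, map_zero, zero_mul, sU_zero]
    have h4 : sU a b * sU a b = 1 := by
      rw [← e, ← map_mul, h3, map_one]
    have h5 := sU_sq_eq_one h4
    subst h5
    exact ⟨b, e⟩
  choose A hA using hpU
  choose B C hBC using fun t : K => hsU t 0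
  choose E hE using hZ
  have A_add : ∀ a c, A (a + c) = A a + A c := by
    intro a c
    have e1 := congrArg β (pU_mul a c)
    rw [map_mul, hA, hA, hA, pU_mul] at e1
    exact (pU_inj e1).symm
  have B_add : ∀ a c, B (a + c) = B a + B c := by
    intro a c
    have e : sU a 0 * sU c 0 = sU (a + c) 0 * sU 0 (φ' a * c) := by
      rw [sU_dec, sU_mul]
      simp
    have e1 := congrArg β e
    rw [map_mul, map_mul, hBC, hBC, hBC, hE, sU_mul, sU_mul] at e1
    have e2 := (sU_inj e1).1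
    rw [add_zero] at e2
    exact e2.symm
  have A_scale : ∀ (z : TF K) t, A ((cQ z : K) * t) = (cQ (bT h z) : K) * A t := by
    intro z t
    have e1 := congrArg β (pU_conj z t)
    rw [map_mul, map_mul, map_inv, hA, hA, ← bT_coe h, pU_conj] at e1
    exact (pU_inj e1).symm
  have B_scale : ∀ (z : TF K) t, B ((cB z : K) * t) = (cB (bT h z) : K) * B t := by
    intro z t
    have e := sU_conj z t 0
    rw [mul_zero] at e
    have e1 := congrArg β e
    rw [map_mul, map_mul, map_inv, hBC, hBC, ← bT_coe h, sU_conj] at e1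
    exact ((sU_inj e1).1).symm
  have A1 : A 1 = 1 := by
    have := hA 1
    rw [h1] at this
    exact (pU_inj this).symm
  have B1 : B 1 = 1 := by
    obtain ⟨w, hw⟩ := h2
    have := hBC 1
    rw [hw] at this
    exact ((sU_inj this).1).symm
  obtain ⟨θ₀, hθ₀⟩ := exists_ringEquiv_of_scale A A_add A1 (fun x hx => by
    obtain ⟨z, hz, _⟩ := exists_TF (K := K) (Units.mk0 x hx) 1
    have hz' : (cQ z : K) = x := by
      rw [hz]
      rfl
    exact ⟨_, fun t => by
      rw [← hz']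
      exact A_scale z t⟩)
  obtain ⟨θ₁, hθ₁⟩ := exists_ringEquiv_of_scale B B_add B1 (fun x hx => by
    obtain ⟨z, _, hz⟩ := exists_TF (K := K) 1 (Units.mk0 x hx)
    have hz' : (cB z : K) = x := by
      rw [hz]
      rfl
    exact ⟨_, fun t => by
      rw [← hz']
      exact B_scale z t⟩)
  have hcQ : ∀ z : TF K, (cQ (bT h z) : K) = θ₀ (cQ z : K) := by
    intro z
    have e := A_scale z 1
    rw [mul_one, A1, mul_one] at e
    rw [← e, hθ₀]
  have hcB : ∀ z : TF K, (cB (bT h z) : K) = θ₁ (cB z : K) := by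
    intro z
    have e := B_scale z 1
    rw [mul_one, B1, mul_one] at e
    rw [← e, hθ₁]
  have hcP : ∀ z : TF K, (cP (bT h z) : K) = θ₀ (cP z : K) := by
    intro z
    rw [cP_eq, hcQ, cP_eq, theta_phi']
  have hcA : ∀ z : TF K, (cA (bT h z) : K) = θ₁ (cA z : K) := by
    intro z
    rw [cA_eq, hcB, cA_eq, theta_phi']
  -- the representative
  have hc0 := sF_inv_mul_mem (twA K) h0F h.X0 h.Y0 h.P0
  have hc1 := sF_inv_mul_mem (twA K) h1F h.X1 h.Y1 h.P1
  have hH := h.std.fH_iff (twA K) (longF4 K).m0 (longF4 K).hf (longF4 K).hneg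
  have hconj : ∀ z : TF K, bT h (sT0 z) = sT0 (bT h z) := by
    intro z
    apply Subtype.ext
    have := map_conj_sF (twA K) h0F hc0 hH z.2
    exact this
  have hθ : θ₀ = θ₁ := by
    ext x
    by_cases hx : x = 0
    · rw [hx, map_zero, map_zero]
    · obtain ⟨z, hz⟩ := exists_TF_P (K := K) (Units.mk0 x hx)
      have hz' : (cP z : K) = x := by
        rw [hz]
        rfl
      have e1 := hcA (sT0 z)
      rw [hconj, cA_sT0, cA_sT0, Units.val_mul, Units.val_mul, map_mul, hcP, hcA, hz'] at e1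
      exact mul_right_cancel₀ (by
        rw [← map_zero θ₁]
        exact fun e => (cA z).ne_zero (θ₁.injective e)) e1
  subst hθ
  -- the automorphism fixing the words
  set β₁ := (fieldF θ₀)⁻¹ * β with hβ₁
  have happly : ∀ x, β₁ x = fieldF θ₀.symm (β x) := fun x => rfl
  have h1p : ∀ t, β₁ (pU t) = pU t := by
    intro t
    rw [happly, hA, fieldF_pU, ← hθ₀, RingEquiv.symm_apply_apply]
  have h1s : ∀ t, ∃ w, β₁ (sU t 0) = sU t w := by
    intro t
    refine ⟨θ₀.symm (C t), ?_⟩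
    rw [happly, hBC, fieldF_sU, ← hθ₁, RingEquiv.symm_apply_apply]
  have h1z : ∀ u, ∃ w, β₁ (sU 0 u) = sU 0 w := by
    intro u
    refine ⟨θ₀.symm (E u), ?_⟩
    rw [happly, hE, fieldF_sU, map_zero]
  have h1T : ∀ z : TF K, β₁ z = z := by
    intro z
    have e : (⟨β₁ z, fieldF_fH θ₀.symm (bT h z).2⟩ : TF K) = z := by
      apply TF_ext
      · apply Units.ext
        have := fieldF_cP θ₀.symm (bT h z)
        rw [hcP, RingEquiv.symm_apply_apply] at this
        exact this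
      · apply Units.ext
        have := fieldF_cA θ₀.symm (bT h z)
        rw [hcA, RingEquiv.symm_apply_apply] at this
        exact this
    exact congrArg Subtype.val e
  have h1S := rig_sU β₁ h1s h1z h1T
  have hfB : ∀ x, x ∈ fB (twK K) → fieldF θ₀.symm x ∈ fB (twK K) := fun x hx =>
    ((fieldF_std θ₀.symm).fB_iff (twA K) x).2 hx
  have hc0' : (s0 : GF K)⁻¹ * β₁ s0 ∈ fB (twK K) := by
    have e : (s0 : GF K)⁻¹ * β₁ s0 = fieldF θ₀.symm ((s0 : GF K)⁻¹ * β s0) := by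
      rw [map_mul, map_inv, fieldF_s0, happly]
    rw [e]
    exact hfB _ hc0
  have hc1' : (s1 : GF K)⁻¹ * β₁ s1 ∈ fB (twK K) := by
    have e : (s1 : GF K)⁻¹ * β₁ s1 = fieldF θ₀.symm ((s1 : GF K)⁻¹ * β s1) := by
      rw [map_mul, map_inv, fieldF_s1, happly]
    rw [e]
    exact hfB _ hc1
  have hV0 := fix_of_word (β := β₁) (twA K) h0F hc0'
    (fun x hx => by
      obtain ⟨t, rfl⟩ := mem_fX0.1 hx
      exact h1p t)
    (fun x hx => fieldF_fY θ₀.symm ((h.Y0 _).2 hx))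
    (mem_fX0.2 ⟨1, rfl⟩) (mem_fX0.2 ⟨1, rfl⟩) (mem_fY0.2 ⟨1, rfl⟩) s0_word
  have hV1 := fix_of_word (β := β₁) (twA K) h1F hc1'
    (fun x hx => by
      obtain ⟨t, u, rfl⟩ := mem_fX1.1 hx
      exact h1S t u)
    (fun x hx => fieldF_fY θ₀.symm ((h.Y1 _).2 hx))
    (mem_fX1.2 ⟨1, 0, rfl⟩) (mem_fX1.2 ⟨1, 1, rfl⟩) (mem_fY1.2 ⟨0, 1, rfl⟩) s1_word
  let G1 : Subgroup (GL chevF4.Idx K) := (MonoidHom.eqLocus β₁.toMonoidHom (MonoidHom.id (GF K))).map (twK K).fix.subtype
  have hG1 : G1 ≤ (twK K).fix := by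
    rintro _ ⟨x, _, rfl⟩
    exact x.2
  have hle := fix_le_F4 FCtx.hperf φ' FCtx.hφ hG1
    (fun t u => ⟨sU t u, h1S t u, rfl⟩)
    (fun t u => ⟨sV t u, hV1.2 _ (mem_fY1.2 ⟨t, u, rfl⟩), rfl⟩)
    (fun t => ⟨pU t, h1p t, rfl⟩)
    (fun t => ⟨pV t, hV0.2 _ (mem_fY0.2 ⟨t, rfl⟩), rfl⟩)
  have hone : β₁ = 1 := by
    ext1 x
    obtain ⟨y, hy, e⟩ := hle x.2
    have e2 : y = x := Subtype.ext e
    rw [← e2]
    exact hy
  refine ⟨θ₀, ?_⟩
  rw [hβ₁, inv_mul_eq_one] at hone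
  exact hone.symm

/-- The decomposition of an automorphism. -/
theorem aut_decompF (α : MulAut (GF K)) : ∃ (g : GF K) (θ : K ≃+* K), α = MulAut.conj g * fieldF θ := by
  obtain ⟨g, hg⟩ := exists_goodF α
  obtain ⟨a, ha⟩ := mem_fX0.1 ((hg.X0 _).2 (mem_fX0.2 ⟨(1 : K), rfl⟩))
  obtain ⟨b, w, hb⟩ := mem_fX1.1 ((hg.X1 _).2 (mem_fX1.2 ⟨(1 : K), 0, rfl⟩))
  set β := MulAut.conj g * α with hβ
  have ha0 : a ≠ 0 := by
    rintro rfl
    rw [pU_zero, map_eq_one_iff _ β.injective, ← pU_zero] at ha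
    exact one_ne_zero (pU_inj ha)
  have hb0 : b ≠ 0 := by
    rintro rfl
    have e := congrArg β (sU_sq (1 : K) 0)
    rw [map_mul, hb, sU_sq, map_zero, zero_mul, sU_zero, map_one, one_mul] at e
    have h3 : sU (0 : K) 1 = 1 := by
      have := β.injective (e.symm.trans (map_one β).symm)
      exact this
    rw [← sU_zero] at h3
    exact one_ne_zero (sU_inj h3).2
  obtain ⟨z, hz1, hz2⟩ := exists_TF (K := K) (Units.mk0 a⁻¹ (inv_ne_zero ha0)) (Units.mk0 b⁻¹ (inv_ne_zero hb0))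
  have hz1' : (cQ z : K) = a⁻¹ := by
    rw [hz1]
    rfl
  have hz2' : (cB z : K) = b⁻¹ := by
    rw [hz2]
    rfl
  obtain ⟨θ, hθ⟩ := rigF (hg.conj_TF z) (by
      show (z : GF K) * β (pU 1) * (z : GF K)⁻¹ = _
      rw [ha, pU_conj, hz1', inv_mul_cancel₀ ha0])
    ⟨(cC z : K) * w, by
      show (z : GF K) * β (sU 1 0) * (z : GF K)⁻¹ = _
      rw [hb, sU_conj, hz2', inv_mul_cancel₀ hb0]⟩
  refine ⟨g⁻¹ * (z : GF K)⁻¹, θ, ?_⟩
  rw [← hθ, map_mul, map_inv, map_inv, hβ]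
  group

/-- Field automorphisms are not inner. -/
theorem fieldF_inner (θ : K ≃+* K) (g : GF K) (he : fieldF θ = MulAut.conj g) : θ = 1 := by
  have hconj : ∀ x, g * x * g⁻¹ = fieldF θ x := by
    intro x
    rw [he]
    rfl
  have hg : g ∈ fB (twK K) := by
    rw [mem_fB_iff (twA K)]
    intro y hy
    rw [hconj]
    exact ((fieldF_std θ).U y).2 hy
  ext x
  by_cases hx : x = 0
  · rw [hx, map_zero]
    rfl
  obtain ⟨z, hz⟩ := exists_TF_P (K := K) (Units.mk0 x hx)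
  have hz' : (cP z : K) = x := by
    rw [hz]
    rfl
  have h1 : g * (z : GF K) * g⁻¹ ∈ fH (twK K) := by
    rw [hconj]
    exact fieldF_fH θ z.2
  have h2 := conj_fB_fH good3F4.toGood2 hg z.2 h1
  have h3 : (⟨fieldF θ z, fieldF_fH θ z.2⟩ : TF K) = z := by
    apply Subtype.ext
    show fieldF θ (z : GF K) = z
    rw [← hconj]
    exact h2
  have h4 := fieldF_cP θ z
  rw [h3, hz'] at h4
  exact h4.symm

theorem card_out_GF : Nat.card (Cfsg.Out (GF K)) = Nat.card (K ≃+* K) := by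
  let fh : (K ≃+* K) →* MulAut (GF K) := MonoidHom.mk' fieldF fieldF_mul
  let Ψ : (K ≃+* K) →* Cfsg.Out (GF K) := (QuotientGroup.mk' (Cfsg.Inn (GF K))).comp fh
  have hinj : Function.Injective Ψ := by
    rw [injective_iff_map_eq_one]
    intro θ hθ
    have : fieldF θ ∈ Cfsg.Inn (GF K) := (QuotientGroup.eq_one_iff _).1 hθ
    obtain ⟨g, hg⟩ := this
    exact fieldF_inner θ g hg.symm
  have hsurj : Function.Surjective Ψ := by
    intro x
    obtain ⟨α, rfl⟩ := QuotientGroup.mk'_surjective _ x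
    obtain ⟨g, θ, rfl⟩ := aut_decompF α
    refine ⟨θ, ?_⟩
    show QuotientGroup.mk' _ (fieldF θ) = QuotientGroup.mk' _ (MulAut.conj g * fieldF θ)
    rw [map_mul]
    have : QuotientGroup.mk' (Cfsg.Inn (GF K)) (MulAut.conj g) = 1 :=
      (QuotientGroup.eq_one_iff _).2 ⟨g, rfl⟩
    rw [this, one_mul]
  exact (Nat.card_congr (Equiv.ofBijective Ψ ⟨hinj, hsurj⟩)).symm

end Cfsg.Agent.Lib.ReeAut
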