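/-
The automorphism group of the small Ree group: coordinates on the Borel subgroup.
-/
import Cfsg.Agent.Lib.Tw.ReeG2k
import Cfsg.Agent.Lib.Hall.SZConj
import Cfsg.Agent.Lib.ChevAut.FieldCard
import Cfsg.Agent.Lib.Chev.FieldAut

set_option autoImplicit false
set_option maxRecDepth 100000

namespace Cfsg.Agent.Lib.ReeAut

open Cfsg.Lie Cfsg.Agent.Lib.Chev

/-- The context for the small Ree group. -/
class RCtx (K : Type*) [Field K] [Fintype K] [CharP K 3] where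
  m : ℕ
  hm : 1 ≤ m
  hK : Fintype.card K = 3 ^ (2 * m + 1)
  hperf : ∀ x : K, ∃ y : K, y ^ 3 = x
  φ : K ≃+* K
  hq : ∀ x, φ x = x ^ 3 ^ m
  hφ : ∀ x, φ (φ (x ^ 3)) = x

variable {K : Type*} [Field K] [Fintype K] [CharP K 3] [RCtx K]

/-- The twisted Frobenius map, whose square is the cube map. -/
def sg (x : K) : K := (RCtx.φ x) ^ 3

lemma sg_zero : sg (0 : K) = 0 := by simp [sg]
lemma sg_one : sg (1 : K) = 1 := by simp [sg]
lemma sg_mul (x y : K) : sg (x * y) = sg x * sg y := by simp [sg, mul_pow]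
lemma sg_add (x y : K) : sg (x + y) = sg x + sg y := by
  rw [sg, map_add, add_cube]
  rfl
lemma sg_neg (x : K) : sg (-x) = -sg x := by
  simp only [sg, map_neg]
  ring

lemma phi_sg (x : K) : RCtx.φ (sg x) = x := by
  rw [sg, ← map_pow]
  exact RCtx.hφ x

lemma sg_sg (x : K) : sg (sg x) = x ^ 3 := by
  rw [sg, phi_sg]

lemma sg_inj {x y : K} (h : sg x = sg y) : x = y := by
  have := congrArg RCtx.φ h
  rwa [phi_sg, phi_sg] at this

lemma sg_ne_zero {x : K} (h : x ≠ 0) : sg x ≠ 0 := pow_ne_zero _ ((map_ne_zero _).2 h)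

lemma sq_case (s : K) (hs : s ≠ 0) : ∃ r : K, r ≠ 0 ∧ (s = r ^ 2 ∨ s = -r ^ 2) :=
  sq_or_neg_sq (m := RCtx.m (K := K)) RCtx.hK s hs

variable (K) in
/-- The group. -/
abbrev GR : Type _ := ↥(twG2 (RCtx.hperf (K := K)) RCtx.φ).fix

/-- The elements of `U`. -/
noncomputable def uG (t u v : K) : GR K := ⟨reeU RCtx.φ t u v, reeU_fix RCtx.hperf RCtx.φ RCtx.hφ t u v⟩

lemma uG_coe (t u v : K) : (uG t u v : GL chevG2.Idx K) = reeU RCtx.φ t u v := rfl

lemma uG_mul (t u v t' u' v' : K) : uG t u v * uG t' u' v' =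
    uG (t + t') (-(sg t' * t) + u + u') (-(sg t' * t ^ 2) + v - t' * (-(sg t' * t) + u) + v') :=
  Subtype.ext (reeU_mul RCtx.hperf RCtx.φ RCtx.hφ t u v t' u' v')

lemma uG_inj {t u v t' u' v' : K} (h : uG t u v = uG t' u' v') : t = t' ∧ u = u' ∧ v = v' :=
  reeU_inj RCtx.φ (congrArg Subtype.val h)

lemma uG_zero : uG (0 : K) 0 0 = 1 := Subtype.ext (reeU_zero RCtx.φ)

lemma uG_dec (t u v : K) : uG t 0 0 * uG 0 u v = uG t u v := by
  rw [uG_mul]
  simp [sg_zero]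

lemma uG_zero_mul (u v u' v' : K) : uG 0 u v * uG 0 u' v' = uG 0 (u + u') (v + v') := by
  rw [uG_mul]
  simp [sg_zero]

lemma uG_mul_zero (t u v u' v' : K) : uG t u v * uG 0 u' v' = uG t (u + u') (v + v') := by
  rw [uG_mul]
  simp [sg_zero]

lemma uG_cube (t u v : K) : uG t u v ^ 3 = uG 0 0 (-(sg t * t ^ 2)) :=
  Subtype.ext (reeU_cube RCtx.hperf RCtx.φ RCtx.hφ t u v)

lemma uG_cube_eq_one_iff (t u v : K) : uG t u v ^ 3 = 1 ↔ t = 0 := by
  rw [uG_cube, ← uG_zero]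
  constructor
  · intro h
    have h3 := (uG_inj h).2.2
    rw [neg_eq_zero] at h3
    by_contra ht
    exact mul_ne_zero (sg_ne_zero ht) (pow_ne_zero _ ht) h3
  · rintro rfl
    simp [sg_zero]

variable (K) in
/-- The unipotent subgroup. -/
noncomputable abbrev Uni : Subgroup (GR K) := u1G2 RCtx.hperf RCtx.φ

lemma mem_Uni {x : GR K} : x ∈ Uni K ↔ ∃ t u v, x = uG t u v := by
  constructor
  · intro hx
    obtain ⟨t, u, v, e⟩ := (mem_U_fix_iff RCtx.hperf RCtx.φ RCtx.hφ).1 ⟨Subgroup.mem_subgroupOf.1 hx, x.2⟩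
    exact ⟨t, u, v, Subtype.ext e⟩
  · rintro ⟨t, u, v, rfl⟩
    exact Subgroup.mem_subgroupOf.2 (reeU_mem_U RCtx.φ t u v)

lemma uG_mem (t u v : K) : uG t u v ∈ Uni K := mem_Uni.2 ⟨t, u, v, rfl⟩

/-! ### The torus -/

/-- The torus as a subgroup of the group. -/
noncomputable def tEquiv : ↥(chevG2.diagonalSubgroup K ⊓ (twG2 (RCtx.hperf (K := K)) RCtx.φ).fix) ≃* Kˣ :=
  MulEquiv.ofBijective (chiFix RCtx.hperf RCtx.φ) (chiFix_bij RCtx.hperf RCtx.φ RCtx.hφ sq_case)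

/-- The twist on units. -/
noncomputable def uphi : Kˣ ≃* Kˣ := Units.mapEquiv (RCtx.φ (K := K)).toMulEquiv

lemma uphi_coe (w : Kˣ) : ((uphi w : Kˣ) : K) = RCtx.φ (w : K) := rfl

/-- The element of the torus with a given value on the root `b`. -/
noncomputable def dT (w : Kˣ) : ↥(chevG2.diagonalSubgroup K ⊓ (twG2 (RCtx.hperf (K := K)) RCtx.φ).fix) :=
  tEquiv.symm (uphi w)

/-- The element of the torus with a given value on the root `b`. -/
noncomputable def dG (w : Kˣ) : GR K := ⟨(dT w).1, (Subgroup.mem_inf.1 (dT w).2).2⟩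

lemma dG_diag (w : Kˣ) : (dG w : GL chevG2.Idx K) ∈ chevG2.diagonalSubgroup K :=
  (Subgroup.mem_inf.1 (dT w).2).1

lemma dG_mul (w w' : Kˣ) : dG (w * w') = dG w * dG w' := by
  apply Subtype.ext
  show ((dT (w * w')) : GL chevG2.Idx K) = _
  rw [dT, map_mul, map_mul]
  rfl

lemma dG_one : dG (1 : Kˣ) = 1 := by
  have := dG_mul (1 : Kˣ) 1
  rw [mul_one] at this
  exact left_eq_mul.1 this

lemma dG_inv (w : Kˣ) : dG w⁻¹ = (dG w)⁻¹ := by
  apply eq_inv_of_mul_eq_one_left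
  rw [← dG_mul, inv_mul_cancel, dG_one]

/-- The element as a diagonal element. -/
noncomputable def dZ (w : Kˣ) : ↥(chevG2.diagonalSubgroup K) := ⟨dG w, dG_diag w⟩

lemma chi7_dZ (w : Kˣ) : ((chi7 (dZ w) : Kˣ) : K) = RCtx.φ (w : K) := by
  have : tEquiv (dT w) = uphi w := tEquiv.apply_symm_apply _
  exact congrArg Units.val this

lemma chi6_dZ (w : Kˣ) : ((chi6 (dZ w) : Kˣ) : K) = w := by
  rw [chi6_fix RCtx.hperf RCtx.φ (dG w).2, chi7_dZ, ← map_pow]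
  exact RCtx.hφ _

lemma chi10_dZ (w : Kˣ) : ((chi10 (dZ w) : Kˣ) : K) = (w : K) * sg (w : K) := by
  rw [(chi_rel (dZ w)).2.2.1, chi7_dZ, chi6_dZ, sg]
  ring

lemma chi11_dZ (w : Kˣ) : ((chi11 (dZ w) : Kˣ) : K) = (w : K) ^ 2 * sg (w : K) := by
  rw [(chi_rel (dZ w)).2.2.2, chi7_dZ, chi6_dZ, sg]
  ring

/-- The action of the torus on `U`. -/
lemma dG_conj (w : Kˣ) (t u v : K) : dG w * uG t u v * (dG w)⁻¹ =
    uG ((w : K) * t) ((w : K) * sg (w : K) * u) ((w : K) ^ 2 * sg (w : K) * v) := by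
  apply Subtype.ext
  have h := conj_reeU RCtx.hperf RCtx.φ RCtx.hφ (z := dZ w) (dG w).2 t u v
  rw [chi6_dZ, chi10_dZ, chi11_dZ] at h
  exact h

variable (K) in
/-- The torus. -/
noncomputable abbrev Tor : Subgroup (GR K) := (chevG2.diagonalSubgroup K).subgroupOf (twG2 (RCtx.hperf (K := K)) RCtx.φ).fix

lemma mem_Tor {x : GR K} : x ∈ Tor K ↔ ∃ w, x = dG w := by
  constructor
  · intro hx
    let z : ↥(chevG2.diagonalSubgroup K ⊓ (twG2 (RCtx.hperf (K := K)) RCtx.φ).fix) := ⟨x.1, Subgroup.mem_inf.2 ⟨Subgroup.mem_subgroupOf.1 hx, x.2⟩⟩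
    refine ⟨uphi.symm (tEquiv z), ?_⟩
    apply Subtype.ext
    show (x : GL chevG2.Idx K) = ((dT (uphi.symm (tEquiv z))) : GL chevG2.Idx K)
    rw [dT, MulEquiv.apply_symm_apply, MulEquiv.symm_apply_apply]
  · rintro ⟨w, rfl⟩
    exact Subgroup.mem_subgroupOf.2 (dG_diag w)

lemma dG_mem (w : Kˣ) : dG w ∈ Tor K := mem_Tor.2 ⟨w, rfl⟩

lemma dG_inj {w w' : Kˣ} (h : dG w = dG w') : w = w' := by
  apply Units.ext
  rw [← chi6_dZ w, ← chi6_dZ w']
  have : dZ w = dZ w' := Subtype.ext (congrArg (fun x : GR K => (x : GL chevG2.Idx K)) h)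
  rw [this]

/-- The Borel subgroup. -/
noncomputable abbrev Bor (K : Type*) [Field K] [Fintype K] [CharP K 3] [RCtx K] : Subgroup (GR K) := b1G2 RCtx.hperf RCtx.φ

lemma mem_Bor {x : GR K} : x ∈ Bor K ↔ ∃ t u v w, x = uG t u v * dG w := by
  constructor
  · intro hx
    have hb := Subgroup.mem_subgroupOf.1 hx
    obtain ⟨a, ha, k, hk, e⟩ := good3G2.toGood2.mem_borel hb
    have hf : a * k ∈ (twG2 (RCtx.hperf (K := K)) RCtx.φ).fix := by
      rw [← e]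
      exact x.2
    obtain ⟨haf, hkf⟩ := TwN.borel_fix ha hk hf
    obtain ⟨t, u, v, e1⟩ := (mem_U_fix_iff RCtx.hperf RCtx.φ RCtx.hφ).1 ⟨ha, haf⟩
    obtain ⟨w, hw⟩ := mem_Tor.1 (show (⟨k, hkf⟩ : GR K) ∈ Tor K from Subgroup.mem_subgroupOf.2 hk)
    refine ⟨t, u, v, w, Subtype.ext ?_⟩
    show (x : GL chevG2.Idx K) = reeU RCtx.φ t u v * (dG w : GL chevG2.Idx K)
    rw [e, e1, ← hw]
  · rintro ⟨t, u, v, w, rfl⟩
    refine Subgroup.mem_subgroupOf.2 ?_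
    exact Subgroup.mul_mem _ (Tbl.Good2.le_borel_U (reeU_mem_U RCtx.φ t u v)) (Tbl.Good2.le_borel_H (dG_diag w))

lemma Uni_le_Bor : Uni K ≤ Bor K := by
  intro x hx
  obtain ⟨t, u, v, rfl⟩ := mem_Uni.1 hx
  have := mem_Bor.2 ⟨t, u, v, 1, by rw [dG_one, mul_one]⟩
  exact this

lemma Tor_le_Bor : Tor K ≤ Bor K := by
  intro x hx
  obtain ⟨w, rfl⟩ := mem_Tor.1 hx
  exact mem_Bor.2 ⟨0, 0, 0, w, by rw [uG_zero, one_mul]⟩

lemma Tor_inf_Uni {x : GR K} (h1 : x ∈ Tor K) (h2 : x ∈ Uni K) : x = 1 := by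
  have h3 : (x : GL chevG2.Idx K) ∈ chevG2.posUnipotent K := Subgroup.mem_subgroupOf.1 h2
  have h4 : (x : GL chevG2.Idx K) ∈ chevG2.diagonalSubgroup K := Subgroup.mem_subgroupOf.1 h1
  obtain ⟨w, rfl⟩ := mem_Tor.1 h1
  obtain ⟨t, u, v, e⟩ := mem_Uni.1 h2
  -- the torus acts on the root elements according to the character
  have e1 := dG_conj w 1 0 0
  rw [e, mul_one, mul_zero, mul_zero] at e1
  have h5 : uG t u v * uG 1 0 0 * (uG t u v)⁻¹ = uG (w : K) 0 0 := e1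
  -- the first coordinate is a homomorphism
  have h6 : uG t u v * uG 1 0 0 = uG (w : K) 0 0 * uG t u v := by
    rw [← h5]
    group
  rw [uG_mul, uG_mul] at h6
  have h7 := (uG_inj h6).1
  have h8 : (w : K) = 1 := by linear_combination -h7
  have h9 : w = 1 := Units.ext h8
  rw [h9, dG_one]

end Cfsg.Agent.Lib.ReeAut
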