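/-
The automorphism group of the small Ree group: rigidity.
-/
import Cfsg.Agent.Lib.ReeAut.G2a

set_option autoImplicit false
set_option maxRecDepth 100000

namespace Cfsg.Agent.Lib.ReeAut

open Cfsg.Lie Cfsg.Agent.Lib.Chev

variable {K : Type*} [Field K] [Fintype K] [CharP K 3] [RCtx K]

/-- The representative of the nontrivial Weyl element. -/
noncomputable def nG : GR K := nFix RCtx.hperf RCtx.φ RCtx.hφ

lemma exists_good : ∃ s : K, s ≠ 0 ∧ s ^ 2 ≠ 1 ∧ sg s ≠ s := by
  obtain ⟨s, h0, h1⟩ := exists_sq_ne (m := RCtx.m (K := K)) RCtx.hm RCtx.hK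
  refine ⟨s, h0, h1, fun h => ?_⟩
  have h2 := sg_sg s
  rw [h, h] at h2
  apply h1
  have h3 : s * s ^ 2 = s * 1 := by
    rw [mul_one]
    calc s * s ^ 2 = s ^ 3 := by ring
      _ = s := h2.symm
  exact mul_left_cancel₀ h0 h3

/-- A nontrivial element of `U` conjugated into `U` by `x` forces `x` to lie in `B`. -/
lemma TI_lem {x y : GR K} (hy : y ∈ Uni K) (hy1 : y ≠ 1) (hxy : x * y * x⁻¹ ∈ Uni K) : x ∈ Bor K := by
  rcases fix_bruhat RCtx.hperf RCtx.φ RCtx.hφ x.2 with hb | ⟨u, hu, b, hb, e⟩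
  · exact Subgroup.mem_subgroupOf.2 hb
  · exfalso
    apply hy1
    have hy' : (y : GL chevG2.Idx K) ∈ chevG2.posUnipotent K := Subgroup.mem_subgroupOf.1 hy
    have hxy' : ((x * y * x⁻¹ : GR K) : GL chevG2.Idx K) ∈ chevG2.posUnipotent K := Subgroup.mem_subgroupOf.1 hxy
    have h1 := U_inter_big hxy' hy' (Subgroup.mem_inf.1 hu).1 (Subgroup.mem_inf.1 hb).1 (by
      rw [← e]
      rfl)
    have h2 : x * y * x⁻¹ = 1 := Subtype.ext h1
    have h3 : y = x⁻¹ * (x * y * x⁻¹) * x := by group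
    rw [h3, h2]
    group

lemma X1_ne : uG (1 : K) 0 0 ≠ 1 := by
  intro h
  rw [← uG_zero] at h
  exact one_ne_zero (uG_inj h).1

lemma X1_mem : uG (1 : K) 0 0 ∈ Uni K := uG_mem _ _ _

lemma Bor_conj_Uni {b x : GR K} (hb : b ∈ Bor K) (hx : x ∈ Uni K) : b * x * b⁻¹ ∈ Uni K :=
  Subgroup.mem_subgroupOf.2 (borel_normalizes (Subgroup.mem_subgroupOf.1 hb) (Subgroup.mem_subgroupOf.1 hx))

lemma norm_Uni : Subgroup.normalizer (Uni K : Set (GR K)) = Bor K := by
  ext x
  rw [Subgroup.mem_normalizer_iff]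
  constructor
  · intro h
    exact TI_lem X1_mem X1_ne ((h _).1 X1_mem)
  · intro hx y
    refine ⟨fun hy => Bor_conj_Uni hx hy, fun hy => ?_⟩
    have := Bor_conj_Uni (inv_mem hx) hy
    have e : x⁻¹ * (x * y * x⁻¹) * x⁻¹⁻¹ = y := by group
    rwa [e] at this

lemma nG_not_mem : (nG : GR K) ∉ Bor K := by
  intro h
  have h1 := Bor_conj_Uni h (X1_mem (K := K))
  have h2 : ((nG * uG (1 : K) 0 0 * nG⁻¹ : GR K) : GL chevG2.Idx K) ∈ chevG2.negUnipotent K :=
    n0_conj_U (reeU_mem_U RCtx.φ 1 0 0)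
  have h3 : ((nG * uG (1 : K) 0 0 * nG⁻¹ : GR K) : GL chevG2.Idx K) ∈ chevG2.borelSubgroup K ⊓ chevG2.negUnipotent K :=
    ⟨Tbl.Good2.le_borel_U (Subgroup.mem_subgroupOf.1 h1), h2⟩
  rw [good3G2.toGood2.borel_inf_V, Subgroup.mem_bot] at h3
  have h4 : nG * uG (1 : K) 0 0 * nG⁻¹ = 1 := Subtype.ext h3
  apply X1_ne (K := K)
  have h5 : uG (1 : K) 0 0 = nG⁻¹ * (nG * uG (1 : K) 0 0 * nG⁻¹) * nG := by group
  rw [h5, h4]
  group

lemma nG_conj_Tor {z : GR K} (hz : z ∈ Tor K) : (nG : GR K)⁻¹ * z * nG ∈ Tor K := by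
  refine Subgroup.mem_subgroupOf.2 ?_
  have := good3G2.toGood2.N_conj_H (Subgroup.inv_mem _ (n0G2_mem_N (K := K))) (Subgroup.mem_subgroupOf.1 hz)
  rw [inv_inv] at this
  exact this

/-- The core of the Borel subgroup. -/
lemma core_Bor {y : GR K} (h : ∀ x : GR K, x * y * x⁻¹ ∈ Bor K) : y = 1 := by
  have h1 : y ∈ (Bor K).normalCore := h
  rw [show (Bor K).normalCore = ⊥ from coreG2 RCtx.hperf RCtx.φ RCtx.hφ] at h1
  exact h1

/-- An automorphism fixing the Borel subgroup elementwise is trivial. -/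
lemma rig0 (β : MulAut (GR K)) (hU : ∀ t u v : K, β (uG t u v) = uG t u v) (hT : ∀ w : Kˣ, β (dG w) = dG w) : β = 1 := by
  have hB : ∀ g : GR K, g ∈ Bor K → β g = g := by
    intro g hg
    obtain ⟨t, u, v, w, rfl⟩ := mem_Bor.1 hg
    rw [map_mul, hU, hT]
  set w' := β (nG : GR K) with hw'
  have hw'B : w' ∉ Bor K := by
    intro h
    have e : β w' = w' := hB _ h
    have e2 : w' = nG := β.injective e
    exact nG_not_mem (e2 ▸ h)
  have hst : ∀ z₁ ∈ Tor K, z₁ ∈ MulAction.stabilizer (GR K) (cosG2 RCtx.hperf RCtx.φ w') := by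
    intro z₁ hz₁
    set z := (nG : GR K)⁻¹ * z₁ * nG with hz
    have hzT : z ∈ Tor K := nG_conj_Tor hz₁
    have e1 : β z = z := hB z (Tor_le_Bor hzT)
    have e2 : β z₁ = z₁ := hB z₁ (Tor_le_Bor hz₁)
    have e3 : z₁ * w' = w' * z := by
      have e5 : nG * z = z₁ * nG := by
        rw [hz]
        group
      have e4 := congrArg β e5
      rw [map_mul β nG z, map_mul β z₁ nG, e1, e2] at e4
      exact e4.symm
    rw [MulAction.mem_stabilizer_iff, smul_cos, cos_eq]
    have e6 : ((z₁ * w' : GR K) : GL chevG2.Idx K)⁻¹ * (w' : GL chevG2.Idx K) = (z : GL chevG2.Idx K)⁻¹ := by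
      rw [e3]
      show ((w' : GL chevG2.Idx K) * z)⁻¹ * w' = _
      group
    rw [e6]
    exact inv_mem (Subgroup.mem_subgroupOf.1 (Tor_le_Bor hzT))
  have hcos : cosG2 RCtx.hperf RCtx.φ w' = cosG2 RCtx.hperf RCtx.φ nG := by
    rcases coset_cases RCtx.hperf RCtx.φ RCtx.hφ w' with h | ⟨u, hu, h⟩
    · exfalso
      apply hw'B
      rw [cos_eq] at h
      have h2 := inv_mem h
      refine Subgroup.mem_subgroupOf.2 ?_
      simpa using h2
    · obtain ⟨s, h0, h1, -⟩ := exists_good (K := K)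
      let s' : Kˣ := Units.mk0 s h0
      have hc := stab_three_comm RCtx.hperf RCtx.φ RCtx.hφ hu (dG_diag s') (by
        rw [← h]
        exact hst _ (dG_mem s'))
      have hs : ((chi7 (dZ s') : Kˣ) : K) ^ 2 ≠ 1 := by
        rw [chi7_dZ, ← map_pow]
        intro h3
        exact h1 ((map_eq_one_iff _ (RCtx.φ (K := K)).injective).1 h3)
      obtain ⟨h6, h10, h11⟩ := chi_ne RCtx.hperf RCtx.φ RCtx.hφ (z := dZ s') (dG s').2 hs
      rw [chi6_dZ] at h6
      rw [chi10_dZ] at h10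
      rw [chi11_dZ] at h11
      obtain ⟨a, b, c, rfl⟩ := mem_Uni.1 (Subgroup.mem_subgroupOf.2 hu : u ∈ Uni K)
      have e1 : dG s' * uG a b c * (dG s')⁻¹ = uG a b c := Subtype.ext hc
      rw [dG_conj] at e1
      obtain ⟨e2, e3, e4⟩ := uG_inj e1
      have key : ∀ {α x : K}, α ≠ 1 → α * x = x → x = 0 := by
        intro α x hα hx
        have : (α - 1) * x = 0 := by rw [sub_mul, one_mul, hx, sub_self]
        rcases mul_eq_zero.1 this with h0 | h0
        · exact absurd (sub_eq_zero.1 h0) hα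
        · exact h0
      have ha := key h6 e2
      have hb := key h10 e3
      have hc' := key h11 e4
      subst ha hb hc'
      rw [uG_zero, one_mul] at h
      exact h
  have hall : ∀ g : GR K, cosG2 RCtx.hperf RCtx.φ (β g) = cosG2 RCtx.hperf RCtx.φ g := by
    intro g
    rcases coset_cases RCtx.hperf RCtx.φ RCtx.hφ g with h | ⟨u, hu, h⟩
    · have hg : g ∈ Bor K := by
        rw [cos_eq] at h
        have h2 := inv_mem h
        refine Subgroup.mem_subgroupOf.2 ?_
        simpa using h2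
      rw [hB g hg]
    · have huB : u ∈ Bor K := Uni_le_Bor (Subgroup.mem_subgroupOf.2 hu)
      have hb : (nG : GR K)⁻¹ * u⁻¹ * g ∈ Bor K := by
        rw [cos_eq] at h
        have h2 := inv_mem h
        refine Subgroup.mem_subgroupOf.2 ?_
        have e : ((g : GL chevG2.Idx K)⁻¹ * ((u * nFix RCtx.hperf RCtx.φ RCtx.hφ : GR K) : GL chevG2.Idx K))⁻¹ =
            (((nG : GR K)⁻¹ * u⁻¹ * g : GR K) : GL chevG2.Idx K) := by
          show ((g : GL chevG2.Idx K)⁻¹ * ((u : GL chevG2.Idx K) * ((nG : GR K) : GL chevG2.Idx K)))⁻¹ = ((nG : GR K) : GL chevG2.Idx K)⁻¹ * (u : GL chevG2.Idx K)⁻¹ * g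
          group
        rwa [e] at h2
      set b := (nG : GR K)⁻¹ * u⁻¹ * g with hbd
      have eg : g = u * nG * b := by
        rw [hbd]
        group
      have e1 : β g = u * (w' * b) := by
        rw [eg, map_mul, map_mul, hB u huB, hB b hb, ← hw', mul_assoc]
      rw [e1, h]
      show ((u * (w' * b) : GR K) : GR K ⧸ Bor K) = ((u * nG : GR K) : GR K ⧸ Bor K)
      have e2 : ((w' * b : GR K) : GR K ⧸ Bor K) = (w' : GR K ⧸ Bor K) := QuotientGroup.mk_mul_of_mem _ hb
      have e3 : (u • ((w' * b : GR K) : GR K ⧸ Bor K)) = u • ((nG : GR K) : GR K ⧸ Bor K) := by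
        rw [e2]
        exact congrArg (fun c => u • c) hcos
      exact e3
  refine MulEquiv.ext fun g => ?_
  show β g = g
  have hy : g⁻¹ * β g = 1 := by
    apply core_Bor
    intro x
    have h1 : cosG2 RCtx.hperf RCtx.φ (β g * x⁻¹) = cosG2 RCtx.hperf RCtx.φ (g * x⁻¹) := by
      calc cosG2 RCtx.hperf RCtx.φ (β g * x⁻¹) = β g • cosG2 RCtx.hperf RCtx.φ x⁻¹ := rfl
        _ = β g • cosG2 RCtx.hperf RCtx.φ (β x⁻¹) := by rw [hall]
        _ = cosG2 RCtx.hperf RCtx.φ (β (g * x⁻¹)) := by rw [map_mul]; rfl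
        _ = _ := hall _
    rw [cos_eq] at h1
    have h2 := inv_mem h1
    refine Subgroup.mem_subgroupOf.2 ?_
    have e : (((β g * x⁻¹ : GR K) : GL chevG2.Idx K)⁻¹ * ((g * x⁻¹ : GR K) : GL chevG2.Idx K))⁻¹ =
        ((x * (g⁻¹ * β g) * x⁻¹ : GR K) : GL chevG2.Idx K) := by
      show (((β g : GL chevG2.Idx K) * (x : GL chevG2.Idx K)⁻¹)⁻¹ * ((g : GL chevG2.Idx K) * (x : GL chevG2.Idx K)⁻¹))⁻¹ =
        (x : GL chevG2.Idx K) * ((g : GL chevG2.Idx K)⁻¹ * (β g : GL chevG2.Idx K)) * (x : GL chevG2.Idx K)⁻¹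
      group
    rwa [e] at h2
  exact (inv_mul_eq_one.1 hy).symm

/-- The inverse of the weight on the last coordinate. -/
lemma weight_surj (x : K) : (x ^ 2 * (sg x)⁻¹) ^ 2 * sg (x ^ 2 * (sg x)⁻¹) = x := by
  by_cases hx : x = 0
  · subst hx
    simp [sg_zero]
  · have h1 : sg (x ^ 2 * (sg x)⁻¹) = (sg x) ^ 2 * (x ^ 3)⁻¹ := by
      have e : ∀ y : K, y ≠ 0 → sg y⁻¹ = (sg y)⁻¹ := by
        intro y hy
        apply eq_inv_of_mul_eq_one_left
        rw [← sg_mul, inv_mul_cancel₀ hy, sg_one]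
      rw [sg_mul, pow_two, sg_mul, e _ (sg_ne_zero hx), sg_sg]
      ring
    rw [h1]
    have h2 := sg_ne_zero hx
    field_simp

lemma dG_neg_conj (t u v : K) : dG (-1 : Kˣ) * uG t u v * (dG (-1 : Kˣ))⁻¹ = uG (-t) u (-v) := by
  rw [dG_conj]
  simp [sg_neg, sg_one]

lemma two_ne : (2 : K) ≠ 0 := by
  intro h
  have h3 := three_eq_zero (K := K)
  have : (1 : K) = 0 := by linear_combination h3 - h
  exact one_ne_zero this

/-- Automorphisms fixing the torus and the first coordinate of `U` are trivial. -/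
lemma rig1 (β : MulAut (GR K)) (hX : ∀ t : K, ∃ u v, β (uG t 0 0) = uG t u v)
    (hY : ∀ u v : K, ∃ u' v', β (uG 0 u v) = uG 0 u' v') (hT : ∀ w : Kˣ, β (dG w) = dG w) : β = 1 := by
  choose b c hbc using hX
  choose g k hgk using hY
  have h2 := two_ne (K := K)
  have h3 := three_eq_zero (K := K)
  have hadd : ∀ u v u' v', g (u + u') (v + v') = g u v + g u' v' ∧ k (u + u') (v + v') = k u v + k u' v' := by
    intro u v u' v'
    have e := congrArg β (uG_zero_mul u v u' v')
    rw [map_mul, hgk, hgk, hgk, uG_zero_mul] at e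
    obtain ⟨_, e1, e2⟩ := uG_inj e
    exact ⟨e1.symm, e2.symm⟩
  have hinv : ∀ u v, g u (-v) = g u v ∧ k u (-v) = -k u v := by
    intro u v
    have e := congrArg β (dG_neg_conj 0 u v)
    rw [map_mul, map_mul, map_inv, hT, hgk, dG_neg_conj, neg_zero, hgk] at e
    obtain ⟨_, e1, e2⟩ := uG_inj e
    exact ⟨e1.symm, e2.symm⟩
  have hg0 : ∀ v, g 0 v = 0 := by
    intro v
    have e1 := (hadd 0 v 0 (-v)).1
    rw [add_zero, add_neg_cancel, (hinv 0 v).1] at e1
    have e2 := (hadd 0 0 0 0).1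
    rw [add_zero] at e2
    have e3 : g 0 0 = 0 := by linear_combination -e2
    rw [e3] at e1
    have : (2 : K) * g 0 v = 0 := by linear_combination -e1
    exact (mul_eq_zero.1 this).resolve_left h2
  have hk0 : ∀ u, k u 0 = 0 := by
    intro u
    have e1 := (hinv u 0).2
    rw [neg_zero] at e1
    have : (2 : K) * k u 0 = 0 := by linear_combination e1
    exact (mul_eq_zero.1 this).resolve_left h2
  have hY' : ∀ u v, β (uG 0 u v) = uG 0 (g u 0) (k 0 v) := by
    intro u v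
    rw [hgk]
    have e1 := (hadd u 0 0 v).1
    have e2 := (hadd u 0 0 v).2
    rw [add_zero, zero_add] at e1 e2
    rw [e1, e2, hg0, hk0, add_zero, zero_add]
  set G : K → K := fun u => g u 0 with hG
  set L : K → K := fun v => k 0 v with hL
  have hGadd : ∀ x y, G (x + y) = G x + G y := by
    intro x y
    have := (hadd x 0 y 0).1
    rwa [add_zero] at this
  have hLadd : ∀ x y, L (x + y) = L x + L y := by
    intro x y
    have := (hadd 0 x 0 y).2
    rwa [add_zero] at this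
  have hG0 : G 0 = 0 := by
    have := hGadd 0 0
    rw [add_zero] at this
    linear_combination -this
  have hL0 : L 0 = 0 := by
    have := hLadd 0 0
    rw [add_zero] at this
    linear_combination -this
  have hGneg : ∀ x, G (-x) = -G x := by
    intro x
    have := hGadd x (-x)
    rw [add_neg_cancel, hG0] at this
    linear_combination -this
  have hLneg : ∀ x, L (-x) = -L x := by
    intro x
    have := hLadd x (-x)
    rw [add_neg_cancel, hL0] at this
    linear_combination -this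
  have hb0 : b 0 = 0 ∧ c 0 = 0 := by
    have e := hbc 0
    rw [uG_zero, map_one, ← uG_zero] at e
    obtain ⟨_, e1, e2⟩ := uG_inj e
    exact ⟨e1.symm, e2.symm⟩
  set b₁ := b 1 with hb₁
  set c₁ := c 1 with hc₁
  have hb : ∀ t, b t = t * sg t * b₁ ∧ c t = t ^ 2 * sg t * c₁ := by
    intro t
    by_cases ht : t = 0
    · subst ht
      simp [hb0, sg_zero]
    · let w : Kˣ := Units.mk0 t ht
      have e := dG_conj w 1 0 0
      have e1 := congrArg β e
      rw [map_mul, map_mul, map_inv, hT, hbc, dG_conj] at e1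
      simp only [mul_one, mul_zero] at e1
      rw [show ((w : Kˣ) : K) = t from rfl, hbc] at e1
      obtain ⟨_, e2, e3⟩ := uG_inj e1
      exact ⟨e2.symm, e3.symm⟩
  -- the main relation
  have hmain : ∀ t t', (-(sg t' * t) + b t + b t' = b (t + t') + G (-(sg t' * t))) ∧
      (-(sg t' * t ^ 2) + c t - t' * (-(sg t' * t) + b t) + c t' =
        c (t + t') + L (-(sg t' * t ^ 2) - t' * (-(sg t' * t))) ) := by
    intro t t'
    have e : uG t 0 0 * uG t' 0 0 = uG (t + t') 0 0 * uG 0 (-(sg t' * t)) (-(sg t' * t ^ 2) - t' * (-(sg t' * t))) := by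
      rw [uG_mul, uG_mul_zero]
      congr 1
      · ring
      · ring
    have e1 := congrArg β e
    rw [map_mul, map_mul, hbc, hbc, hbc, hY', uG_mul, uG_mul_zero] at e1
    obtain ⟨_, e2, e3⟩ := uG_inj e1
    exact ⟨e2, e3⟩
  obtain ⟨s, hs0, hs1, hs2⟩ := exists_good (K := K)
  have hs3 : s ^ 3 ≠ s := by
    intro h
    apply hs1
    have h4 : s * s ^ 2 = s * 1 := by
      rw [mul_one]
      calc s * s ^ 2 = s ^ 3 := by ring
        _ = s := h
    exact mul_left_cancel₀ hs0 h4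
  -- the second coordinate
  have hGf : ∀ t, G t = b₁ * (t + sg t) + t := by
    intro t
    have e := (hmain t 1).1
    rw [sg_one, one_mul, hGneg, (hb t).1, (hb 1).1, (hb (t + 1)).1, sg_add, sg_one] at e
    linear_combination e
  have hb₁0 : b₁ = 0 := by
    have e := (hmain 1 s).1
    rw [mul_one, hGneg, hGf, sg_sg, (hb 1).1, (hb s).1, (hb (1 + s)).1, sg_add, sg_one] at e
    have e2 : b₁ * (s ^ 3 - s) = 0 := by linear_combination e
    exact (mul_eq_zero.1 e2).resolve_right (sub_ne_zero.2 hs3)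
  have hbz : ∀ t, b t = 0 := fun t => by rw [(hb t).1, hb₁0, mul_zero]
  have hGid : ∀ t, G t = t := fun t => by rw [hGf, hb₁0, zero_mul, zero_add]
  -- the third coordinate
  have hLid : ∀ x, L x = x := by
    intro x
    obtain ⟨t, rfl⟩ : ∃ t : K, t ^ 2 * sg t = x := ⟨_, weight_surj x⟩
    have e := (hmain t (-t)).2
    simp only [hbz] at e
    rw [sg_neg, add_neg_cancel, (hb t).2, (hb (-t)).2, (hb 0).2, sg_neg, sg_zero] at e
    have e2 : -(-sg t * t ^ 2) - -t * -(-sg t * t) = -(t ^ 2 * sg t) := by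
      linear_combination (t ^ 2 * sg t) * h3
    rw [e2, hLneg] at e
    linear_combination e - (t ^ 2 * sg t) * h3
  have hc₁0 : c₁ = 0 := by
    have e := (hmain s 1).2
    simp only [hbz] at e
    rw [sg_one, hLid, (hb s).2, (hb 1).2, (hb (s + 1)).2, sg_add, sg_one] at e
    have e2 : c₁ * ((s - 1) * (s - sg s)) = 0 := by
      linear_combination -e - (c₁ * s * sg s + c₁ * s) * h3
    rcases mul_eq_zero.1 e2 with h | h
    · exact h
    · exfalso
      rcases mul_eq_zero.1 h with h | h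
      · have h5 : s = 1 := sub_eq_zero.1 h
        apply hs1
        rw [h5, one_pow]
      · exact hs2 (sub_eq_zero.1 h).symm
  have hcz : ∀ t, c t = 0 := fun t => by rw [(hb t).2, hc₁0, mul_zero]
  apply rig0 β
  · intro t u v
    rw [← uG_dec, map_mul, hbc, hY', hbz, hcz]
    show uG t 0 0 * uG 0 (G u) (L v) = _
    rw [hGid, hLid]
  · exact hT

end Cfsg.Agent.Lib.ReeAut
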