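/-
The automorphism group of the small Ree group: field automorphisms and the decomposition.
-/
import Cfsg.Agent.Lib.ReeAut.G2b
import Cfsg.Agent.Lib.ReeAut.FieldGen
import Cfsg.Prelude.Def_KGroupFacts

set_option autoImplicit false
set_option maxRecDepth 100000

namespace Cfsg.Agent.Lib.ReeAut

open Cfsg.Lie Cfsg.Agent.Lib.Chev

variable {K : Type*} [Field K] [Fintype K] [CharP K 3] [RCtx K]

lemma theta_phi (θ : K ≃+* K) (x : K) : θ (RCtx.φ x) = RCtx.φ (θ x) := by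
  rw [RCtx.hq, RCtx.hq, map_pow]

lemma theta_sg (θ : K ≃+* K) (x : K) : θ (sg x) = sg (θ x) := by
  simp only [sg, map_pow, theta_phi]

lemma glMap_reeU (θ : K ≃+* K) (t u v : K) :
    glMap chevG2 θ (reeU RCtx.φ t u v) = reeU RCtx.φ (θ t) (θ u) (θ v) := by
  unfold reeU
  rw [ggG2_eq_gW, ggG2_eq_gW]
  simp only [Tbl.Good2.gW_cons, Tbl.Good2.gW_nil, map_mul, map_one, mul_one, glMap_xN, map_add, map_pow, theta_phi]

lemma glMap_n0 (θ : K ≃+* K) : glMap chevG2 θ n0G2 = n0G2 := by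
  rw [n0G2_eq]
  simp only [map_mul, glMap_xN, map_one, map_neg]

lemma glMap_reeV (θ : K ≃+* K) (t u v : K) :
    glMap chevG2 θ (reeV RCtx.φ t u v) = reeV RCtx.φ (θ t) (θ u) (θ v) := by
  unfold reeV
  rw [map_mul, map_mul, map_inv, glMap_n0, glMap_reeU]

lemma glMap_fix (θ : K ≃+* K) {g : GL chevG2.Idx K} (hg : g ∈ (twG2 (RCtx.hperf (K := K)) RCtx.φ).fix) :
    glMap chevG2 θ g ∈ (twG2 (RCtx.hperf (K := K)) RCtx.φ).fix := by
  let G1 : Subgroup (GL chevG2.Idx K) := (twG2 (RCtx.hperf (K := K)) RCtx.φ).fix ⊓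
    (twG2 (RCtx.hperf (K := K)) RCtx.φ).fix.comap (glMap chevG2 θ).toMonoidHom
  have h : (twG2 (RCtx.hperf (K := K)) RCtx.φ).fix ≤ G1 :=
    fix_le_G2 RCtx.hperf RCtx.φ RCtx.hφ sq_case inf_le_left
      (fun t u v => ⟨reeU_fix _ _ RCtx.hφ t u v, by
        show glMap chevG2 θ (reeU RCtx.φ t u v) ∈ (twG2 (RCtx.hperf (K := K)) RCtx.φ).fix
        rw [glMap_reeU]
        exact reeU_fix _ _ RCtx.hφ _ _ _⟩)
      (fun t u v => ⟨reeV_fix _ _ RCtx.hφ t u v, by
        show glMap chevG2 θ (reeV RCtx.φ t u v) ∈ (twG2 (RCtx.hperf (K := K)) RCtx.φ).fix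
        rw [glMap_reeV]
        exact reeV_fix _ _ RCtx.hφ _ _ _⟩)
  exact (h hg).2

/-- The field automorphism on the group. -/
noncomputable def fieldA (θ : K ≃+* K) : MulAut (GR K) where
  toFun g := ⟨glMap chevG2 θ g.1, glMap_fix θ g.2⟩
  invFun g := ⟨glMap chevG2 θ.symm g.1, glMap_fix θ.symm g.2⟩
  left_inv g := Subtype.ext (glMap_symm chevG2 θ.symm g.1)
  right_inv g := Subtype.ext (glMap_symm chevG2 θ g.1)
  map_mul' a b := Subtype.ext (map_mul (glMap chevG2 θ) a.1 b.1)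

lemma fieldA_coe (θ : K ≃+* K) (g : GR K) : ((fieldA θ g : GR K) : GL chevG2.Idx K) = glMap chevG2 θ g := rfl

lemma fieldA_uG (θ : K ≃+* K) (t u v : K) : fieldA θ (uG t u v) = uG (θ t) (θ u) (θ v) :=
  Subtype.ext (glMap_reeU θ t u v)

lemma fieldA_inv (θ : K ≃+* K) : (fieldA θ)⁻¹ = fieldA θ.symm := rfl

lemma fieldA_mul (θ θ' : K ≃+* K) : fieldA (θ * θ') = fieldA θ * fieldA θ' := by
  ext g i j
  rfl

lemma fieldA_dG (θ : K ≃+* K) (w : Kˣ) : fieldA θ (dG w) = dG (Units.map (θ : K →* K) w) := by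
  have h1 : fieldA θ (dG w) ∈ Tor K := Subgroup.mem_subgroupOf.2 (glMap_H θ (dG_diag w))
  obtain ⟨w', hw'⟩ := mem_Tor.1 h1
  have e := congrArg (fieldA θ) (dG_conj w 1 0 0)
  rw [map_mul, map_mul, map_inv, hw', fieldA_uG, fieldA_uG, dG_conj] at e
  simp only [mul_one, mul_zero, map_zero, map_one] at e
  have h2 : ((w' : Kˣ) : K) = θ (w : K) := (uG_inj e).1
  rw [hw']
  congr 1
  exact Units.ext h2

/-- The field automorphisms as a homomorphism. -/
noncomputable def fieldHom (K : Type*) [Field K] [Fintype K] [CharP K 3] [RCtx K] : (K ≃+* K) →* MulAut (GR K) :=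
  MonoidHom.mk' fieldA fieldA_mul

/-! ### Rigidity -/

lemma cube_X1_ne : uG (1 : K) 0 0 ^ 3 ≠ 1 := by
  intro h
  exact one_ne_zero ((uG_cube_eq_one_iff _ _ _).1 h)

lemma rig2 (β : MulAut (GR K)) (hU : ∀ t u v : K, ∃ t' u' v', β (uG t u v) = uG t' u' v')
    (hT : ∀ w : Kˣ, ∃ w', β (dG w) = dG w') (h1 : ∃ u v : K, β (uG 1 0 0) = uG 1 u v) :
    ∃ θ : K ≃+* K, β = fieldA θ := by
  choose A B C hABC using fun t : K => hU t 0 0
  choose τ hτ using hT
  have hZ : ∀ u v : K, ∃ u' v', β (uG 0 u v) = uG 0 u' v' := by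
    intro u v
    obtain ⟨a, b, c, e⟩ := hU 0 u v
    have h3 : uG 0 u v ^ 3 = 1 := (uG_cube_eq_one_iff _ _ _).2 rfl
    have h4 : uG a b c ^ 3 = 1 := by
      rw [← e, ← map_pow, h3, map_one]
    have h5 := (uG_cube_eq_one_iff _ _ _).1 h4
    subst h5
    exact ⟨b, c, e⟩
  choose g k hgk using hZ
  have hadd : ∀ a c : K, A (a + c) = A a + A c := by
    intro a c
    have e : uG a 0 0 * uG c 0 0 = uG (a + c) 0 0 * uG 0 (-(sg c * a)) (-(sg c * a ^ 2) - c * (-(sg c * a))) := by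
      rw [uG_mul, uG_mul_zero]
      congr 1
      · ring
      · ring
    have e1 := congrArg β e
    rw [map_mul, map_mul, hABC, hABC, hABC, hgk, uG_mul, uG_mul_zero] at e1
    exact (uG_inj e1).1.symm
  have hscale : ∀ (w : Kˣ) (t : K), A ((w : K) * t) = (τ w : K) * A t := by
    intro w t
    have e := dG_conj w t 0 0
    simp only [mul_zero] at e
    have e1 := congrArg β e
    rw [map_mul, map_mul, map_inv, hτ, hABC, dG_conj, hABC] at e1
    exact (uG_inj e1).1.symm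
  have hA1 : A 1 = 1 := by
    obtain ⟨u, v, e⟩ := h1
    exact (uG_inj ((hABC 1).symm.trans e)).1
  have hA0 : A 0 = 0 := by
    have := hadd 0 0
    rw [add_zero] at this
    linear_combination -this
  have hmul : ∀ x a : K, A (x * a) = A x * A a := by
    intro x a
    by_cases hx : x = 0
    · rw [hx, zero_mul, hA0, zero_mul]
    · have e1 := hscale (Units.mk0 x hx) a
      have e2 := hscale (Units.mk0 x hx) 1
      rw [mul_one, hA1, mul_one] at e2
      rw [Units.val_mk0] at e1 e2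
      rw [e1, e2]
  let σ : K →+* K :=
    { toFun := A, map_one' := hA1, map_mul' := hmul, map_zero' := hA0, map_add' := hadd }
  have hbij : Function.Bijective σ := ⟨σ.injective, Finite.surjective_of_injective σ.injective⟩
  let θ : K ≃+* K := RingEquiv.ofBijective σ hbij
  have hθ : ∀ x, θ x = A x := fun _ => rfl
  refine ⟨θ, ?_⟩
  have key : (fieldA θ)⁻¹ * β = 1 := by
    apply rig1
    · intro t
      refine ⟨θ.symm (B t), θ.symm (C t), ?_⟩
      rw [MulAut.mul_apply, hABC, fieldA_inv, fieldA_uG]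
      congr 1
      rw [RingEquiv.symm_apply_eq, hθ]
    · intro u v
      refine ⟨θ.symm (g u v), θ.symm (k u v), ?_⟩
      rw [MulAut.mul_apply, hgk, fieldA_inv, fieldA_uG, map_zero]
    · intro w
      rw [MulAut.mul_apply, hτ, fieldA_inv, fieldA_dG]
      congr 1
      apply Units.ext
      show θ.symm ((τ w : Kˣ) : K) = w
      rw [RingEquiv.symm_apply_eq, hθ]
      have e2 := hscale w 1
      rw [mul_one, hA1, mul_one] at e2
      exact e2.symm
  exact (inv_mul_eq_one.mp key).symm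

lemma rig3 (β : MulAut (GR K)) (hU : ∀ t u v : K, ∃ t' u' v', β (uG t u v) = uG t' u' v')
    (hT : ∀ w : Kˣ, ∃ w', β (dG w) = dG w') :
    ∃ (g : GR K) (θ : K ≃+* K), β = MulAut.conj g * fieldA θ := by
  obtain ⟨c0, e0, f0, h0⟩ := hU 1 0 0
  have hc0 : c0 ≠ 0 := by
    rintro rfl
    apply cube_X1_ne (K := K)
    apply β.injective
    rw [map_pow, h0, (uG_cube_eq_one_iff _ _ _).2 rfl, map_one]
  let l : Kˣ := Units.mk0 c0⁻¹ (inv_ne_zero hc0)
  have hl : ((l : Kˣ) : K) = c0⁻¹ := rfl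
  have hU' : ∀ t u v : K, ∃ t' u' v', (MulAut.conj (dG l) * β) (uG t u v) = uG t' u' v' := by
    intro t u v
    obtain ⟨t', u', v', e⟩ := hU t u v
    rw [MulAut.mul_apply, e, MulAut.conj_apply, dG_conj]
    exact ⟨_, _, _, rfl⟩
  have hT' : ∀ k : Kˣ, ∃ k', (MulAut.conj (dG l) * β) (dG k) = dG k' := by
    intro k
    obtain ⟨k', e⟩ := hT k
    refine ⟨k', ?_⟩
    rw [MulAut.mul_apply, e, MulAut.conj_apply, ← dG_inv, ← dG_mul, ← dG_mul, mul_comm l k', mul_inv_cancel_right]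
  have h1' : ∃ u v : K, (MulAut.conj (dG l) * β) (uG 1 0 0) = uG 1 u v := by
    rw [MulAut.mul_apply, h0, MulAut.conj_apply, dG_conj, hl, inv_mul_cancel₀ hc0]
    exact ⟨_, _, rfl⟩
  obtain ⟨θ, hθ⟩ := rig2 (MulAut.conj (dG l) * β) hU' hT' h1'
  refine ⟨(dG l)⁻¹, θ, ?_⟩
  rw [← hθ, map_inv, inv_mul_cancel_left]

/-! ### Normalising an automorphism -/

variable (K) in
lemma finite_GR : Finite (GR K) := inferInstance

theorem step1 (α : MulAut (GR K)) : ∃ g : GR K, ∀ x ∈ Uni K, g * α x * g⁻¹ ∈ Uni K := by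
  haveI : Fact (Nat.Prime 3) := ⟨Nat.prime_three⟩
  let S : Sylow 3 (GR K) := sylU RCtx.hperf RCtx.φ RCtx.hK RCtx.hφ
  obtain ⟨g, hg⟩ := MulAction.exists_smul_eq (GR K) (α • S) S
  refine ⟨g, fun x hx => ?_⟩
  have e1 : α x ∈ ((α • S : Sylow 3 (GR K)) : Subgroup (GR K)) := by
    rw [Sylow.pointwise_smul_def]
    exact Subgroup.smul_mem_pointwise_smul x α _ hx
  have e2 : MulAut.conj g (α x) ∈ ((g • α • S : Sylow 3 (GR K)) : Subgroup (GR K)) := by
    rw [Sylow.coe_subgroup_smul]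
    exact Subgroup.smul_mem_pointwise_smul _ (MulAut.conj g) _ e1
  rw [hg] at e2
  exact e2

lemma Uni_iff (β : MulAut (GR K)) (hU : ∀ x ∈ Uni K, β x ∈ Uni K) (x : GR K) :
    β x ∈ Uni K ↔ x ∈ Uni K := by
  refine ⟨fun hx => ?_, hU x⟩
  have hle : (Uni K).map β.toMonoidHom ≤ Uni K := by
    rintro _ ⟨y, hy, rfl⟩
    exact hU y hy
  have hcard : Nat.card ((Uni K).map β.toMonoidHom) = Nat.card (Uni K) :=
    Subgroup.card_map_of_injective β.injective
  have heq : (Uni K).map β.toMonoidHom = Uni K :=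
    Subgroup.eq_of_le_of_card_ge hle hcard.ge
  rw [← heq] at hx
  obtain ⟨y, hy, e⟩ := hx
  rwa [← β.injective e]

lemma Bor_map (β : MulAut (GR K)) (hU : ∀ x ∈ Uni K, β x ∈ Uni K) {x : GR K}
    (hx : x ∈ Bor K) : β x ∈ Bor K := by
  rw [← norm_Uni] at hx ⊢
  rw [Subgroup.mem_normalizer_iff] at hx ⊢
  intro y
  obtain ⟨z, rfl⟩ := β.surjective y
  rw [← map_inv, ← map_mul, ← map_mul, Uni_iff β hU, Uni_iff β hU]
  exact hx z

lemma card_K_eq : Nat.card K = 3 ^ (2 * RCtx.m (K := K) + 1) := by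
  rw [Nat.card_eq_fintype_card, RCtx.hK]

lemma card_Uni : Nat.card (Uni K) = (3 ^ (2 * RCtx.m (K := K) + 1)) ^ 3 := by
  rw [card_u1G2, cardUG2 RCtx.hperf RCtx.φ RCtx.hφ, card_K_eq]

lemma card_Tor : Nat.card (Tor K) = 3 ^ (2 * RCtx.m (K := K) + 1) - 1 := by
  rw [← cardHG2 (m := RCtx.m (K := K)) RCtx.hperf RCtx.φ RCtx.hK RCtx.hφ]
  exact Nat.card_congr
    { toFun := fun x => ⟨x.1.1, x.2, x.1.2⟩
      invFun := fun x => ⟨⟨x.1, x.2.2⟩, x.2.1⟩
      left_inv := fun _ => rfl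
      right_inv := fun _ => rfl }

lemma card_Bor : Nat.card (Bor K) = (3 ^ (2 * RCtx.m (K := K) + 1)) ^ 3 * (3 ^ (2 * RCtx.m (K := K) + 1) - 1) := by
  rw [← card_Uni, ← card_Tor, card_u1G2]
  have h1 : Nat.card (Bor K) = Nat.card ↥(chevG2.borelSubgroup K ⊓ (twG2 (RCtx.hperf (K := K)) RCtx.φ).fix) :=
    Nat.card_congr
    { toFun := fun x => ⟨x.1.1, x.2, x.1.2⟩
      invFun := fun x => ⟨⟨x.1, x.2.2⟩, x.2.1⟩
      left_inv := fun _ => rfl
      right_inv := fun _ => rfl }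
  have h2 : Nat.card (Tor K) = Nat.card ↥(chevG2.diagonalSubgroup K ⊓ (twG2 (RCtx.hperf (K := K)) RCtx.φ).fix) :=
    Nat.card_congr
    { toFun := fun x => ⟨x.1.1, x.2, x.1.2⟩
      invFun := fun x => ⟨⟨x.1, x.2.2⟩, x.2.1⟩
      left_inv := fun _ => rfl
      right_inv := fun _ => rfl }
  rw [h1, h2]
  exact TwN.card_B_fix

theorem step2 (β : MulAut (GR K)) (hU : ∀ x ∈ Uni K, β x ∈ Uni K) :
    ∃ b ∈ Bor K, ∀ l : Kˣ, b * β (dG l) * b⁻¹ ∈ Tor K := by
  haveI : Fact (Nat.Prime 3) := ⟨Nat.prime_three⟩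
  set q := 3 ^ (2 * RCtx.m (K := K) + 1) with hq
  have hq0 : 1 ≤ q := Nat.one_le_pow _ _ (by norm_num)
  have hcop : Nat.Coprime (q ^ 3) (q - 1) := by
    apply Nat.Coprime.pow_left
    have := (Nat.coprime_self_sub_right hq0 (n := q) (m := 1))
    simpa using this
  haveI hNn : ((Uni K).subgroupOf (Bor K)).Normal := by
    apply Subgroup.normal_subgroupOf_of_le_normalizer
    rw [norm_Uni]
  have cU : Nat.card ((Uni K).subgroupOf (Bor K)) = q ^ 3 := by
    rw [Nat.card_congr (Subgroup.subgroupOfEquivOfLe Uni_le_Bor).toEquiv, card_Uni]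
  have cT : Nat.card ((Tor K).subgroupOf (Bor K)) = q - 1 := by
    rw [Nat.card_congr (Subgroup.subgroupOfEquivOfLe Tor_le_Bor).toEquiv, card_Tor]
  have hle : (Tor K).map β.toMonoidHom ≤ Bor K := by
    rintro _ ⟨y, hy, rfl⟩
    exact Bor_map β hU (Tor_le_Bor hy)
  have cT' : Nat.card (((Tor K).map β.toMonoidHom).subgroupOf (Bor K)) = q - 1 := by
    rw [Nat.card_congr (Subgroup.subgroupOfEquivOfLe hle).toEquiv,
      Subgroup.card_map_of_injective β.injective, card_Tor]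
  have cB : Nat.card (Bor K) = q ^ 3 * (q - 1) := card_Bor
  have cU' : (Nat.card ((Uni K).subgroupOf (Bor K))).Coprime ((Uni K).subgroupOf (Bor K)).index := by
    have hi : ((Uni K).subgroupOf (Bor K)).index = q - 1 := by
      have e := Subgroup.card_mul_index ((Uni K).subgroupOf (Bor K))
      rw [cU, cB] at e
      exact Nat.eq_of_mul_eq_mul_left (by positivity) e
    rw [cU, hi]
    exact hcop
  have hc1 : Subgroup.IsComplement' ((Uni K).subgroupOf (Bor K)) ((Tor K).subgroupOf (Bor K)) := by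
    apply Subgroup.isComplement'_of_coprime
    · rw [cU, cT, cB]
    · rw [cU, cT]
      exact hcop
  have hc2 : Subgroup.IsComplement' ((Uni K).subgroupOf (Bor K))
      (((Tor K).map β.toMonoidHom).subgroupOf (Bor K)) := by
    apply Subgroup.isComplement'_of_coprime
    · rw [cU, cT', cB]
    · rw [cU, cT']
      exact hcop
  have hsU : Group.IsSolvable ((Uni K).subgroupOf (Bor K)) := by
    have hp : IsPGroup 3 ((Uni K).subgroupOf (Bor K)) :=
      IsPGroup.of_card (n := (2 * RCtx.m (K := K) + 1) * 3) (by rw [cU, hq, pow_mul])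
    haveI := hp.isNilpotent
    infer_instance
  obtain ⟨n, hconj⟩ := Cfsg.Agent.Lib.Hall.exists_conj_of_isComplement'_of_solvable
    ((Uni K).subgroupOf (Bor K)) cU' hsU _ _ hc2 hc1
  refine ⟨n.1, n.2, fun l => ?_⟩
  have h1 : (⟨β (dG l), hle ⟨_, dG_mem l, rfl⟩⟩ : Bor K) ∈
      ((Tor K).map β.toMonoidHom).subgroupOf (Bor K) :=
    Subgroup.mem_subgroupOf.mpr ⟨_, dG_mem l, rfl⟩
  have h2 := Subgroup.smul_mem_pointwise_smul _ (MulAut.conj n) _ h1
  rw [hconj] at h2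
  exact Subgroup.mem_subgroupOf.mp h2

theorem aut_decomp (α : MulAut (GR K)) :
    ∃ (g : GR K) (θ : K ≃+* K), α = MulAut.conj g * fieldA θ := by
  obtain ⟨g1, hg1⟩ := step1 α
  set β0 := MulAut.conj g1 * α with hβ0
  have hU0 : ∀ x ∈ Uni K, β0 x ∈ Uni K := by
    intro x hx
    rw [hβ0, MulAut.mul_apply, MulAut.conj_apply]
    exact hg1 x hx
  obtain ⟨b, hb, hbT⟩ := step2 β0 hU0
  set β1 := MulAut.conj b * β0 with hβ1
  have hU1 : ∀ t u v : K, ∃ t' u' v', β1 (uG t u v) = uG t' u' v' := by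
    intro t u v
    have hm : β1 (uG t u v) ∈ Uni K := by
      rw [hβ1, MulAut.mul_apply, MulAut.conj_apply]
      exact Bor_conj_Uni hb (hU0 _ (uG_mem t u v))
    exact mem_Uni.1 hm
  have hT1 : ∀ l : Kˣ, ∃ l', β1 (dG l) = dG l' := by
    intro l
    have hm := hbT l
    obtain ⟨l', e⟩ := mem_Tor.1 hm
    refine ⟨l', ?_⟩
    rw [hβ1, MulAut.mul_apply, MulAut.conj_apply]
    exact e
  obtain ⟨g2, θ, e⟩ := rig3 β1 hU1 hT1
  refine ⟨g1⁻¹ * (b⁻¹ * g2), θ, ?_⟩
  rw [map_mul, map_mul, map_inv, map_inv, mul_assoc, mul_assoc, ← e, hβ1, hβ0]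
  group

theorem fieldA_inner (θ : K ≃+* K) (g : GR K) (he : fieldA θ = MulAut.conj g) : θ = 1 := by
  have hU : ∀ t u v : K, g * uG t u v * g⁻¹ = uG (θ t) (θ u) (θ v) := by
    intro t u v
    have := congrArg (fun φ : MulAut (GR K) => φ (uG t u v)) he
    simp only [MulAut.conj_apply, fieldA_uG] at this
    exact this.symm
  have hT : ∀ l : Kˣ, g * dG l * g⁻¹ = dG (Units.map (θ : K →* K) l) := by
    intro l
    have := congrArg (fun φ : MulAut (GR K) => φ (dG l)) he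
    simp only [MulAut.conj_apply, fieldA_dG] at this
    exact this.symm
  have hg : g ∈ Bor K := TI_lem X1_mem X1_ne (by
    rw [hU]
    exact uG_mem _ _ _)
  -- an element of `B` acts trivially on the torus modulo `U`
  obtain ⟨a, b, c, w, rfl⟩ := mem_Bor.1 hg
  ext x
  by_cases hx : x = 0
  · simp [hx]
  let l : Kˣ := Units.mk0 x hx
  have e1 := hT l
  have e2 : dG w * dG l * (dG w)⁻¹ = dG l := by
    rw [← dG_inv, ← dG_mul, ← dG_mul, mul_comm w l, mul_inv_cancel_right]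
  have e3 : uG a b c * dG l * (uG a b c)⁻¹ = dG (Units.map (θ : K →* K) l) := by
    rw [← e1]
    calc uG a b c * dG l * (uG a b c)⁻¹ = uG a b c * (dG w * dG l * (dG w)⁻¹) * (uG a b c)⁻¹ := by rw [e2]
      _ = _ := by group
  have e4 : dG (Units.map (θ : K →* K) l * l⁻¹) = uG a b c * (dG l * (uG a b c)⁻¹ * (dG l)⁻¹) := by
    rw [dG_mul, ← e3, dG_inv]
    group
  have h5 : dG (Units.map (θ : K →* K) l * l⁻¹) ∈ Uni K := by
    rw [e4]
    refine mul_mem (uG_mem a b c) (Bor_conj_Uni (Tor_le_Bor (dG_mem l)) (inv_mem (uG_mem a b c)))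
  have h6 := Tor_inf_Uni (dG_mem _) h5
  rw [← dG_one] at h6
  have h7 := dG_inj h6
  have h8 : Units.map (θ : K →* K) l = l := by
    rwa [mul_inv_eq_one] at h7
  have h9 := congrArg Units.val h8
  exact h9

theorem card_out_GR : Nat.card (Cfsg.Out (GR K)) = Nat.card (K ≃+* K) := by
  let Ψ : (K ≃+* K) →* Cfsg.Out (GR K) := (QuotientGroup.mk' (Cfsg.Inn (GR K))).comp (fieldHom K)
  have hinj : Function.Injective Ψ := by
    rw [injective_iff_map_eq_one]
    intro θ hθ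
    have : fieldA θ ∈ Cfsg.Inn (GR K) := (QuotientGroup.eq_one_iff _).1 hθ
    obtain ⟨g, hg⟩ := this
    exact fieldA_inner θ g hg.symm
  have hsurj : Function.Surjective Ψ := by
    intro x
    obtain ⟨α, rfl⟩ := QuotientGroup.mk'_surjective _ x
    obtain ⟨g, θ, rfl⟩ := aut_decomp α
    refine ⟨θ, ?_⟩
    show QuotientGroup.mk' _ (fieldA θ) = QuotientGroup.mk' _ (MulAut.conj g * fieldA θ)
    rw [map_mul]
    have : QuotientGroup.mk' (Cfsg.Inn (GR K)) (MulAut.conj g) = 1 :=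
      (QuotientGroup.eq_one_iff _).2 ⟨g, rfl⟩
    rw [this, one_mul]
  exact (Nat.card_congr (Equiv.ofBijective Ψ ⟨hinj, hsurj⟩)).symm

end Cfsg.Agent.Lib.ReeAut
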